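import Mathlib
import Cfsg.Agent.H64.JzDefs

/-!
# JZ-NSE (piece of S2951/S2952)

A member `L` of the family of a Sylow 2-subgroup `S` of `G`, `L` a 2-local subgroup and
`O₂(G) = 1`, has a straddling 2-subgroup.  Otherwise `N_G(P) ≤ L` for every nontrivial 2-subgroup
`P ≤ L`; then every involution of `L` is `L`-conjugate to a fixed involution `z` of `Z(S)`
(via an involution outside `L`), and `z ∈ O₂(L)`, so `J(S) ≤ O₂(L)`: a contradiction.
-/

set_option autoImplicit false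
open Cfsg

namespace Cfsg.Agent.H46.Jz

universe u

/-- `O₂(L)` lies in a Sylow 2-subgroup of `G` contained in `L`. -/
theorem nse_pCoreOf_le_sylow {G : Type u} [Group G] [Finite G] (S : Sylow 2 G) (L : Subgroup G)
    (hSL : (S : Subgroup G) ≤ L) : pCoreOf 2 L ≤ (S : Subgroup G) := by
  have : Fact (Nat.Prime 2) := ⟨Nat.prime_two⟩
  have hn : (pCore 2 ↥L).Normal := Subgroup.sSup_normal _ (fun _ h => h.1)
  have hp : IsPGroup 2 ↥(pCore 2 ↥L) :=
    Sylow.sSup_of_normal _ (fun _ h => h.2) (fun _ h => h.1)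
  have h1 : pCore 2 ↥L ≤ ((S.subtype hSL : Sylow 2 ↥L) : Subgroup ↥L) :=
    hp.le_sylow_of_normal (S.subtype hSL)
  intro x hx
  obtain ⟨y, hy, rfl⟩ := hx
  have h2 := h1 hy
  rw [Sylow.coe_subtype, Subgroup.mem_subgroupOf] at h2
  exact h2

/-- `L` normalizes `O₂(L)`. -/
theorem nse_pCoreOf_conj {G : Type u} [Group G] (L : Subgroup G) {l x : G} (hl : l ∈ L)
    (hx : x ∈ pCoreOf 2 L) : l * x * l⁻¹ ∈ pCoreOf 2 L := by
  have hn : (pCore 2 ↥L).Normal := Subgroup.sSup_normal _ (fun _ h => h.1)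
  obtain ⟨y, hy, rfl⟩ := hx
  exact ⟨(⟨l, hl⟩ : ↥L) * y * (⟨l, hl⟩ : ↥L)⁻¹, hn.conj_mem y hy ⟨l, hl⟩, rfl⟩

theorem nse : Cfsg.Agent.H64.Jz.StNSE.{u} := by
  intro G _ _ hZN hO2 S L hL2 hNJ hLS
  have : Fact (Nat.Prime 2) := ⟨Nat.prime_two⟩
  by_contra hne
  -- no straddling subgroup: `N_G(P) ≤ L` for nontrivial 2-subgroups `P ≤ L`
  have hNS : ∀ P : Subgroup G, IsPGroup 2 ↥P → P ≠ ⊥ → P ≤ L →
      Subgroup.normalizer (P : Set G) ≤ L := by
    intro P hP hP1 hPL
    by_contra hnot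
    exact hne ⟨P, hP, hP1, hPL, Subgroup.normalizer (P : Set G), ⟨P, hP, hP1, rfl⟩,
      Subgroup.le_normalizer, hnot⟩
  obtain ⟨⟨hSL, hS2, hodd⟩, hJ, hC⟩ := hLS
  -- centralizers of involutions of `L` lie in `L`
  have hCinv : ∀ x : G, x ∈ L → x ≠ 1 → x * x = 1 → ∀ c : G, c * x = x * c → c ∈ L := by
    intro x hxL hx1 hxx c hc
    have hord : orderOf x = 2 := orderOf_eq_prime (by rw [pow_two]; exact hxx) hx1
    have hP : IsPGroup 2 ↥(Subgroup.zpowers x) :=
      IsPGroup.of_card (n := 1) (by rw [Nat.card_zpowers, hord, pow_one])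
    have hP1 : Subgroup.zpowers x ≠ ⊥ := fun h => hx1 (Subgroup.zpowers_eq_bot.mp h)
    have hPL : Subgroup.zpowers x ≤ L := by
      rw [Subgroup.zpowers_le]; exact hxL
    apply hNS _ hP hP1 hPL
    have key : ∀ k : ℤ, c * x ^ k * c⁻¹ = x ^ k := by
      intro k
      have h := (Commute.zpow_right (show Commute c x from hc) k).eq
      rw [h, mul_inv_cancel_right]
    rw [Subgroup.mem_normalizer_iff]
    intro y
    constructor
    · rintro ⟨k, rfl⟩
      exact ⟨k, (key k).symm⟩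
    · rintro ⟨k, hk⟩
      have hk' : x ^ k = c * y * c⁻¹ := hk
      have h2 : c * x ^ k * c⁻¹ = c * y * c⁻¹ := (key k).trans hk'
      have h3 : x ^ k = y := mul_left_cancel (mul_right_cancel h2)
      exact ⟨k, h3⟩
  -- `L ≠ G`
  have hLtop : ∃ g0 : G, g0 ∉ L := by
    by_contra hall
    push Not at hall
    obtain ⟨T0, hT0, hT01, hLeq⟩ := hL2
    have hLt : L = ⊤ := (Subgroup.eq_top_iff' L).mpr hall
    have hnt : Subgroup.normalizer (T0 : Set G) = ⊤ := hLeq ▸ hLt
    have hnorm : T0.Normal := Subgroup.normalizer_eq_top_iff.mp hnt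
    have hle : T0 ≤ pCore 2 G := le_sSup ⟨hnorm, hT0⟩
    rw [hO2] at hle
    exact hT01 (le_bot_iff.mp hle)
  -- `S ≠ 1`
  have hS1 : (S : Subgroup G) ≠ ⊥ := by
    intro h
    apply hJ
    have h1 : thompsonSubgroupOf 2 (S : Subgroup G) ≤ (S : Subgroup G) := by
      unfold thompsonSubgroupOf
      exact Subgroup.map_subtype_le _
    exact (h1.trans h.le).trans bot_le
  -- a central involution of `S`
  obtain ⟨z, hzS, hz1, hzz, hzc⟩ : ∃ z : G, z ∈ (S : Subgroup G) ∧ z ≠ 1 ∧ z * z = 1 ∧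
      ∀ s ∈ (S : Subgroup G), s * z = z * s := by
    have : Nontrivial ↥(S : Subgroup G) := (Subgroup.nontrivial_iff_ne_bot _).mpr hS1
    have hcp : IsPGroup 2 ↥(Subgroup.center ↥(S : Subgroup G)) := S.isPGroup'.to_subgroup _
    have hcn : Nontrivial ↥(Subgroup.center ↥(S : Subgroup G)) := S.isPGroup'.center_nontrivial
    obtain ⟨n, hn0, hn⟩ := (hcp.nontrivial_iff_card).mp hcn
    have hdvd : 2 ∣ Nat.card ↥(Subgroup.center ↥(S : Subgroup G)) := by
      rw [hn]; exact dvd_pow_self 2 (Nat.pos_iff_ne_zero.mp hn0)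
    obtain ⟨c, hc⟩ := exists_prime_orderOf_dvd_card' 2 hdvd
    refine ⟨((c : ↥(S : Subgroup G)) : G), (c : ↥(S : Subgroup G)).2, ?_, ?_, ?_⟩
    · intro h
      have hc1 : c = 1 := by
        apply Subtype.ext
        apply Subtype.ext
        exact h
      rw [hc1, orderOf_one] at hc
      omega
    · have h2 : c ^ 2 = 1 := by
        have h9 := pow_orderOf_eq_one c
        rwa [hc] at h9
      have h3 := congrArg
        (fun t : ↥(Subgroup.center ↥(S : Subgroup G)) => ((t : ↥(S : Subgroup G)) : G)) h2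
      simpa [pow_two] using h3
    · intro s hs
      have h4 := Subgroup.mem_center_iff.mp c.2 ⟨s, hs⟩
      exact congrArg Subtype.val h4
  -- `z ∈ O₂(L)`
  have hOS : pCoreOf 2 L ≤ (S : Subgroup G) := nse_pCoreOf_le_sylow S L hSL
  have hzO : z ∈ pCoreOf 2 L := by
    apply hC
    rw [Subgroup.mem_centralizer_iff]
    intro y hy
    exact hzc y (hOS hy)
  -- key: `g z g⁻¹ ∈ L` forces `g ∈ L`
  have hkey : ∀ g : G, g * z * g⁻¹ ∈ L → g ∈ L := by
    intro g hg
    have hy1 : g * z * g⁻¹ ≠ 1 := by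
      intro h
      apply hz1
      have h5 : z = g⁻¹ * (g * z * g⁻¹) * g := by group
      rw [h5, h]; group
    have hyy : g * z * g⁻¹ * (g * z * g⁻¹) = 1 := by
      have h5 : g * z * g⁻¹ * (g * z * g⁻¹) = g * (z * z) * g⁻¹ := by group
      rw [h5, hzz]; group
    have hconj : ∀ s ∈ (S : Subgroup G), g * s * g⁻¹ ∈ L := by
      intro s hs
      apply hCinv (g * z * g⁻¹) hg hy1 hyy
      have h1 : g * s * g⁻¹ * (g * z * g⁻¹) = g * (s * z) * g⁻¹ := by group
      have h2 : g * z * g⁻¹ * (g * s * g⁻¹) = g * (z * s) * g⁻¹ := by group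
      rw [h1, h2, hzc s hs]
    have hgS : ((g • S : Sylow 2 G) : Subgroup G) ≤ L := by
      intro x hx
      rw [Sylow.coe_subgroup_smul, Subgroup.mem_pointwise_smul_iff_inv_smul_mem,
        MulAut.smul_def, MulAut.conj_inv_apply] at hx
      have h6 := hconj _ hx
      have h7 : g * (g⁻¹ * x * g) * g⁻¹ = x := by group
      rw [h7] at h6
      exact h6
    obtain ⟨m, hm⟩ := MulAction.exists_smul_eq ↥L (S.subtype hSL) ((g • S).subtype hgS)
    rw [Sylow.smul_subtype] at hm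
    have hm2 : (m • S : Sylow 2 G) = g • S := Sylow.subtype_injective hm
    have hm3 : ((m : G) • S : Sylow 2 G) = g • S := hm2
    have hm4 : (g⁻¹ * (m : G)) • S = S := by
      rw [mul_smul, hm3, inv_smul_smul]
    have hm5 := Sylow.smul_eq_iff_mem_normalizer.mp hm4
    have hm6 : g⁻¹ * (m : G) ∈ L := hNS (S : Subgroup G) S.isPGroup' hS1 hSL hm5
    have hm7 := L.mul_mem m.2 (L.inv_mem hm6)
    have hm8 : (m : G) * (g⁻¹ * (m : G))⁻¹ = g := by group
    rw [hm8] at hm7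
    exact hm7
  -- an involution outside `L`
  obtain ⟨g0, hg0⟩ := hLtop
  have hyL : g0 * z * g0⁻¹ ∉ L := fun h => hg0 (hkey g0 h)
  have hyy : g0 * z * g0⁻¹ * (g0 * z * g0⁻¹) = 1 := by
    have h5 : g0 * z * g0⁻¹ * (g0 * z * g0⁻¹) = g0 * (z * z) * g0⁻¹ := by group
    rw [h5, hzz]; group
  generalize hydef : g0 * z * g0⁻¹ = y at hyL hyy
  -- every involution of `L` lies in `O₂(L)`
  have hinvO : ∀ x : G, x ∈ L → x * x = 1 → x ∈ pCoreOf 2 L := by
    intro x hxL hxx
    by_cases hx1 : x = 1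
    · rw [hx1]; exact one_mem _
    have hxinv : x⁻¹ = x := inv_eq_of_mul_eq_one_right hxx
    have hyinv : y⁻¹ = y := inv_eq_of_mul_eq_one_right hyy
    have huinv : (x * y)⁻¹ = y * x := by rw [mul_inv_rev, hxinv, hyinv]
    have hodd' : Odd (orderOf (x * y)) := by
      by_contra hev
      rw [Nat.not_odd_iff_even] at hev
      obtain ⟨m, hm⟩ := hev
      have hpos : 0 < orderOf (x * y) := orderOf_pos _
      have ht1 : (x * y) ^ m ≠ 1 := by
        intro h
        have h8 := Nat.le_of_dvd (by omega) (orderOf_dvd_of_pow_eq_one h)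
        omega
      have htt : (x * y) ^ m * (x * y) ^ m = 1 := by
        rw [← pow_add, ← hm, pow_orderOf_eq_one]
      have htinv : ((x * y) ^ m)⁻¹ = (x * y) ^ m := inv_eq_of_mul_eq_one_right htt
      have hxt : x * (x * y) ^ m = (x * y) ^ m * x := by
        have h1 : x * (x * y) ^ m * x⁻¹ = (x * (x * y) * x⁻¹) ^ m := by rw [conj_pow]
        have h2 : x * (x * y) * x⁻¹ = (x * y)⁻¹ := by
          rw [huinv, hxinv, ← mul_assoc, hxx, one_mul]
        rw [h2, inv_pow, htinv] at h1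
        calc x * (x * y) ^ m = x * (x * y) ^ m * x⁻¹ * x := by group
          _ = (x * y) ^ m * x := by rw [h1]
      have hyt : y * (x * y) ^ m = (x * y) ^ m * y := by
        have h1 : y * (x * y) ^ m * y⁻¹ = (y * (x * y) * y⁻¹) ^ m := by rw [conj_pow]
        have h2 : y * (x * y) * y⁻¹ = (x * y)⁻¹ := by
          rw [huinv, hyinv, mul_assoc, mul_assoc, hyy, mul_one]
        rw [h2, inv_pow, htinv] at h1
        calc y * (x * y) ^ m = y * (x * y) ^ m * y⁻¹ * y := by group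
          _ = (x * y) ^ m * y := by rw [h1]
      have htL : (x * y) ^ m ∈ L := hCinv x hxL hx1 hxx _ hxt.symm
      exact hyL (hCinv _ htL ht1 htt y hyt)
    obtain ⟨m, hm⟩ := hodd'
    have h4 : x * ((x * y) ^ m)⁻¹ * x⁻¹ = (x * y) ^ m := by
      have h5 : x * (x * y)⁻¹ * x⁻¹ = x * y := by
        rw [huinv, hxinv, mul_assoc, mul_assoc, hxx, mul_one]
      rw [← inv_pow, ← conj_pow, h5]
    have h6 : (x * y) ^ (2 * m) = (x * y)⁻¹ := by
      apply eq_inv_of_mul_eq_one_left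
      rw [← pow_succ, ← hm, pow_orderOf_eq_one]
    have hconj : (x * y) ^ m * x * ((x * y) ^ m)⁻¹ = y := by
      calc (x * y) ^ m * x * ((x * y) ^ m)⁻¹
          = (x * y) ^ m * (x * ((x * y) ^ m)⁻¹ * x⁻¹) * x := by group
        _ = (x * y) ^ m * (x * y) ^ m * x := by rw [h4]
        _ = (x * y) ^ (2 * m) * x := by rw [← pow_add, two_mul]
        _ = (x * y)⁻¹ * x := by rw [h6]
        _ = y := by rw [huinv, mul_assoc, hxx, mul_one]
    have hx_eq : x = (((x * y) ^ m)⁻¹ * g0) * z * (((x * y) ^ m)⁻¹ * g0)⁻¹ := by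
      have h7' : ∀ w : G, w * x * w⁻¹ = y → x = w⁻¹ * y * w := by
        intro w hw
        rw [← hw]; group
      have h7 : x = ((x * y) ^ m)⁻¹ * y * (x * y) ^ m := h7' _ hconj
      have h8 : (((x * y) ^ m)⁻¹ * g0) * z * (((x * y) ^ m)⁻¹ * g0)⁻¹
          = ((x * y) ^ m)⁻¹ * (g0 * z * g0⁻¹) * (x * y) ^ m := by group
      rw [h8, hydef]
      exact h7
    have hmem : ((x * y) ^ m)⁻¹ * g0 ∈ L := hkey _ (hx_eq ▸ hxL)
    rw [hx_eq]
    exact nse_pCoreOf_conj L hmem hzO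
  -- `J(S) ≤ O₂(L)`
  apply hJ
  unfold thompsonSubgroupOf thompsonSubgroup
  rw [Subgroup.map_le_iff_le_comap]
  apply sSup_le
  intro A hA a ha
  rw [Subgroup.mem_comap]
  have h2 := hA.1.2 a ha
  apply hinvO
  · exact hSL a.2
  · have h3 := congrArg Subtype.val h2
    simpa [pow_two] using h3

example : Cfsg.Agent.H64.Jz.StNSE.{u} := nse

end Cfsg.Agent.H46.Jz
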