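import Cfsg.Agent.H23.StbHatDefs
import Cfsg.Prelude.Def_ChevAutomorphisms
import Cfsg.Prelude.Def_LieTypes
import Cfsg.Prelude.Def_ChevB2
import Cfsg.Prelude.Def_KGroupFacts

/-!
# S2159 (structure of `Out` of the Chevalley groups of types G₂, B₂, D₄, F₄, E₆, E₇, E₈): statements of the
team-project pieces (helper46)

`D̄` = image of the group generated by the diagonal automorphisms, `F̄` = image of the group generated by the field
automorphisms.  Given the decomposition `Aut = Inn · Diag · Graph · Field` (S2156), the claims are formal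
consequences of: diagonal automorphisms commute, field automorphisms form a cyclic group, graph and field
automorphisms normalise the diagonal ones, graph and field automorphisms commute (S2160), and the graph
automorphisms form a group which is at most `{1, a}` with `a²` a field automorphism, or (type D₄) a quotient
of the symmetric group on three letters.
-/

set_option autoImplicit false

namespace Cfsg.Agent.H46.OS

open Cfsg Cfsg.Lie Cfsg.Agent.H23 Cfsg.Agent.H23.Stb
open scoped MatrixGroups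

universe u

/-- The seven types of S2156 / S2159. -/
abbrev Seven : List ChevalleyDatum := [chevG2, chevB2, chevD4, chevF4, chevE6, chevE7, chevE8]

/-- **OS-DEC**: the statement of S2156. -/
def StDec : Prop :=
  ∀ (F : Type u) [Field F] [Finite F] (D : ChevalleyDatum), D ∈ Seven →
    ∀ θ : ↥(D.group F) ≃* ↥(D.group F),
    ∃ (x : ↥(D.group F)) (d g f : ↥(D.group F) ≃* ↥(D.group F)),
      D.IsDiagonalAut d ∧ D.IsGraphAut g ∧ D.IsFieldAut f ∧ ∀ y : ↥(D.group F), θ y = x * d (g (f y)) * x⁻¹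

/-- **OS-DCOMM**: diagonal automorphisms commute. -/
def StDComm : Prop :=
  ∀ (F : Type u) [Field F] (D : ChevalleyDatum) (d d' : MulAut ↥(D.group F)),
    D.IsDiagonalAut d → D.IsDiagonalAut d' → d * d' = d' * d

/-- **OS-FEX**: every automorphism of the field induces a field automorphism of the group. -/
def StFEx : Prop :=
  ∀ (F : Type u) [Field F] (D : ChevalleyDatum), D ∈ Seven → ∀ σ : F ≃+* F,
    ∃ f : MulAut ↥(D.group F), ∀ (g : ↥(D.group F)) (r : ℕ) (t : F), r < D.nroots →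
      ((g : GL D.Idx F) : Matrix D.Idx D.Idx F) = D.x F r t →
      ((f g : GL D.Idx F) : Matrix D.Idx D.Idx F) = D.x F r (σ t)

/-- **OS-FCYC**: the field automorphisms lie in one cyclic group. -/
def StFCyc : Prop :=
  ∀ (F : Type u) [Field F] [Finite F] (D : ChevalleyDatum), D ∈ Seven →
    ∃ φ0 : MulAut ↥(D.group F), ∀ f : MulAut ↥(D.group F), D.IsFieldAut f → f ∈ Subgroup.zpowers φ0

/-- **OS-DNF**: field automorphisms normalise the set of diagonal automorphisms. -/
def StDNF : Prop :=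
  ∀ (F : Type u) [Field F] [Finite F] (D : ChevalleyDatum), D ∈ Seven →
    ∀ f d : MulAut ↥(D.group F), D.IsFieldAut f → D.IsDiagonalAut d → D.IsDiagonalAut (f * d * f⁻¹)

/-- **OS-DNG**: graph automorphisms normalise the set of diagonal automorphisms. -/
def StDNG : Prop :=
  ∀ (F : Type u) [Field F] [Finite F] (D : ChevalleyDatum), D ∈ Seven →
    ∀ m : ℕ → ℕ → ℤ, Coord D m →
    (∀ r < D.nroots, ∀ s < D.nroots, ∀ k, D.chainRoot r s 1 = some k →
      k < D.nroots ∧ s ≠ r ∧ s ≠ D.neg r) →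
    ∀ g d : MulAut ↥(D.group F), D.IsGraphAut g → D.IsDiagonalAut d → D.IsDiagonalAut (g * d * g⁻¹)

/-- **OS-SYM**: the diagram has at most one non-trivial symmetry `π0`, an involution, and the product of the two
exponents of a graph automorphism along `i ↦ π0 i ↦ i` does not depend on `i`: always `1`, or always `c`. -/
def StSym2 (D : ChevalleyDatum) : Prop :=
  ∃ π0 : Equiv.Perm (Fin D.rank), π0 * π0 = 1 ∧
    (∀ π : Equiv.Perm (Fin D.rank), D.IsDiagramSymmetry π → π = 1 ∨ π = π0) ∧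
    ((∀ (c : ℕ) (i : Fin D.rank), D.graphExp c i (π0 i) * D.graphExp c (π0 i) i = 1) ∨
     (∀ (c : ℕ) (i : Fin D.rank), D.graphExp c i (π0 i) * D.graphExp c (π0 i) i = c))

/-- **OS-GRAPH2**: with at most one non-trivial diagram symmetry, the graph automorphisms are `1` and at most one
more, `a`, whose square is a field automorphism. -/
def StGraph2 : Prop :=
  ∀ (F : Type u) [Field F] [Finite F] (D : ChevalleyDatum), D ∈ Seven → StSym2 D →
    ∃ a : MulAut ↥(D.group F), D.IsFieldAut (a * a) ∧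
      ∀ g : MulAut ↥(D.group F), D.IsGraphAut g → g = 1 ∨ g = a

/-- A graph automorphism of `D₄(F)` exists for some diagram symmetry with the property `P`. -/
def StD4G (P : Equiv.Perm (Fin chevD4.rank) → Prop) : Prop :=
  ∀ (F : Type u) [Field F], ∃ (π : Equiv.Perm (Fin chevD4.rank)) (a : MulAut ↥(chevD4.group F)),
    P π ∧ chevD4.IsDiagramSymmetry π ∧
    ∀ (g : ↥(chevD4.group F)) (i : Fin chevD4.rank) (t : F),
      (((g : GL chevD4.Idx F) : Matrix chevD4.Idx chevD4.Idx F) = chevD4.x F (chevD4.simple i) t →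
        ((a g : GL chevD4.Idx F) : Matrix chevD4.Idx chevD4.Idx F) = chevD4.x F (chevD4.simple (π i)) t) ∧
      (((g : GL chevD4.Idx F) : Matrix chevD4.Idx chevD4.Idx F) = chevD4.x F (chevD4.neg (chevD4.simple i)) t →
        ((a g : GL chevD4.Idx F) : Matrix chevD4.Idx chevD4.Idx F) =
          chevD4.x F (chevD4.neg (chevD4.simple (π i))) t)

/-- **OS-D4T**: `D₄(F)` has a graph automorphism for a transposition of the diagram. -/
def StD4T : Prop := StD4G.{u} (fun π => π ≠ 1 ∧ π * π = 1)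

/-- **OS-D4C**: `D₄(F)` has a graph automorphism for a 3-cycle of the diagram (triality). -/
def StD4C : Prop := StD4G.{u} (fun π => π ≠ 1 ∧ π * π * π = 1)

/-- **OS-GRAPH6**: the graph automorphisms of `D₄(F)` are the six elements of a group generated by two involutions
`a`, `b` with `(ab)³ = 1`. -/
def StGraph6 : Prop :=
  ∀ (F : Type u) [Field F] [Finite F], ∃ a b : MulAut ↥(chevD4.group F),
    a * a = 1 ∧ b * b = 1 ∧ (a * b) ^ 3 = 1 ∧
    ∀ g : MulAut ↥(chevD4.group F), chevD4.IsGraphAut g →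
      g = 1 ∨ g = a ∨ g = b ∨ g = a * b ∨ g = b * a ∨ g = a * b * a

/-- **OS-ABSN** (pure group theory): normality, commutativity and cyclicity in `A ⧸ I`. -/
def StAbsN : Prop :=
  ∀ (A : Type u) [Group A] (I : Subgroup A) [I.Normal] (Dg Fd Gr : Set A),
    (∀ d ∈ Dg, ∀ d' ∈ Dg, d * d' = d' * d) →
    (∃ φ0 : A, ∀ f ∈ Fd, f ∈ Subgroup.zpowers φ0) →
    (∀ f ∈ Fd, ∀ d ∈ Dg, f * d * f⁻¹ ∈ Dg) →
    (∀ g ∈ Gr, ∀ d ∈ Dg, g * d * g⁻¹ ∈ Dg) →
    (∀ g ∈ Gr, ∀ f ∈ Fd, g * f = f * g) →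
    (∀ θ : A, ∃ i ∈ I, ∃ d ∈ Dg, ∃ g ∈ Gr, ∃ f ∈ Fd, θ = i * d * g * f) →
    ∀ Dbar Fbar : Subgroup (A ⧸ I),
      Dbar = (Subgroup.closure Dg).map (QuotientGroup.mk' I) →
      Fbar = (Subgroup.closure Fd).map (QuotientGroup.mk' I) →
      Dbar.Normal ∧ IsMulCommutative ↥Dbar ∧ IsCyclic ↥Fbar ∧ (Dbar ⊔ Fbar).Normal ∧
        ∀ q : A ⧸ I, ∃ g ∈ Gr, q * (QuotientGroup.mk' I g)⁻¹ ∈ Dbar ⊔ Fbar

/-- **OS-ABSI** (pure group theory): the index of a normal subgroup `N` all of whose cosets are represented by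
a set `Gr` which is `{1, a}` with `a² ∈ N`, or `{1, a, b, ab, ba, aba}` with `a² = b² = (ab)³ = 1`. -/
def StAbsI : Prop :=
  ∀ (Q : Type u) [Group Q] (N : Subgroup Q) [N.Normal] (Gr : Set Q),
    (∀ q : Q, ∃ g ∈ Gr, q * g⁻¹ ∈ N) →
    ((∃ a : Q, a * a ∈ N ∧ ∀ g ∈ Gr, g = 1 ∨ g = a) ∨
     (∃ a b : Q, a * a = 1 ∧ b * b = 1 ∧ (a * b) ^ 3 = 1 ∧
        ∀ g ∈ Gr, g = 1 ∨ g = a ∨ g = b ∨ g = a * b ∨ g = b * a ∨ g = a * b * a)) →
    N.index = 1 ∨ N.index = 2 ∨ (N.index = 6 ∧ ¬ commutator Q ≤ N)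

end Cfsg.Agent.H46.OS
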