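import Cfsg.Agent.H46.OSChain
import Cfsg.Agent.H23.ChFE7
import Cfsg.Agent.H23.ChFE8

/-!
# S2159: the chain table fact for E₇ and E₈, through helper23's packed chain tables (helper46)
-/

set_option autoImplicit false

namespace Cfsg.Agent.H46.OS

open Cfsg Cfsg.Lie Cfsg.Agent.H23

/-- Row check: no chain at `(r, r)` and `(r, -r)`; the first entry of every chain is a root index. -/
def chainRowP (D : ChevalleyDatum) (CH r : ℕ) : Bool :=
  (chainF D.nroots CH r r).isEmpty && ((chainF D.nroots CH r (D.neg r)).isEmpty &&
    allFrom (fun s => match chainF D.nroots CH r s with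
      | [] => true
      | x :: _ => Nat.blt x.1 D.nroots) 0 D.nroots)

theorem chainF_of_packed {D : ChevalleyDatum} {CH : ℕ} (h : ChFOK D CH)
    (hr : ∀ r < D.nroots, chainRowP D CH r = true) : ChainF D := by
  intro r hr' s hs k hk
  have h0 := hr r hr'
  unfold chainRowP at h0
  rw [Bool.and_eq_true, Bool.and_eq_true] at h0
  obtain ⟨h1, h2, h3⟩ := h0
  unfold ChevalleyDatum.chainRoot at hk
  rw [h.entry r s] at hk
  refine ⟨?_, ?_, ?_⟩
  · have h4 := allFrom_sound _ 0 D.nroots h3 s (Nat.zero_le s) (by omega)
    rcases hl : chainF D.nroots CH r s with _ | ⟨x, l⟩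
    · rw [hl] at hk; simp at hk
    · rw [hl] at hk h4
      simp only [Nat.sub_self, List.getElem?_cons_zero, Option.map_some, Option.some.injEq] at hk
      have h5 : Nat.blt x.1 D.nroots = true := h4
      rw [Nat.blt_eq] at h5
      rw [← hk]; exact h5
  · rintro rfl
    rw [List.isEmpty_iff] at h1
    rw [h1] at hk; simp at hk
  · rintro rfl
    rw [List.isEmpty_iff] at h2
    rw [h2] at hk; simp at hk

theorem chainRows_E7_0 : allFrom (chainRowP chevE7 chFE7) 0 63 = true := by decide +kernel
theorem chainRows_E7_63 : allFrom (chainRowP chevE7 chFE7) 63 63 = true := by decide +kernel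

theorem chain_E7 : ChainF chevE7 := by
  apply chainF_of_packed chfOK_E7
  intro r hr
  have hn : chevE7.nroots = 126 := by decide
  rw [hn] at hr
  by_cases h : r < 63
  · exact allFrom_sound _ 0 63 chainRows_E7_0 r (Nat.zero_le r) (by omega)
  · exact allFrom_sound _ 63 63 chainRows_E7_63 r (by omega) (by omega)

theorem chainRows_E8_0 : allFrom (chainRowP chevE8 chFE8) 0 60 = true := by decide +kernel
theorem chainRows_E8_60 : allFrom (chainRowP chevE8 chFE8) 60 60 = true := by decide +kernel
theorem chainRows_E8_120 : allFrom (chainRowP chevE8 chFE8) 120 60 = true := by decide +kernel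
theorem chainRows_E8_180 : allFrom (chainRowP chevE8 chFE8) 180 60 = true := by decide +kernel

theorem chain_E8 : ChainF chevE8 := by
  apply chainF_of_packed chfOK_E8
  intro r hr
  have hn : chevE8.nroots = 240 := by decide
  rw [hn] at hr
  by_cases h1 : r < 60
  · exact allFrom_sound _ 0 60 chainRows_E8_0 r (Nat.zero_le r) (by omega)
  by_cases h2 : r < 120
  · exact allFrom_sound _ 60 60 chainRows_E8_60 r (by omega) (by omega)
  by_cases h3 : r < 180
  · exact allFrom_sound _ 120 60 chainRows_E8_120 r (by omega) (by omega)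
  · exact allFrom_sound _ 180 60 chainRows_E8_180 r (by omega) (by omega)

end Cfsg.Agent.H46.OS
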