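import Cfsg.Agent.H46.OutMain
import Cfsg.Agent.H23.OrdH
import Cfsg.Agent.H23.CommAllE8
import Cfsg.Agent.H23.CanonTab
import Cfsg.Agent.H23.SylowU
import Cfsg.Agent.H23.Gens

/-!
# The table facts of type `E₈` and `|Out(E₈(q))| = f` from the pieces of S2125/S2124 (helper46; backup for S2125)
-/

set_option autoImplicit false

namespace Cfsg.Agent.H46.OutE

open Cfsg.Lie Cfsg.Agent.H23 Cfsg.Agent.H23.Stb

universe u

/-- The edges of the Dynkin diagram of type `E₈` (nodes numbered from 0, as in the tables). -/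
def adjL8 : List (ℕ × ℕ) :=
  [(0, 2), (2, 0), (1, 3), (3, 1), (2, 3), (3, 2), (3, 4), (4, 3), (4, 5), (5, 4), (5, 6), (6, 5), (6, 7),
    (7, 6)]

/-- Adjacency in the Dynkin diagram of type `E₈`. -/
abbrev adj8 (i j : ℕ) : Prop := (i, j) ∈ adjL8

theorem e8_w0 : ∀ i < chevE8.rank, reflW chevE8 w0E8 (chevE8.neg (chevE8.simple i)) = chevE8.simple i := by
  decide +kernel

set_option synthInstance.maxSize 4096 in
set_option synthInstance.maxHeartbeats 400000 in
theorem e8_c2T : ∀ i < chevE8.rank, ∀ j < chevE8.rank, i ≠ j →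
    chevE8.commTerms (chevE8.simple j) (chevE8.neg (chevE8.simple i)) = [] ∧
    chevE8.neg (chevE8.simple i) < chevE8.nroots ∧
    chevE8.neg (chevE8.simple i) ≠ chevE8.simple j ∧
    chevE8.neg (chevE8.simple i) ≠ chevE8.neg (chevE8.simple j) ∧
    chevE8.simple j ≠ chevE8.simple i ∧ chevE8.simple j ≠ chevE8.neg (chevE8.simple i) := by
  decide +kernel

set_option synthInstance.maxSize 4096 in
set_option synthInstance.maxHeartbeats 400000 in
theorem e8_nadjT : ∀ i < chevE8.rank, ∀ j < chevE8.rank, i ≠ j → ¬ adj8 i j →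
    chevE8.commTerms (chevE8.simple i) (chevE8.simple j) = [] := by
  decide +kernel

set_option synthInstance.maxSize 4096 in
set_option synthInstance.maxHeartbeats 400000 in
theorem e8_adjT : ∀ i < chevE8.rank, ∀ j < chevE8.rank, adj8 i j →
    (chevE8.commTerms (chevE8.simple i) (chevE8.simple j)).length = 1 ∧
    ∀ c ∈ chevE8.commTerms (chevE8.simple i) (chevE8.simple j),
      c.1 < chevE8.nroots ∧ (c.2.1 = 1 ∨ c.2.1 = -1) ∧ c.2.2.1 = 1 ∧ c.2.2.2 = 1 := by
  decide +kernel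

/-- The inverse of the Cartan matrix of type `E₈`. -/
def aiL8 : List (List ℤ) :=
  [[4, 5, 7, 10, 8, 6, 4, 2], [5, 8, 10, 15, 12, 9, 6, 3], [7, 10, 14, 20, 16, 12, 8, 4],
    [10, 15, 20, 30, 24, 18, 12, 6], [8, 12, 16, 24, 20, 15, 10, 5], [6, 9, 12, 18, 15, 12, 8, 4],
    [4, 6, 8, 12, 10, 8, 6, 3], [2, 3, 4, 6, 5, 4, 3, 2]]

theorem e8_A1 : ∀ i j : Fin chevE8.rank,
    mulZ (fun i j : Fin chevE8.rank => zR chevE8 ctblE8 (chevE8.simple j) (chevE8.simple i))
      (matL aiL8) i j = ((1 : ℕ) : ℤ) * idZ i j := by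
  decide +kernel

theorem e8_A2 : ∀ i j : Fin chevE8.rank,
    mulZ (matL aiL8)
      (fun i j : Fin chevE8.rank => zR chevE8 ctblE8 (chevE8.simple j) (chevE8.simple i)) i j =
        ((1 : ℕ) : ℤ) * idZ i j := by
  decide +kernel

theorem e8_zneg : ∀ i < chevE8.rank, ∀ j < chevE8.rank,
    zR chevE8 ctblE8 (chevE8.simple j) (chevE8.neg (chevE8.simple i)) =
      - zR chevE8 ctblE8 (chevE8.simple j) (chevE8.simple i) := by
  decide +kernel

theorem e8_conn1 : ∀ i < chevE8.rank, ∃ j < chevE8.rank,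
    zR chevE8 ctblE8 (chevE8.simple j) (chevE8.simple i) = -1 := by
  decide +kernel

theorem e8_edges : zR chevE8 ctblE8 (chevE8.simple 2) (chevE8.simple 0) = -1 ∧
    zR chevE8 ctblE8 (chevE8.simple 3) (chevE8.simple 2) = -1 ∧
    zR chevE8 ctblE8 (chevE8.simple 1) (chevE8.simple 3) = -1 ∧
    zR chevE8 ctblE8 (chevE8.simple 4) (chevE8.simple 3) = -1 ∧
    zR chevE8 ctblE8 (chevE8.simple 5) (chevE8.simple 4) = -1 ∧
    zR chevE8 ctblE8 (chevE8.simple 6) (chevE8.simple 5) = -1 ∧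
    zR chevE8 ctblE8 (chevE8.simple 7) (chevE8.simple 6) = -1 := by
  decide +kernel

theorem e8_conn2 : ∀ P : ℕ → Prop, P 0 →
    (∀ i < chevE8.rank, ∀ j < chevE8.rank,
      zR chevE8 ctblE8 (chevE8.simple j) (chevE8.simple i) = -1 → P i → P j) → ∀ i < chevE8.rank, P i := by
  intro P h0 hstep i hi
  obtain ⟨e1, e2, e3, e4, e5, e6, e7⟩ := e8_edges
  have hr : chevE8.rank = 8 := rfl
  have h2 : P 2 := hstep 0 (by omega) 2 (by omega) e1 h0
  have h3 : P 3 := hstep 2 (by omega) 3 (by omega) e2 h2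
  have h1 : P 1 := hstep 3 (by omega) 1 (by omega) e3 h3
  have h4 : P 4 := hstep 3 (by omega) 4 (by omega) e4 h3
  have h5 : P 5 := hstep 4 (by omega) 5 (by omega) e5 h4
  have h6 : P 6 := hstep 5 (by omega) 6 (by omega) e6 h5
  have h7 : P 7 := hstep 6 (by omega) 7 (by omega) e7 h6
  have hi' : i < 8 := hi
  interval_cases i <;> assumption

set_option synthInstance.maxSize 8192 in
set_option synthInstance.maxHeartbeats 800000 in
theorem e8_rigFin : ∀ p3 : Fin 8, ∀ p1 : Fin 8, adj8 p3.1 p1.1 → ∀ p2 : Fin 8, adj8 p3.1 p2.1 → p1 ≠ p2 →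
    ∀ p4 : Fin 8, adj8 p3.1 p4.1 → p1 ≠ p4 → p2 ≠ p4 → ∀ p0 : Fin 8, adj8 p2.1 p0.1 → p0 ≠ p3 →
    ∀ p5 : Fin 8, adj8 p4.1 p5.1 → p5 ≠ p3 → ∀ p6 : Fin 8, adj8 p5.1 p6.1 → p6 ≠ p4 →
    ∀ p7 : Fin 8, adj8 p6.1 p7.1 → p7 ≠ p5 →
    p3.1 = 3 ∧ p1.1 = 1 ∧ p2.1 = 2 ∧ p4.1 = 4 ∧ p0.1 = 0 ∧ p5.1 = 5 ∧ p6.1 = 6 ∧ p7.1 = 7 := by
  decide +kernel

theorem e8_rig : ∀ π : ℕ → ℕ, (∀ i < chevE8.rank, π i < chevE8.rank) →
    (∀ i < chevE8.rank, ∀ j < chevE8.rank, π i = π j → i = j) →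
    (∀ i < chevE8.rank, ∀ j < chevE8.rank, i ≠ j → (adj8 (π i) (π j) ↔ adj8 i j)) →
    ∀ i < chevE8.rank, π i = i := by
  intro π hlt hinj hadj i hi
  have hr : chevE8.rank = 8 := rfl
  have b : ∀ i, i < 8 → π i < 8 := fun i hi => hlt i (by omega)
  have ne : ∀ i j, ∀ (hi : i < 8) (hj : j < 8), i ≠ j → (⟨π i, b i hi⟩ : Fin 8) ≠ ⟨π j, b j hj⟩ := by
    intro i j hi hj hij h
    exact hij (hinj i (by omega) j (by omega) (congrArg Fin.val h))
  have ad : ∀ i j, i < 8 → j < 8 → i ≠ j → adj8 i j → adj8 (π i) (π j) := by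
    intro i j hi hj hij h
    exact (hadj i (by omega) j (by omega) hij).mpr h
  have key := e8_rigFin ⟨π 3, b 3 (by omega)⟩ ⟨π 1, b 1 (by omega)⟩
    (ad 3 1 (by omega) (by omega) (by omega) (by decide)) ⟨π 2, b 2 (by omega)⟩
    (ad 3 2 (by omega) (by omega) (by omega) (by decide)) (ne 1 2 (by omega) (by omega) (by omega))
    ⟨π 4, b 4 (by omega)⟩ (ad 3 4 (by omega) (by omega) (by omega) (by decide))
    (ne 1 4 (by omega) (by omega) (by omega)) (ne 2 4 (by omega) (by omega) (by omega))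
    ⟨π 0, b 0 (by omega)⟩ (ad 2 0 (by omega) (by omega) (by omega) (by decide))
    (ne 0 3 (by omega) (by omega) (by omega))
    ⟨π 5, b 5 (by omega)⟩ (ad 4 5 (by omega) (by omega) (by omega) (by decide))
    (ne 5 3 (by omega) (by omega) (by omega))
    ⟨π 6, b 6 (by omega)⟩ (ad 5 6 (by omega) (by omega) (by omega) (by decide))
    (ne 6 4 (by omega) (by omega) (by omega))
    ⟨π 7, b 7 (by omega)⟩ (ad 6 7 (by omega) (by omega) (by omega) (by decide))
    (ne 7 5 (by omega) (by omega) (by omega))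
  obtain ⟨k3, k1, k2, k4, k0, k5, k6, k7⟩ := key
  simp only at k3 k1 k2 k4 k0 k5 k6 k7
  have hi' : i < 8 := hi
  interval_cases i <;> assumption

/-- The signs of the `n_i`-conjugation of type `E₈`. -/
abbrev eta8 : ℕ → ℕ → ℤ := fun i s => etaBit (etaE8.getD i 0) s

theorem e8_packB (F : Type u) [Field F] : PackB chevE8 F (zR chevE8 ctblE8) eta8 :=
  ⟨chk_E8.sem F, nconj_E8.semN chk_E8.tblOK F, comm_E8.semC chk_E8.tblOK F, tab_E8, tabC_E8, etaNeg_E8,
    tab2_E8⟩

theorem e8_packS (F : Type u) [Field F] : PackS chevE8 F (zR chevE8 ctblE8) eta8 rTE8 w0E8 :=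
  ⟨e8_packB F, trin_E8.semV chk_E8.tblOK F, tabT_E8, tabL_E8, tabW_E8⟩

section

variable (F : Type u) [Field F]

theorem e8_c2 : ∀ i < chevE8.rank, ∀ j < chevE8.rank, i ≠ j → ∀ t u : F,
    xU (e8_packS F).hP.sem (chevE8.simple j) u * xU (e8_packS F).hP.sem (chevE8.neg (chevE8.simple i)) t =
      xU (e8_packS F).hP.sem (chevE8.neg (chevE8.simple i)) t * xU (e8_packS F).hP.sem (chevE8.simple j) u := by
  intro i hi j hj hij t u
  obtain ⟨hterms, hlt, hne1, hne2, -, -⟩ := e8_c2T i hi j hj hij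
  have hPc : Pc chevE8 F (chevE8.simple j) (chevE8.neg (chevE8.simple i)) :=
    commAll_E8 _ _ (tab_E8.simple_lt j hj) hlt hne1 hne2
  have h1 := (Pc_iff (e8_packS F).hP.sem _ _).mp hPc u t
  simp only [ChevalleyDatum.commWord, hterms, List.map_nil, wordU_nil, mul_one] at h1
  exact h1.symm

theorem e8_adj : ∀ i < chevE8.rank, ∀ j < chevE8.rank, i ≠ j →
    ((∀ t u : F, xU (e8_packS F).hP.sem (chevE8.simple i) t * xU (e8_packS F).hP.sem (chevE8.simple j) u =
      xU (e8_packS F).hP.sem (chevE8.simple j) u * xU (e8_packS F).hP.sem (chevE8.simple i) t) ↔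
        ¬ adj8 i j) := by
  intro i hi j hj hij
  obtain ⟨-, -, -, -, hne3, hne4⟩ := e8_c2T i hi j hj hij
  have hPc : Pc chevE8 F (chevE8.simple i) (chevE8.simple j) :=
    commAll_E8 _ _ (tab_E8.simple_lt i hi) (tab_E8.simple_lt j hj) hne3 hne4
  constructor
  · intro hcomm hadj
    obtain ⟨hlen, hc⟩ := e8_adjT i hi j hj hadj
    obtain ⟨c, hceq⟩ := List.length_eq_one_iff.mp hlen
    obtain ⟨hc1, hc2, hc3, hc4⟩ := hc c (by rw [hceq]; exact List.mem_singleton_self c)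
    have h1 := (Pc_iff (e8_packS F).hP.sem _ _).mp hPc 1 1
    simp only [ChevalleyDatum.commWord, hceq, List.map_cons, List.map_nil, wordU_cons, wordU_nil, mul_one,
      hc3, hc4, pow_one] at h1
    rw [← hcomm 1 1] at h1
    have h2 : xU (e8_packS F).hP.sem c.1 ((c.2.1 : F) * -1) = 1 := by
      have := h1.symm
      rwa [mul_eq_left] at this
    have h3 := xU_eq_one_imp (e8_packS F).hP.sem tab_E8 tab2_E8 c.1 hc1 _ h2
    rcases hc2 with h | h
    · rw [h] at h3; simp at h3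
    · rw [h] at h3; simp at h3
  · intro hadj t u
    have hterms := e8_nadjT i hi j hj hij hadj
    have h1 := (Pc_iff (e8_packS F).hP.sem _ _).mp hPc t u
    simp only [ChevalleyDatum.commWord, hterms, List.map_nil, wordU_nil, mul_one] at h1
    exact h1.symm

theorem e8_homExt : HomExt (e8_packS F).hP.sem := by
  intro a b h
  apply hom_ext_fund (e8_packS F).hP.sem (e8_packS F).hP.semN tab_E8 a b
  intro g i t hi hg
  rcases hg with hg | hg
  · have : g = xG (e8_packS F).hP.sem (chevE8.simple i) t :=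
      Subtype.ext (eq_xU (e8_packS F).hP.sem g.1 _ t hg)
    rw [this]; exact (h i hi t).1
  · have : g = xG (e8_packS F).hP.sem (chevE8.neg (chevE8.simple i)) t :=
      Subtype.ext (eq_xU (e8_packS F).hP.sem g.1 _ t hg)
    rw [this]; exact (h i hi t).2

theorem e8_commExt : CommExt (e8_packB F).sem := by
  intro m hm r hr t
  have hmem : xU (e8_packB F).sem r t ∈ fundGen chevE8 F :=
    xU_mem_fundGen (e8_packB F).sem (e8_packB F).semN tab_E8 r hr t
  have hle : fundGen chevE8 F ≤ Subgroup.centralizer {m} := by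
    unfold fundGen
    rw [Subgroup.closure_le]
    rintro g ⟨i, u, hi, hg | hg⟩
    · rw [SetLike.mem_coe, Subgroup.mem_centralizer_iff]
      intro x hx
      rw [Set.mem_singleton_iff] at hx
      rw [hx, eq_xU (e8_packB F).sem g _ u hg]
      exact (hm i hi u).1
    · rw [SetLike.mem_coe, Subgroup.mem_centralizer_iff]
      intro x hx
      rw [Set.mem_singleton_iff] at hx
      rw [hx, eq_xU (e8_packB F).sem g _ u hg]
      exact (hm i hi u).2
  have := hle hmem
  rw [Subgroup.mem_centralizer_iff] at this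
  exact this m rfl

end

/-- **Outer automorphisms of `E₈(q)`**, from the pieces. -/
theorem out_E8 (asm1 : StAsm1.{u}) (dAut : StDAut.{u}) (asm2N : StAsm2N.{u}) (inn2 : StInn2.{u})
    (cnt : StCnt.{u}) (decomp : StDecomp.{u}) (cardT : StCardT.{u}) (tInn : StTInn.{u})
    (field : StField.{u}) (gal : StGal.{u})
    {F : Type u} [Field F] [Fintype F] (p f : ℕ) [Fact p.Prime] [CharP F p]
    (hF : Fintype.card F = p ^ f) :
    Nat.card (Cfsg.Out ↥(chevE8.group F)) = f := by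
  have hF' : Nat.card F = p ^ f := by rw [Nat.card_eq_fintype_card, hF]
  have key : Nat.card (Cfsg.Out ↥(chevE8.group F)) = 1 * f := by
    refine out_card asm1 dAut asm2N inn2 cnt decomp cardT tInn field gal chevE8 F p f hF'
      (zR chevE8 ctblE8) eta8 rTE8 w0E8 (e8_packS F) (e8_packB (AlgebraicClosure F)) adj8
      (exists_sylow_posUnipotent p chevE8 (by simp)) e8_w0 (e8_c2 F) (e8_adj F) e8_rig 1 (matL aiL8)
      (by norm_num) e8_A1 e8_A2 e8_zneg (by decide) e8_conn1 e8_conn2 (e8_homExt F)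
      (e8_commExt (AlgebraicClosure F)) 1 ?_
    rw [hF']
    exact cardH_E8 hF
  rw [key, one_mul]

end Cfsg.Agent.H46.OutE
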