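import Cfsg.Agent.H46.B2Defs

set_option autoImplicit false

/-!
# Type B2 over the field with three elements: the stages of the proof of `B2.Stmt3`

`Hyp3` bundles the hypotheses of `Stmt3`.  For a family `Y q t` of elements of the central extension:
* `Sh`: the `Y q t`, `q` short, are lifts of the `x q t`, additive, and inverted by every lift of `h`;
* `FixL`: every lift of `h` centralizes every lift of a long root element;
* `C45`: `Y s t` (`s` short) commutes with every lift of an element of a long root group at 45° to `s`;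
* `Lg`: the `Y l t`, `l` long, are lifts, additive, and the relations of the pairs of orthogonal short roots hold;
* `CLL`: `Y l t` (`l` long) commutes with every lift of an element of an orthogonal long root group;
* `LS`: the relations of the pairs (long, short) at 135° hold.
-/

namespace Cfsg.Agent.H46.B2

universe u v w

variable {K : Type u} [Field K] {G : Type v} [Group G] {E : Type w} [Group E]

/-- The hypotheses of `Stmt3`. -/
structure Hyp3 (ρ : E →* G) (x : ℕ → K → G) (h : G) : Prop where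
  hK : ∀ t : K, t = 0 ∨ t = 1 ∨ t = -1
  h2 : (2 : K) ≠ 0
  hρc : ρ.ker ≤ Subgroup.center E
  hx : Rel x
  hxl : ∀ q < 8, ∀ t : K, ∃ e : E, ρ e = x q t
  hl : ∃ e : E, ρ e = h
  hh : h * h = 1
  hS : ∀ q ∈ [1, 2, 5, 6], ∀ t : K, h * x q t * h⁻¹ = x q (-t)
  hL : ∀ q ∈ [0, 3, 4, 7], ∀ t : K, h * x q t * h⁻¹ = x q t

/-- The lifts of the short root elements. -/
def Sh (ρ : E →* G) (x : ℕ → K → G) (h : G) (Y : ℕ → K → E) : Prop :=
  ∀ q ∈ [1, 2, 5, 6], (∀ t : K, ρ (Y q t) = x q t) ∧ (∀ t u : K, Y q (t + u) = Y q t * Y q u) ∧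
    (∀ (g : E) (t : K), ρ g = h → g * Y q t * g⁻¹ = Y q (-t))

/-- Lifts of `h` centralize the lifts of the long root elements. -/
def FixL (ρ : E →* G) (x : ℕ → K → G) (h : G) : Prop :=
  ∀ q ∈ [0, 3, 4, 7], ∀ (g e : E) (t : K), ρ g = h → ρ e = x q t → g * e * g⁻¹ = e

/-- Short root lifts commute with the lifts of the long root elements at 45°. -/
def C45 (ρ : E →* G) (x : ℕ → K → G) (Y : ℕ → K → E) : Prop :=
  ∀ s ∈ [1, 2, 5, 6], ∀ l ∈ [0, 3, 4, 7], terms s l = [] →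
    ∀ (e : E) (t u : K), ρ e = x l u → Y s t * e = e * Y s t

/-- The lifts of the long root elements, and the relations of the orthogonal pairs of short roots. -/
def Lg (ρ : E →* G) (x : ℕ → K → G) (Y : ℕ → K → E) : Prop :=
  (∀ l ∈ [0, 3, 4, 7], (∀ t : K, ρ (Y l t) = x l t) ∧ (∀ t u : K, Y l (t + u) = Y l t * Y l u)) ∧
  (∀ r ∈ [1, 2, 5, 6], ∀ s ∈ [1, 2, 5, 6], s ≠ r → s ≠ 7 - r → ∀ t u : K,
    (Y s u)⁻¹ * (Y r t)⁻¹ * Y s u * Y r t = word Y r s t u)

/-- Long root lifts commute with the lifts of the elements of the orthogonal long root groups. -/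
def CLL (ρ : E →* G) (x : ℕ → K → G) (Y : ℕ → K → E) : Prop :=
  ∀ l ∈ [0, 3, 4, 7], ∀ l' ∈ [0, 3, 4, 7], l' ≠ l → l' ≠ 7 - l →
    ∀ (e : E) (t u : K), ρ e = x l' u → Y l t * e = e * Y l t

/-- The relations of the pairs (long, short) at 135°. -/
def LS (Y : ℕ → K → E) : Prop :=
  ∀ l ∈ [0, 3, 4, 7], ∀ s ∈ [1, 2, 5, 6], terms l s ≠ [] → ∀ t u : K,
    (Y s u)⁻¹ * (Y l t)⁻¹ * Y s u * Y l t = word Y l s t u

/-- Piece A. -/
def PA : Prop := ∀ (K : Type u) [Field K] (G : Type v) [Group G] (E : Type w) [Group E]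
  (ρ : E →* G) (x : ℕ → K → G) (h : G), Hyp3 ρ x h → ∃ Y : ℕ → K → E, Sh ρ x h Y

/-- Piece B. -/
def PB : Prop := ∀ (K : Type u) [Field K] (G : Type v) [Group G] (E : Type w) [Group E]
  (ρ : E →* G) (x : ℕ → K → G) (h : G), Hyp3 ρ x h → FixL ρ x h

/-- Piece C. -/
def PC : Prop := ∀ (K : Type u) [Field K] (G : Type v) [Group G] (E : Type w) [Group E]
  (ρ : E →* G) (x : ℕ → K → G) (h : G) (Y : ℕ → K → E), Hyp3 ρ x h → Sh ρ x h Y → FixL ρ x h → C45 ρ x Y

/-- Piece D. -/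
def PD : Prop := ∀ (K : Type u) [Field K] (G : Type v) [Group G] (E : Type w) [Group E]
  (ρ : E →* G) (x : ℕ → K → G) (h : G) (Y : ℕ → K → E), Hyp3 ρ x h → Sh ρ x h Y → C45 ρ x Y →
    ∃ Y' : ℕ → K → E, (∀ q ∈ [1, 2, 5, 6], Y' q = Y q) ∧ Lg ρ x Y'

/-- Piece E. -/
def PE : Prop := ∀ (K : Type u) [Field K] (G : Type v) [Group G] (E : Type w) [Group E]
  (ρ : E →* G) (x : ℕ → K → G) (h : G) (Y : ℕ → K → E), Hyp3 ρ x h → Sh ρ x h Y → C45 ρ x Y → Lg ρ x Y →
    CLL ρ x Y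

/-- Piece F. -/
def PF : Prop := ∀ (K : Type u) [Field K] (G : Type v) [Group G] (E : Type w) [Group E]
  (ρ : E →* G) (x : ℕ → K → G) (h : G) (Y : ℕ → K → E), Hyp3 ρ x h → Sh ρ x h Y → FixL ρ x h → C45 ρ x Y →
    Lg ρ x Y → CLL ρ x Y → LS Y

/-- Piece G. -/
def PG : Prop := ∀ (K : Type u) [Field K] (G : Type v) [Group G] (E : Type w) [Group E]
  (ρ : E →* G) (x : ℕ → K → G) (h : G) (Y : ℕ → K → E), Hyp3 ρ x h → Sh ρ x h Y → C45 ρ x Y →
    Lg ρ x Y → CLL ρ x Y → LS Y → Rel Y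

/-- The statement over the field with three elements from the seven pieces. -/
theorem stmt3_of_pieces (hA : PA.{u, v, w}) (hB : PB.{u, v, w}) (hC : PC.{u, v, w}) (hD : PD.{u, v, w})
    (hE : PE.{u, v, w}) (hF : PF.{u, v, w}) (hG : PG.{u, v, w}) : Stmt3.{u, v, w} := by
  intro K _ G _ E _ hK h2 ρ hρc x hx hxl h hl hh hS hL
  have H : Hyp3 ρ x h := ⟨hK, h2, hρc, hx, hxl, hl, hh, hS, hL⟩
  obtain ⟨Y₀, hY₀⟩ := hA K G E ρ x h H
  have hfix := hB K G E ρ x h H
  have h45₀ := hC K G E ρ x h Y₀ H hY₀ hfix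
  obtain ⟨Y, hYY, hLg⟩ := hD K G E ρ x h Y₀ H hY₀ h45₀
  have hSh : Sh ρ x h Y := by
    intro q hq
    rw [hYY q hq]
    exact hY₀ q hq
  have h45 : C45 ρ x Y := by
    intro s hs l hl' ht e t u he
    rw [hYY s hs]
    exact h45₀ s hs l hl' ht e t u he
  have hLL := hE K G E ρ x h Y H hSh h45 hLg
  have hLS := hF K G E ρ x h Y H hSh hfix h45 hLg hLL
  refine ⟨Y, ?_, hG K G E ρ x h Y H hSh h45 hLg hLL hLS⟩
  intro q hq t
  have hq' : q ∈ [1, 2, 5, 6] ∨ q ∈ [0, 3, 4, 7] := by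
    interval_cases q <;> simp
  rcases hq' with hq' | hq'
  · exact (hSh q hq').1 t
  · exact (hLg.1 q hq').1 t

end Cfsg.Agent.H46.B2
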