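import Cfsg.Agent.H46.OutDefs
import Cfsg.Agent.H78.StbGrDefs

/-!
# S2121 / S2122 (outer automorphisms of `G₂(q)` and `F₄(q)`): definitions and exact statements of the generic
team-project pieces (helper46)

The count goes through the subgroup `autS` of the automorphisms preserving `U` and `V`: every automorphism is
inner times an element of `autS`, the inner automorphisms in `autS` are the conjugations by `H`, and `autS` is
`autT` (diagonal times field automorphisms) or, when there is an exceptional graph automorphism, twice as large.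
-/

set_option autoImplicit false

namespace Cfsg.Agent.H46.OutG

open Cfsg.Lie Cfsg.Agent.H23 Cfsg.Agent.H23.Stb Cfsg.Agent.H46.OutE

universe u

/-- The subgroup of the automorphisms preserving `U` and `V`. -/
def autS (D : ChevalleyDatum) (F : Type u) [Field F] : Subgroup (MulAut ↥(D.group F)) where
  carrier := {θ | Pres θ (D.posUnipotent F) (D.posUnipotent F) ∧ Pres θ (D.negUnipotent F) (D.negUnipotent F)}
  one_mem' := ⟨fun _ => Iff.rfl, fun _ => Iff.rfl⟩
  mul_mem' := by
    intro a b ha hb
    exact ⟨fun g => (ha.1 (b g)).trans (hb.1 g), fun g => (ha.2 (b g)).trans (hb.2 g)⟩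
  inv_mem' := by
    intro a ha
    refine ⟨fun g => ?_, fun g => ?_⟩
    · have h := ha.1 (a⁻¹ g)
      rw [MulAut.apply_inv_self] at h
      exact h.symm
    · have h := ha.2 (a⁻¹ g)
      rw [MulAut.apply_inv_self] at h
      exact h.symm

theorem mem_autS (D : ChevalleyDatum) (F : Type u) [Field F] (θ : MulAut ↥(D.group F)) :
    θ ∈ autS D F ↔
      (Pres θ (D.posUnipotent F) (D.posUnipotent F) ∧ Pres θ (D.negUnipotent F) (D.negUnipotent F)) :=
  Iff.rfl

/-! ## The generic pieces -/

/-- **OG-SINN**: the inner automorphisms preserving `U` and `V` are the conjugations by `H`. -/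
def StSInn : Prop :=
  ∀ (D : ChevalleyDatum) (F : Type u) [Field F] (z η : ℕ → ℕ → ℤ) (rT w0 : List ℕ)
    (_ : PackS D F z η rT w0),
    Nat.card ↥(autS D F ⊓ Cfsg.Inn ↥(D.group F)) = Nat.card ↥(D.diagonalSubgroup F)

/-- **OG-ROOTS**: over a finite field, an automorphism mapping every root element to a root element, positive
roots to positive roots and negative roots to negative roots, preserves `U` and `V`. -/
def StRootPres : Prop :=
  ∀ (D : ChevalleyDatum) (F : Type u) [Field F] [Finite F] (z : ℕ → ℕ → ℤ) (hS : Sem D F z)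
    (θ : ↥(D.group F) ≃* ↥(D.group F)) (ρ : ℕ → ℕ),
    (∀ r, D.IsPosRoot r → D.IsPosRoot (ρ r)) → (∀ r, D.IsNegRoot r → D.IsNegRoot (ρ r)) →
    (∀ r < D.nroots, ∀ t : F, ∃ t' : F, θ (xG hS r t) = xG hS (ρ r) t') →
    Pres θ (D.posUnipotent F) (D.posUnipotent F) ∧ Pres θ (D.negUnipotent F) (D.negUnipotent F)

/-- **OG-ASM2S**: a normalised automorphism is a field automorphism, for a diagram that is connected through
the pairs `i, j` with `⟨α_i, α_j⟩ = -1` in one of the two orders (this covers double and triple bonds). -/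
def StAsm2S : Prop :=
  ∀ (D : ChevalleyDatum) (F : Type u) [Field F] (z η : ℕ → ℕ → ℤ) (rT w0 : List ℕ)
    (hC : PackS D F z η rT w0),
    0 < D.rank →
    (∃ i < D.rank, ∃ j < D.rank, z (D.simple j) (D.simple i) = -1) →
    (∀ P : ℕ → Prop, P 0 →
      (∀ i < D.rank, ∀ j < D.rank,
        (z (D.simple j) (D.simple i) = -1 ∨ z (D.simple i) (D.simple j) = -1) → P i → P j) →
      ∀ i < D.rank, P i) →
    HomExt hC.hP.sem → HasAsm2N hC.hP.sem

/-- **OG-CNT2**: a subgroup `T` of `S` with exactly one further coset has half the order of `S`. -/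
def StCnt2 : Prop :=
  ∀ (A : Type u) [Group A] (S T : Subgroup A) (γ : A), T ≤ S → γ ∈ S → γ ∉ T →
    (∀ θ ∈ S, θ ∈ T ∨ θ * γ⁻¹ ∈ T) → Nat.card ↥S = 2 * Nat.card ↥T

/-- **OG-FIXS**: an automorphism preserving `U` and `V` and mapping the root subgroup of every fundamental root
and of its negative onto itself lies in `autT`. -/
def StFixS : Prop :=
  ∀ (D : ChevalleyDatum) (F : Type u) [Field F] (z η : ℕ → ℕ → ℤ) (hP : PackB D F z η)
    (θ : ↥(D.group F) ≃* ↥(D.group F)),
    (∀ i < D.rank, RootTo hP.sem θ (D.simple i) (D.simple i) ∧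
      RootTo hP.sem θ (D.neg (D.simple i)) (D.neg (D.simple i))) → FixFund hP.sem θ

/-- **OG-FLIP**: if `θ` and `γ` both map the root subgroup of every `±α_i` onto that of `±α_{sig i}`, for an
involution `sig` of the nodes, then `θ * γ⁻¹` maps every one of them onto itself. -/
def StFlip : Prop :=
  ∀ (D : ChevalleyDatum) (F : Type u) [Field F] (z : ℕ → ℕ → ℤ) (hS : Sem D F z)
    (θ γ : MulAut ↥(D.group F)) (sig : ℕ → ℕ),
    (∀ i < D.rank, sig i < D.rank) → (∀ i < D.rank, sig (sig i) = i) →
    (∀ i < D.rank, RootTo hS θ (D.simple i) (D.simple (sig i)) ∧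
      RootTo hS θ (D.neg (D.simple i)) (D.neg (D.simple (sig i)))) →
    (∀ i < D.rank, RootTo hS γ (D.simple i) (D.simple (sig i)) ∧
      RootTo hS γ (D.neg (D.simple i)) (D.neg (D.simple (sig i)))) →
    ∀ i < D.rank, RootTo hS (θ * γ⁻¹) (D.simple i) (D.simple i) ∧
      RootTo hS (θ * γ⁻¹) (D.neg (D.simple i)) (D.neg (D.simple i))

/-- **OG-NOTFIX**: an automorphism mapping the root subgroup of `α_i` onto that of `α_j`, `j ≠ i`, does not map
it onto itself. -/
def StNotFix : Prop :=
  ∀ (D : ChevalleyDatum) (F : Type u) [Field F] (z η : ℕ → ℕ → ℤ) (rT w0 : List ℕ)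
    (hC : PackS D F z η rT w0) (θ : ↥(D.group F) ≃* ↥(D.group F)) (i j : ℕ), i < D.rank → j < D.rank →
    i ≠ j →
    (∀ i < D.rank, ∀ j < D.rank, i ≠ j → ∀ t u : F,
      xU hC.hP.sem (D.simple j) u * xU hC.hP.sem (D.neg (D.simple i)) t =
        xU hC.hP.sem (D.neg (D.simple i)) t * xU hC.hP.sem (D.simple j) u) →
    RootTo hC.hP.sem θ (D.simple i) (D.simple j) → ¬ RootTo hC.hP.sem θ (D.simple i) (D.simple i)

end Cfsg.Agent.H46.OutG
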