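import Cfsg.Agent.H46.UnivDefs

set_option autoImplicit false

/-!
# Good lists of indices with commuting pairs

`GoodL2 x T Cm L`: as `GoodL x T L`, except that for a pair `e`, `e'` (with `e'` later in the list than `e`) the
separating element of `T` may be replaced by the relation `Cm e e'`.
-/

namespace Cfsg.Agent.H46.Univ

variable {G K ι : Type*} [Group G] [Field K]

/-- Good lists of indices, a pair being either separated by an element of `T` or in the relation `Cm`. -/
def GoodL2 (x : ι → K → G) (T : Set G) (Cm : ι → ι → Prop) : List ι → Prop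
  | [] => True
  | e :: L =>
    (∀ e' ∈ L, ∀ t u : K, x e t * x e' u * (x e t)⁻¹ ∈ GX x L) ∧
    (∀ t : K, x e t ∈ GX x L → t = 0) ∧
    (∀ e' ∈ L, (∃ h ∈ T, ∃ c : K, c - 1 ≠ 0 ∧ (∀ t : K, h * x e t * h⁻¹ = x e t) ∧
      (∀ u : K, h * x e' u * h⁻¹ = x e' (c * u))) ∨ Cm e e') ∧
    GoodL2 x T Cm L

end Cfsg.Agent.H46.Univ
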