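import Mathlib

set_option autoImplicit false

/-!
# Central extensions and families of root elements: definitions

`GX x L` is the subgroup generated by the elements `x q t` with `q` in the list `L`.
`GoodL x T L`: for every suffix `e :: L'` of `L`, the elements `x e t` normalize `GX x L'` (on generators), no
nontrivial `x e t` lies in `GX x L'`, and for every `e' ∈ L'` some element of `T` centralizes the `x e t` and acts
on the `x e' u` by a scalar `c` with `c - 1 ≠ 0`.
-/

namespace Cfsg.Agent.H46.Univ

variable {G K ι : Type*} [Group G] [Field K]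

/-- The subgroup generated by the elements `x q t`, `q ∈ L`. -/
def GX (x : ι → K → G) (L : List ι) : Subgroup G :=
  Subgroup.closure {g | ∃ (q : ι) (t : K), q ∈ L ∧ g = x q t}

/-- Good lists of indices. -/
def GoodL (x : ι → K → G) (T : Set G) : List ι → Prop
  | [] => True
  | e :: L =>
    (∀ e' ∈ L, ∀ t u : K, x e t * x e' u * (x e t)⁻¹ ∈ GX x L) ∧
    (∀ t : K, x e t ∈ GX x L → t = 0) ∧
    (∀ e' ∈ L, ∃ h ∈ T, ∃ c : K, c - 1 ≠ 0 ∧ (∀ t : K, h * x e t * h⁻¹ = x e t) ∧
      (∀ u : K, h * x e' u * h⁻¹ = x e' (c * u))) ∧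
    GoodL x T L

end Cfsg.Agent.H46.Univ
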