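import Cfsg.Agent.H46.B2F3G
import Cfsg.Agent.H73.B2F3A
import Cfsg.Agent.H25.B2F3B
import Cfsg.Agent.H25.B2F3C
import Cfsg.Agent.H23.B2F3D
import Cfsg.Agent.H73.B2F3E
import Cfsg.Agent.H23.B2F3F

set_option autoImplicit false

/-!
# Type B2 over the field with three elements: lifting the relations through a central extension
-/

namespace Cfsg.Agent.H46.B2

universe u v w

/-- Lifting the relations of type B2 through a central extension, over the field with three elements. -/
theorem b2f3 : Stmt3.{u, v, w} :=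
  stmt3_of_pieces Cfsg.Agent.H73.B2F3.pA Cfsg.Agent.H25.B2F3.pB Cfsg.Agent.H25.B2F3.pC
    Cfsg.Agent.H23.B2F3.pD Cfsg.Agent.H73.B2F3.pE Cfsg.Agent.H23.B2F3.pF pG

end Cfsg.Agent.H46.B2
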