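import Cfsg.Agent.H46.B2F3Defs

set_option autoImplicit false

/-!
# Type B2 over the field with three elements, piece G: all the relations (R1), (R2) for the lifts
-/

namespace Cfsg.Agent.H46.B2

universe u v w

/-- The sextuples `(l, s, l + s, l + 2 s, C1, C2)`, `l` long, `s` short at 135°. -/
def lsTab : List (ℕ × ℕ × ℕ × ℕ × ℤ × ℤ) :=
  [(0, 5, 1, 3, 1, -1), (0, 6, 2, 4, -1, 1), (3, 2, 1, 0, -1, -1), (3, 6, 5, 7, 1, 1),
    (4, 1, 2, 0, -1, 1), (4, 5, 6, 7, 1, -1), (7, 1, 5, 3, 1, 1), (7, 2, 6, 4, -1, -1)]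

set_option synthInstance.maxSize 100000 in
set_option synthInstance.maxHeartbeats 0 in
theorem tabG1 : ∀ r ∈ [0, 3, 4, 7], ∀ s ∈ [0, 3, 4, 7], s ≠ r → s ≠ 7 - r → terms r s = [] := by
  decide +kernel

set_option synthInstance.maxSize 100000 in
set_option synthInstance.maxHeartbeats 0 in
theorem tabG2 : ∀ r ∈ [0, 3, 4, 7], ∀ s ∈ [1, 2, 5, 6], terms r s = [] → terms s r = [] := by
  decide +kernel

set_option synthInstance.maxSize 100000 in
set_option synthInstance.maxHeartbeats 0 in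
theorem tabG3 : ∀ r ∈ [1, 2, 5, 6], ∀ s ∈ [0, 3, 4, 7], terms r s ≠ [] →
    ∃ q ∈ lsTab, (q.1 = s ∧ q.2.1 = r) := by decide +kernel

set_option synthInstance.maxSize 100000 in
set_option synthInstance.maxHeartbeats 0 in
theorem tabG4 : ∀ q ∈ lsTab, q.1 ∈ [0, 3, 4, 7] ∧ q.2.1 ∈ [1, 2, 5, 6] ∧ q.2.2.1 ∈ [1, 2, 5, 6] ∧
    q.2.2.2.1 ∈ [0, 3, 4, 7] ∧
    terms q.1 q.2.1 = [(q.2.2.1, q.2.2.2.2.1, 1, 1), (q.2.2.2.1, q.2.2.2.2.2, 1, 2)] ∧
    terms q.2.1 q.1 = [(q.2.2.1, -q.2.2.2.2.1, 1, 1), (q.2.2.2.1, q.2.2.2.2.2, 2, 1)] ∧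
    terms q.2.2.1 q.2.2.2.1 = [] := by
  decide +kernel

theorem mem_short_or_long (q : ℕ) (hq : q < 8) : q ∈ [1, 2, 5, 6] ∨ q ∈ [0, 3, 4, 7] := by
  interval_cases q <;> simp

theorem inv_of_add {K : Type u} [Field K] {E : Type w} [Group E] (Y : K → E)
    (hY : ∀ t u : K, Y (t + u) = Y t * Y u) (t : K) : (Y t)⁻¹ = Y (-t) := by
  have h0 : Y 0 = 1 := by
    have := hY 0 0
    rw [add_zero] at this
    exact (mul_eq_left.mp this.symm)
  rw [inv_eq_iff_mul_eq_one, ← hY, add_neg_cancel, h0]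

theorem comm_rel_of_comm {E : Type w} [Group E] (a b : E) (h : a * b = b * a) : b⁻¹ * a⁻¹ * b * a = 1 := by
  rw [mul_assoc, ← h]; group

/-- Piece G: the lifts satisfy all the relations (R1), (R2) of type B2. -/
theorem pG : PG.{u, v, w} := by
  intro K _ G _ E _ ρ x h Y H hSh h45 hLg hLL hLS
  have hρ : ∀ q < 8, ∀ t : K, ρ (Y q t) = x q t := by
    intro q hq t
    rcases mem_short_or_long q hq with hq' | hq'
    · exact (hSh q hq').1 t
    · exact (hLg.1 q hq').1 t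
  have hadd : ∀ q < 8, ∀ t u : K, Y q (t + u) = Y q t * Y q u := by
    intro q hq t u
    rcases mem_short_or_long q hq with hq' | hq'
    · exact (hSh q hq').2.1 t u
    · exact (hLg.1 q hq').2 t u
  refine ⟨fun r hr t u => (hadd r hr t u).symm, ?_⟩
  intro r hr s hs hne hne' t u
  rcases mem_short_or_long r hr with hr' | hr' <;> rcases mem_short_or_long s hs with hs' | hs'
  · exact hLg.2 r hr' s hs' hne hne' t u
  · -- r short, s long
    by_cases h0 : terms r s = []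
    · have hw : word Y r s t u = 1 := by unfold word; rw [h0]; rfl
      rw [hw]
      exact comm_rel_of_comm _ _ (h45 r hr' s hs' h0 (Y s u) t u (hρ s hs u))
    · obtain ⟨q, hq, rfl, rfl⟩ := tabG3 r hr' s hs' h0
      obtain ⟨-, -, hp, hl, h1, h2, h3⟩ := tabG4 q hq
      have hls := hLS q.1 hs' q.2.1 hr' (by rw [h1]; exact List.cons_ne_nil _ _) u t
      have e : (Y q.1 u)⁻¹ * (Y q.2.1 t)⁻¹ * Y q.1 u * Y q.2.1 t =
          ((Y q.2.1 t)⁻¹ * (Y q.1 u)⁻¹ * Y q.2.1 t * Y q.1 u)⁻¹ := by group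
      have hp8 : q.2.2.1 < 8 := by
        simp only [List.mem_cons, List.not_mem_nil, or_false] at hp
        rcases hp with h | h | h | h <;> rw [h] <;> norm_num
      have hl8 : q.2.2.2.1 < 8 := by
        simp only [List.mem_cons, List.not_mem_nil, or_false] at hl
        rcases hl with h | h | h | h <;> rw [h] <;> norm_num
      rw [e, hls]
      unfold word
      rw [h1, h2]
      simp only [List.map_cons, List.map_nil, List.prod_cons, List.prod_nil, mul_one]
      rw [mul_inv_rev, inv_of_add (Y q.2.2.1) (hadd _ hp8), inv_of_add (Y q.2.2.2.1) (hadd _ hl8),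
        ← h45 q.2.2.1 hp q.2.2.2.1 hl h3 (Y q.2.2.2.1 _) _ _ (hρ _ hl8 _)]
      congr 2
      · push_cast; ring
      · push_cast; ring
  · -- r long, s short
    by_cases h0 : terms r s = []
    · have hw : word Y r s t u = 1 := by unfold word; rw [h0]; rfl
      rw [hw]
      exact comm_rel_of_comm _ _ (h45 s hs' r hr' (tabG2 r hr' s hs' h0) (Y r t) u t (hρ r hr t)).symm
    · exact hLS r hr' s hs' h0 t u
  · have hw : word Y r s t u = 1 := by unfold word; rw [tabG1 r hr' s hs' hne hne']; rfl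
    rw [hw]
    exact comm_rel_of_comm _ _ (hLL r hr' s hs' hne hne' (Y s u) t u (hρ s hs u))

end Cfsg.Agent.H46.B2
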