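import Cfsg.Agent.H46.StMain
import Cfsg.Agent.H46.StTorus

set_option autoImplicit false
set_option linter.unusedSectionVars false

/-!
# The centre of the presented group for a unimodular table of Cartan integers
-/

namespace Cfsg.Agent.H46

open Cfsg.Lie Cfsg.Agent.H23

variable {D : ChevalleyDatum} {K : Type*} [Field K] {z η : ℕ → ℕ → ℤ}

/-- The presented group has trivial centre when the table of Cartan integers is unimodular. -/
theorem steinberg_center_bot {w w0 : List ℕ} (hTab : StTab D w) (hP : PackB D K z η) (hV : SemV D K)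
    (hW : TabW D w0) (hC : CommMat D K) (hU : UnimodZ D z) :
    Subgroup.center (D.SteinbergGroup K) = ⊥ := by
  obtain ⟨θ, h1, h2⟩ := exists_hom hP.sem (D.steinbergRels K) (lift_rels hP.sem hC)
  have hA : ∀ (r : ℕ) (t₁ t₂ : K), r < D.nroots →
      D.stX r t₁ * D.stX r t₂ * (D.stX r (t₁ + t₂))⁻¹ ∈ D.steinbergRels K :=
    fun r t₁ t₂ hr => Or.inl (Or.inl ⟨r, t₁, t₂, hr, rfl⟩)
  have hB : ∀ (r s : ℕ) (t u : K), r < D.nroots → s < D.nroots → s ≠ r → s ≠ D.neg r →
      (D.stX s u)⁻¹ * (D.stX r t)⁻¹ * D.stX s u * D.stX r t * (D.stWord (D.commWord K r s t u))⁻¹ ∈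
        D.steinbergRels K :=
    fun r s t u hr hs h1 h2 => Or.inl (Or.inr ⟨r, s, t, u, hr, hs, h1, h2, rfl⟩)
  rw [eq_bot_iff]
  intro k hk
  rw [Subgroup.mem_bot]
  have hc : θ k = 1 := by
    have hc : θ k ∈ Subgroup.center ↥(D.group K) := by
      rw [Subgroup.mem_center_iff]
      intro g
      obtain ⟨x, rfl⟩ := h1 g
      rw [← map_mul, ← map_mul, Subgroup.mem_center_iff.mp hk x]
    rw [center_group_eq_bot hP hV w0 hW, Subgroup.mem_bot] at hc
    exact hc
  have hk' : (ctxP (D.steinbergRels K) hA hB hTab hP hV θ h2).π k = 1 := by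
    show (D.group K).subtype (θ k) = 1
    rw [hc, map_one]
  have hmem := (ker_mem (ctxP (D.steinbergRels K) hA hB hTab hP hV θ h2) (closure_xbP _) k hk').1
  have h3 : R3 (ctxP (D.steinbergRels K) hA hB hTab hP hV θ h2) := by
    intro i hi t₁ t₂ ht₁ ht₂
    have hrel : D.stH (D.simple i) t₁ * D.stH (D.simple i) t₂ * (D.stH (D.simple i) (t₁ * t₂))⁻¹ ∈
        D.steinbergRels K := Or.inr ⟨D.simple i, t₁, t₂, hP.tab.simple_lt i hi, ht₁, ht₂, rfl⟩
    have h4 := PresentedGroup.one_of_mem hrel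
    rw [map_mul, map_mul, map_inv, mul_inv_eq_one, mk_stH, mk_stH, mk_stH] at h4
    exact h4
  exact Hb_ker_trivial h3 hU k hmem hk'

end Cfsg.Agent.H46
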