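import Cfsg.Agent.H46.StTorus
import Cfsg.Agent.H23.Gen.G2.Tabs
import Cfsg.Agent.H23.Gen.F4.Tabs
import Cfsg.Agent.H23.Gen.E8.Tabs
import Cfsg.Prelude.Def_ChevG2
import Cfsg.Prelude.Def_ChevF4
import Cfsg.Prelude.Def_ChevE8

set_option autoImplicit false

/-! The tables of Cartan integers of the types G2, F4, E8 have integer inverses. -/

namespace Cfsg.Agent.H46

open Cfsg.Lie Cfsg.Agent.H23

/-- The inverse of the table of Cartan integers of type G2. -/
def cartInvG2 : List (List ℤ) := [[2, 3], [1, 2]]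

theorem unimod_G2 : UnimodZ chevG2 (zR chevG2 ctblG2) := by
  refine ⟨fun j k => (cartInvG2.getD j []).getD k 0, ?_⟩
  decide +kernel

/-- The inverse of the table of Cartan integers of type F4. -/
def cartInvF4 : List (List ℤ) := [[2, 3, 4, 2], [3, 6, 8, 4], [2, 4, 6, 3], [1, 2, 3, 2]]

theorem unimod_F4 : UnimodZ chevF4 (zR chevF4 ctblF4) := by
  refine ⟨fun j k => (cartInvF4.getD j []).getD k 0, ?_⟩
  decide +kernel

/-- The inverse of the table of Cartan integers of type E8. -/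
def cartInvE8 : List (List ℤ) := [[4, 5, 7, 10, 8, 6, 4, 2], [5, 8, 10, 15, 12, 9, 6, 3], [7, 10, 14, 20, 16, 12, 8, 4], [10, 15, 20, 30, 24, 18, 12, 6], [8, 12, 16, 24, 20, 15, 10, 5], [6, 9, 12, 18, 15, 12, 8, 4], [4, 6, 8, 12, 10, 8, 6, 3], [2, 3, 4, 6, 5, 4, 3, 2]]

theorem unimod_E8 : UnimodZ chevE8 (zR chevE8 ctblE8) := by
  refine ⟨fun j k => (cartInvE8.getD j []).getD k 0, ?_⟩
  decide +kernel

end Cfsg.Agent.H46
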