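import Cfsg.Agent.H46.UnivAll
import Cfsg.Agent.S1078
import Cfsg.Prelude.Def_KGroupFacts

set_option autoImplicit false

/-!
# Trivial Schur multipliers of the Chevalley groups of types G2, F4, E8 over fields with more than four elements

For these types the presented group has trivial centre, so it is isomorphic to the Chevalley group; every central
extension of the presented group splits (more than four elements), hence every stem extension is an isomorphism.
-/

namespace Cfsg.Agent.H46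

open Cfsg.Lie Cfsg.Agent.H23

universe u

theorem conj_mul_central {E : Type*} [Group E] (a z b : E) (hz : ∀ g : E, g * z = z * g) :
    (a * z) * b * (a * z)⁻¹ = a * b * a⁻¹ := by
  have h1 : z * b * z⁻¹ = b := by rw [← hz b, mul_inv_cancel_right]
  calc (a * z) * b * (a * z)⁻¹ = a * (z * b * z⁻¹) * a⁻¹ := by group
    _ = a * b * a⁻¹ := by rw [h1]

theorem comm_mul_central {E : Type*} [Group E] (a b za zb : E) (hza : ∀ g : E, g * za = za * g)
    (hzb : ∀ g : E, g * zb = zb * g) :
    (a * za) * (b * zb) * (a * za)⁻¹ * (b * zb)⁻¹ = a * b * a⁻¹ * b⁻¹ := by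
  rw [conj_mul_central a za (b * zb) hza]
  have h2 := conj_mul_central b zb a⁻¹ hzb
  calc a * (b * zb) * a⁻¹ * (b * zb)⁻¹ = a * ((b * zb) * a⁻¹ * (b * zb)⁻¹) := by group
    _ = a * (b * a⁻¹ * b⁻¹) := by rw [h2]
    _ = a * b * a⁻¹ * b⁻¹ := by group

/-- A split central extension whose kernel lies in the commutator subgroup is an isomorphism. -/
theorem ker_eq_bot_of_split {Γ Δ : Type*} [Group Γ] [Group Δ] (ψ : Γ →* Δ) (hc : ψ.ker ≤ Subgroup.center Γ)
    (hs : ψ.ker ≤ commutator Γ) (θ : Δ →* Γ) (hθ : ψ.comp θ = MonoidHom.id Δ) : ψ.ker = ⊥ := by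
  have hψθ : ∀ x, ψ (θ x) = x := fun x => DFunLike.congr_fun hθ x
  have key : ∀ a : Γ, ∃ z : Γ, (∀ g : Γ, g * z = z * g) ∧ a = θ (ψ a) * z := by
    intro a
    refine ⟨(θ (ψ a))⁻¹ * a, ?_, by group⟩
    have hk : (θ (ψ a))⁻¹ * a ∈ ψ.ker := by
      rw [MonoidHom.mem_ker, map_mul, map_inv, hψθ, inv_mul_cancel]
    exact fun g => Subgroup.mem_center_iff.mp (hc hk) g
  have hcomm : commutator Γ ≤ θ.range := by
    rw [commutator_eq_closure, Subgroup.closure_le]
    rintro g ⟨a, b, rfl⟩
    obtain ⟨za, hza, ha⟩ := key a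
    obtain ⟨zb, hzb, hb⟩ := key b
    refine ⟨ψ a * ψ b * (ψ a)⁻¹ * (ψ b)⁻¹, ?_⟩
    rw [map_mul, map_mul, map_mul, map_inv, map_inv, commutatorElement_def]
    conv_rhs => rw [ha, hb]
    exact (comm_mul_central _ _ za zb hza hzb).symm
  rw [eq_bot_iff]
  intro g hg
  rw [Subgroup.mem_bot]
  obtain ⟨x, rfl⟩ := hcomm (hs hg)
  rw [MonoidHom.mem_ker, hψθ] at hg
  rw [hg, map_one]

/-- A finite group all of whose central extensions split has trivial Schur multiplier. -/
theorem hasSchur_one_of_split {G : Type u} [Group G] [Finite G]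
    (h : ∀ (Γ : Type u) [Group Γ] (σ : Γ →* G), Function.Surjective σ → σ.ker ≤ Subgroup.center Γ →
      ∃ θ : G →* Γ, σ.comp θ = MonoidHom.id G) :
    HasCyclicSchurMultiplier G 1 := by
  refine ⟨⟨G, inferInstance, inferInstance, MonoidHom.id G, ⟨Function.surjective_id, ?_, ?_⟩, ⟨?_⟩⟩, ?_⟩
  · rw [MonoidHom.ker_id]; exact bot_le
  · rw [MonoidHom.ker_id]; exact bot_le
  · have h1 : ∀ x : (MonoidHom.id G).ker, x = 1 := by
      intro x
      apply Subtype.ext
      exact MonoidHom.mem_ker.mp x.2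
    have h2 : ∀ x : Multiplicative (ZMod 1), x = 1 := fun x => Subsingleton.elim (α := ZMod 1) _ _
    exact
      { toFun := fun _ => 1
        invFun := fun _ => 1
        left_inv := fun x => (h1 x).symm
        right_inv := fun x => (h2 x).symm
        map_mul' := fun _ _ => (mul_one 1).symm }
  · intro Γ _ _ σ hσ
    obtain ⟨hs, hc, hcomm⟩ := hσ
    obtain ⟨θ, hθ⟩ := h Γ σ hs hc
    have hker := ker_eq_bot_of_split σ hc hcomm θ hθ
    refine ⟨1, ?_⟩
    intro y
    refine ⟨1, ?_⟩
    apply Subtype.ext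
    have h3 : (y : Γ) ∈ (⊥ : Subgroup Γ) := hker ▸ y.2
    rw [Subgroup.mem_bot.mp h3]
    rfl

/-- Over a finite field with more than four elements the Chevalley groups of types G2, F4, E8 have trivial
Schur multiplier. -/
theorem schur_trivial {F : Type u} [Field F] [Fintype F] (hF : 5 ≤ Fintype.card F) (D : ChevalleyDatum)
    (hD : D ∈ [chevG2, chevF4, chevE8]) : HasCyclicSchurMultiplier ↥(D.group F) 1 := by
  have hD7 : D ∈ [chevG2, chevB2, chevD4, chevF4, chevE6, chevE7, chevE8] := by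
    simp only [List.mem_cons, List.not_mem_nil, or_false] at hD ⊢
    rcases hD with rfl | rfl | rfl <;> simp
  have hK5 : ∃ s : Finset F, 4 < s.card := ⟨Finset.univ, by rw [Finset.card_univ]; omega⟩
  obtain ⟨z, η, w, w0, hpk⟩ := packSt_all (K := F) D hD7
  have hC : CommMat D F := fun r s hr hs h1 h2 t u => Cfsg.Agent.S1025.result D hD7 r s hr hs h1 h2 t u
  obtain ⟨θ₀, hθs, hθc, -⟩ := cover_central hpk.tab hpk.hP hpk.hV hC
  obtain ⟨e, -⟩ := cover_equiv hpk.tab hpk.hP hpk.hV hC
  have hcen : Subgroup.center (D.SteinbergCover F) = ⊥ := by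
    rw [eq_bot_iff]
    intro x hx
    rw [Subgroup.mem_bot]
    have h1 : e x ∈ Subgroup.center (D.SteinbergGroup F) := by
      rw [Subgroup.mem_center_iff]
      intro g
      obtain ⟨y, rfl⟩ := e.surjective g
      rw [← map_mul, ← map_mul, Subgroup.mem_center_iff.mp hx y]
    rw [Cfsg.Agent.S1078.result D hD, Subgroup.mem_bot] at h1
    exact e.injective (h1.trans (map_one e).symm)
  have hinj : Function.Injective θ₀ := by
    rw [injective_iff_map_eq_one]
    intro x hx
    have h1 := hθc (MonoidHom.mem_ker.mpr hx)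
    rw [hcen, Subgroup.mem_bot] at h1
    exact h1
  let e₀ : D.SteinbergCover F ≃* ↥(D.group F) := MulEquiv.ofBijective θ₀ ⟨hinj, hθs⟩
  haveI : Finite ↥(D.group F) := inferInstance
  apply hasSchur_one_of_split
  intro Γ _ σ hσs hσc
  have hψc : (e₀.symm.toMonoidHom.comp σ).ker ≤ Subgroup.center Γ := by
    intro g hg
    apply hσc
    rw [MonoidHom.mem_ker] at hg ⊢
    exact e₀.symm.injective (hg.trans (map_one _).symm)
  obtain ⟨θ, hθ⟩ := (cover_split_all hK5 D hD7 (e₀.symm.toMonoidHom.comp σ)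
    (e₀.symm.surjective.comp hσs) hψc).2
  refine ⟨θ.comp e₀.symm.toMonoidHom, ?_⟩
  ext g : 1
  have h1 := DFunLike.congr_fun hθ (e₀.symm g)
  exact e₀.symm.injective h1

end Cfsg.Agent.H46
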