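import Cfsg.Agent.H46.CommSplit
import Cfsg.Agent.H46.CommRegE6
import Cfsg.Agent.H46.CommRegE7
import Cfsg.Agent.H46.CommRegE8
import Cfsg.Agent.H46.SchurTriv

set_option autoImplicit false
set_option maxRecDepth 100000

/-!
# Central extensions of the groups presented by (R1), (R2) of types E6, E7, E8 split, over every field

Consequently the Schur multiplier of the Chevalley group of type E8 over any finite field is trivial.
-/

namespace Cfsg.Agent.H46

open Cfsg.Lie Cfsg.Agent.H23

universe u

theorem negIdx_E6 : ∀ r < chevE6.nroots, chevE6.neg r = chevE6.nroots - 1 - r := by decide +kernel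

theorem negIdx_E7 : ∀ r < chevE7.nroots, chevE7.neg r = chevE7.nroots - 1 - r := by decide +kernel

theorem negIdx_E8 : ∀ r < chevE8.nroots, chevE8.neg r = chevE8.nroots - 1 - r := by decide +kernel

/-- Every central extension of the group presented by (R1), (R2) of type E6, E7 or E8 splits, over every
field. -/
theorem cover_split_E {K : Type*} [Field K] (D : ChevalleyDatum) (hD : D ∈ [chevE6, chevE7, chevE8])
    {E : Type*} [Group E] (ψ : E →* D.SteinbergCover K) (hψs : Function.Surjective ψ)
    (hψ : ψ.ker ≤ Subgroup.center E) :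
    ∃ θ : D.SteinbergCover K →* E, ψ.comp θ = MonoidHom.id (D.SteinbergCover K) := by
  simp only [List.mem_cons, List.not_mem_nil, or_false] at hD
  rcases hD with rfl | rfl | rfl
  · exact cover_split_comm chfOK_E6 negIdx_E6 commTab_E6 ψ hψs hψ
  · exact cover_split_comm chfOK_E7 negIdx_E7 commTab_E7 ψ hψs hψ
  · exact cover_split_comm chfOK_E8 negIdx_E8 commTab_E8 ψ hψs hψ

/-- The Schur multiplier of the Chevalley group of type E8 over a finite field is trivial. -/
theorem schur_trivial_E8 {F : Type u} [Field F] [Fintype F] : HasCyclicSchurMultiplier ↥(chevE8.group F) 1 := by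
  have hD7 : chevE8 ∈ [chevG2, chevB2, chevD4, chevF4, chevE6, chevE7, chevE8] := by simp
  obtain ⟨z, η, w, w0, hpk⟩ := packSt_all (K := F) chevE8 hD7
  have hC : CommMat chevE8 F := fun r s hr hs h1 h2 t u => Cfsg.Agent.S1025.result chevE8 hD7 r s hr hs h1 h2 t u
  obtain ⟨θ₀, hθs, hθc, -⟩ := cover_central hpk.tab hpk.hP hpk.hV hC
  obtain ⟨e, -⟩ := cover_equiv hpk.tab hpk.hP hpk.hV hC
  have hcen : Subgroup.center (chevE8.SteinbergCover F) = ⊥ := by
    rw [eq_bot_iff]
    intro x hx
    rw [Subgroup.mem_bot]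
    have h1 : e x ∈ Subgroup.center (chevE8.SteinbergGroup F) := by
      rw [Subgroup.mem_center_iff]
      intro g
      obtain ⟨y, rfl⟩ := e.surjective g
      rw [← map_mul, ← map_mul, Subgroup.mem_center_iff.mp hx y]
    rw [Cfsg.Agent.S1078.result chevE8 (by simp), Subgroup.mem_bot] at h1
    exact e.injective (h1.trans (map_one e).symm)
  have hinj : Function.Injective θ₀ := by
    rw [injective_iff_map_eq_one]
    intro x hx
    have h1 := hθc (MonoidHom.mem_ker.mpr hx)
    rw [hcen, Subgroup.mem_bot] at h1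
    exact h1
  let e₀ : chevE8.SteinbergCover F ≃* ↥(chevE8.group F) := MulEquiv.ofBijective θ₀ ⟨hinj, hθs⟩
  haveI : Finite ↥(chevE8.group F) := inferInstance
  apply hasSchur_one_of_split
  intro Γ _ σ hσs hσc
  have hψc : (e₀.symm.toMonoidHom.comp σ).ker ≤ Subgroup.center Γ := by
    intro g hg
    apply hσc
    rw [MonoidHom.mem_ker] at hg ⊢
    exact e₀.symm.injective (hg.trans (map_one _).symm)
  obtain ⟨θ, hθ⟩ := cover_split_E chevE8 (by simp) (e₀.symm.toMonoidHom.comp σ)
    (e₀.symm.surjective.comp hσs) hψc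
  refine ⟨θ.comp e₀.symm.toMonoidHom, ?_⟩
  ext g : 1
  have h1 := DFunLike.congr_fun hθ (e₀.symm g)
  exact e₀.symm.injective h1

end Cfsg.Agent.H46
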