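import Cfsg.Agent.H46.CenMain
import Cfsg.Agent.H46.CenData
import Cfsg.Agent.H46.CommAll

set_option autoImplicit false
set_option maxRecDepth 100000

/-!
# The centres of the presented (Steinberg) groups of types E6 and E7 over a finite field
-/

namespace Cfsg.Agent.H46

open Cfsg.Lie Cfsg.Agent.H23

/-- `f 0 + f 1 + ⋯ + f (n - 1)`. -/
def sumTo (f : ℕ → ℤ) : ℕ → ℤ
  | 0 => 0
  | n + 1 => sumTo f n + f n

theorem sumTo_eq (f : ℕ → ℤ) : ∀ n, sumTo f n = ∑ i ∈ Finset.range n, f i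
  | 0 => rfl
  | n + 1 => by rw [Finset.sum_range_succ, ← sumTo_eq f n]; rfl

/-- The centre of the presented group is in bijection with the `p₂`-th roots of unity: table form. -/
theorem card_center_tab {D D' : ChevalleyDatum} {K : Type*} [Field K] [Finite K] {z η z' η' : ℕ → ℕ → ℤ}
    {w w0 w' w0' : List ℕ}
    (hpk : PackSt D K z η w w0) (hC : CommMat D K) (hpk' : PackSt D' K z' η' w' w0') (hC' : CommMat D' K)
    {CH CH' : ℕ} {ρ : ℕ → ℕ} (hCh : ChFOK D CH) (hCh' : ChFOK D' CH')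
    (hneg : ∀ r < D.nroots, D.neg r = D.nroots - 1 - r)
    (hneg' : ∀ r < D'.nroots, D'.neg r = D'.nroots - 1 - r)
    (hE : EmbTab D.nroots D'.nroots (chainF D.nroots CH) (chainF D'.nroots CH') ρ)
    (p₂ : ℕ) (c : ℕ → ℕ) (i0 : ℕ) (hi0 : i0 < D.rank)
    (hZ1 : ∀ s < D.nroots, sumTo (fun i => (c i : ℤ) * z (D.simple i) s) D.rank % (p₂ : ℤ) = 0)
    (B : ℕ → ℕ → ℤ)
    (hB : ∀ k < D.rank, ∀ i < D.rank, sumTo (fun j => z (D.simple i) (D.simple j) * B k j) D.rank =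
      (if i = k then 1 else 0) - (if i = i0 then (c k : ℤ) else 0))
    (b : ℕ → ℤ)
    (hb : ∀ i < D.rank, sumTo (fun j => z (D.simple i) (D.simple j) * b j) D.rank =
      if i = i0 then (p₂ : ℤ) else 0)
    (s₀ : ℕ) (hs₀ : s₀ < D'.nroots) (k₀ : ℤ)
    (hZ3 : sumTo (fun i => (c i : ℤ) * z' (ρ (D.simple i)) s₀) D.rank = 1 - p₂ * k₀) :
    Nat.card (Subgroup.center (D.SteinbergGroup K)) = Nat.card {ω : Kˣ // ω ^ p₂ = 1} := by
  obtain ⟨Ψ₀, hΨ₀⟩ := exists_emb (K := K) hCh hCh' hneg hneg' hE hpk'.hP.sem hC'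
  obtain ⟨e, he⟩ := cover_equiv hpk.tab hpk.hP hpk.hV hC
  have hT := hpk.hP.tab
  refine card_center_emb hpk hC hpk'.hP ρ (Ψ₀.comp e.symm.toMonoidHom) ?_ ?_ ?_ p₂ c i0 hi0 ?_ B ?_ b ?_
    s₀ hs₀ k₀ ?_
  · intro r hr t
    rw [MonoidHom.comp_apply, ← he r t]
    show Ψ₀ (e.symm (e (D.scGen K r t))) = _
    rw [MulEquiv.symm_apply_apply, hΨ₀ r hr]
  · intro i hi
    exact hE.lt _ (hT.simple_lt i hi)
  · intro i hi
    have h1 := hT.simple_lt i hi
    rw [hneg _ h1, hE.neg _ h1, hneg' _ (hE.lt _ h1)]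
  · intro s hs
    have h := hZ1 s hs
    rw [sumTo_eq] at h
    exact ⟨_, (Int.mul_ediv_cancel' (Int.dvd_of_emod_eq_zero h)).symm⟩
  · intro k hk i hi
    rw [← sumTo_eq]
    exact hB k hk i hi
  · intro i hi
    rw [← sumTo_eq]
    exact hb i hi
  · rw [← sumTo_eq]
    exact hZ3

/-- The exponents of the central elements of type E6. -/
def cenC6 : List ℕ := [1, 0, 2, 0, 1, 2]

/-- Certificates for the Cartan equations of type E6. -/
def cenB6 : List (List ℤ) :=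
  [[0, 0, 0, 0, 0, 0], [1, 2, 2, 3, 2, 1], [-1, 0, 0, 0, 0, 0], [2, 3, 4, 6, 4, 2], [0, 1, 1, 2, 2, 1],
    [-2, -1, -2, -2, -1, 0]]

def cenb6 : List ℤ := [4, 3, 5, 6, 4, 2]

/-- The exponents of the central elements of type E7. -/
def cenC7 : List ℕ := [0, 1, 0, 0, 1, 0, 1]

/-- Certificates for the Cartan equations of type E7. -/
def cenB7 : List (List ℤ) :=
  [[2, 2, 3, 4, 3, 2, 1], [0, 0, 0, 0, 0, 0, 0], [3, 4, 6, 8, 6, 4, 2], [4, 6, 8, 12, 9, 6, 3],
    [1, 1, 2, 3, 3, 2, 1], [2, 3, 4, 6, 5, 4, 2], [-1, -2, -2, -3, -2, -1, 0]]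

def cenb7 : List ℤ := [4, 7, 8, 12, 9, 6, 3]

theorem cenZ1_E6 : ∀ s < chevE6.nroots,
    sumTo (fun i => ((cenC6.getD i 0 : ℕ) : ℤ) * zR chevE6 ctblE6 (chevE6.simple i) s) chevE6.rank %
      ((3 : ℕ) : ℤ) = 0 := by
  decide +kernel

theorem cenB_E6 : ∀ k < chevE6.rank, ∀ i < chevE6.rank,
    sumTo (fun j => zR chevE6 ctblE6 (chevE6.simple i) (chevE6.simple j) * (cenB6.getD k []).getD j 0)
      chevE6.rank = (if i = k then 1 else 0) - (if i = 0 then ((cenC6.getD k 0 : ℕ) : ℤ) else 0) := by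
  decide +kernel

theorem cenb_E6 : ∀ i < chevE6.rank,
    sumTo (fun j => zR chevE6 ctblE6 (chevE6.simple i) (chevE6.simple j) * cenb6.getD j 0) chevE6.rank =
      if i = 0 then ((3 : ℕ) : ℤ) else 0 := by
  decide +kernel

theorem cenZ3_E6 : sumTo (fun i => ((cenC6.getD i 0 : ℕ) : ℤ) *
    zR chevE7 ctblE7 (rhoF rho67 (chevE6.simple i)) 63) chevE6.rank = 1 - ((3 : ℕ) : ℤ) * 1 := by
  decide +kernel

theorem cenZ1_E7 : ∀ s < chevE7.nroots,
    sumTo (fun i => ((cenC7.getD i 0 : ℕ) : ℤ) * zR chevE7 ctblE7 (chevE7.simple i) s) chevE7.rank %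
      ((2 : ℕ) : ℤ) = 0 := by
  decide +kernel

theorem cenB_E7 : ∀ k < chevE7.rank, ∀ i < chevE7.rank,
    sumTo (fun j => zR chevE7 ctblE7 (chevE7.simple i) (chevE7.simple j) * (cenB7.getD k []).getD j 0)
      chevE7.rank = (if i = k then 1 else 0) - (if i = 1 then ((cenC7.getD k 0 : ℕ) : ℤ) else 0) := by
  decide +kernel

theorem cenb_E7 : ∀ i < chevE7.rank,
    sumTo (fun j => zR chevE7 ctblE7 (chevE7.simple i) (chevE7.simple j) * cenb7.getD j 0) chevE7.rank =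
      if i = 1 then ((2 : ℕ) : ℤ) else 0 := by
  decide +kernel

theorem cenZ3_E7 : sumTo (fun i => ((cenC7.getD i 0 : ℕ) : ℤ) *
    zR chevE8 ctblE8 (rhoF rho78 (chevE7.simple i)) 120) chevE7.rank = 1 - ((2 : ℕ) : ℤ) * 1 := by
  decide +kernel

/-- The centre of the presented group of type E6 over a finite field is in bijection with the cube roots of
unity. -/
theorem card_center_E6 {K : Type*} [Field K] [Finite K] :
    Nat.card (Subgroup.center (chevE6.SteinbergGroup K)) = Nat.card {ω : Kˣ // ω ^ 3 = 1} :=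
  card_center_tab (packSt_E6 K)
    (fun r s hr hs h1 h2 t u => Cfsg.Agent.S1025.result chevE6 (by simp) r s hr hs h1 h2 t u)
    (packSt_E7 K)
    (fun r s hr hs h1 h2 t u => Cfsg.Agent.S1025.result chevE7 (by simp) r s hr hs h1 h2 t u)
    chfOK_E6 chfOK_E7 negIdx_E6 negIdx_E7 embTab_67 3 (fun i => cenC6.getD i 0) 0 (by decide) cenZ1_E6
    (fun k j => (cenB6.getD k []).getD j 0) cenB_E6 (fun j => cenb6.getD j 0) cenb_E6 63 (by decide) 1 cenZ3_E6

/-- The centre of the presented group of type E7 over a finite field is in bijection with the square roots of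
unity. -/
theorem card_center_E7 {K : Type*} [Field K] [Finite K] :
    Nat.card (Subgroup.center (chevE7.SteinbergGroup K)) = Nat.card {ω : Kˣ // ω ^ 2 = 1} :=
  card_center_tab (packSt_E7 K)
    (fun r s hr hs h1 h2 t u => Cfsg.Agent.S1025.result chevE7 (by simp) r s hr hs h1 h2 t u)
    (packSt_E8 K)
    (fun r s hr hs h1 h2 t u => Cfsg.Agent.S1025.result chevE8 (by simp) r s hr hs h1 h2 t u)
    chfOK_E7 chfOK_E8 negIdx_E7 negIdx_E8 embTab_78 2 (fun i => cenC7.getD i 0) 1 (by decide) cenZ1_E7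
    (fun k j => (cenB7.getD k []).getD j 0) cenB_E7 (fun j => cenb7.getD j 0) cenb_E7 120 (by decide) 1 cenZ3_E7

end Cfsg.Agent.H46
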