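import Cfsg.Agent.H46.CommSplit

set_option autoImplicit false

/-!
# Embeddings of simply laced root systems and the induced homomorphisms

An injective map `ρ` of the roots of `D` into the roots of `D'` compatible with the chain tables (same sums, same
signs) sends the root elements `x̄_r(t)` of the group presented by (R1), (R2) of type `D` to the root elements
`x_{ρ r}(t)` of the Chevalley group of type `D'`.
-/

namespace Cfsg.Agent.H46

open Cfsg.Lie Cfsg.Agent.H23

/-- A packed map of roots: 8 bits for each root. -/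
def rhoF (RHO r : ℕ) : ℕ := Nat.land (Nat.shiftRight RHO (Nat.mul 8 r)) 255

/-- The chain of a pair of roots is carried to the chain of the images. -/
def chkEmb (n : ℕ) (cf cf' : ℕ → ℕ → List (ℕ × ℤ)) (ρ : ℕ → ℕ) (r s : ℕ) : Bool :=
  Nat.beq s r || (Nat.beq s (n - 1 - r) ||
    (match cf r s with
     | [] => chBeq (cf' (ρ r) (ρ s)) []
     | [c] => decide (c.1 < n) && chBeq (cf' (ρ r) (ρ s)) [(ρ c.1, c.2)]
     | _ => false))

/-- The map of roots is in range, has a left inverse and commutes with negation. -/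
def chkRho (n n' : ℕ) (ρ ρi : ℕ → ℕ) (r : ℕ) : Bool :=
  decide (ρ r < n') && (Nat.beq (ρi (ρ r)) r && Nat.beq (ρ (n - 1 - r)) (n' - 1 - ρ r))

/-- The table conditions for an embedding of root systems. -/
structure EmbTab (n n' : ℕ) (cf cf' : ℕ → ℕ → List (ℕ × ℤ)) (ρ : ℕ → ℕ) : Prop where
  lt : ∀ r < n, ρ r < n'
  inj : ∀ r < n, ∀ s < n, ρ r = ρ s → r = s
  neg : ∀ r < n, ρ (n - 1 - r) = n' - 1 - ρ r
  ch : ∀ r < n, ∀ s < n, s ≠ r → s ≠ n - 1 - r →
    (cf r s = [] ∧ cf' (ρ r) (ρ s) = []) ∨ ∃ q m, q < n ∧ cf r s = [(q, m)] ∧ cf' (ρ r) (ρ s) = [(ρ q, m)]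

theorem embTab_of_chk (n n' : ℕ) (cf cf' : ℕ → ℕ → List (ℕ × ℤ)) (ρ ρi : ℕ → ℕ)
    (h1 : allFrom (chkRho n n' ρ ρi) 0 n = true)
    (h2 : ∀ r < n, allFrom (chkEmb n cf cf' ρ r) 0 n = true) : EmbTab n n' cf cf' ρ := by
  have h1' : ∀ r < n, ρ r < n' ∧ ρi (ρ r) = r ∧ ρ (n - 1 - r) = n' - 1 - ρ r := by
    intro r hr
    have h := allFrom_sound _ 0 n h1 r (Nat.zero_le _) (by omega)
    unfold chkRho at h
    simp only [Bool.and_eq_true, decide_eq_true_eq] at h
    exact ⟨h.1, Nat.eq_of_beq_eq_true h.2.1, Nat.eq_of_beq_eq_true h.2.2⟩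
  refine ⟨fun r hr => (h1' r hr).1, ?_, fun r hr => (h1' r hr).2.2, ?_⟩
  · intro r hr s hs e
    rw [← (h1' r hr).2.1, ← (h1' s hs).2.1, e]
  · intro r hr s hs hne hne'
    have h := allFrom_sound _ 0 n (h2 r hr) s (Nat.zero_le _) (by omega)
    unfold chkEmb at h
    rw [Bool.or_eq_true, Bool.or_eq_true] at h
    rcases h with h | h | h
    · exact absurd (Nat.eq_of_beq_eq_true h) hne
    · exact absurd (Nat.eq_of_beq_eq_true h) hne'
    · cases hc : cf r s with
      | nil =>
        rw [hc] at h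
        exact Or.inl ⟨rfl, chBeq_eq _ _ h⟩
      | cons c l =>
        cases l with
        | nil =>
          rw [hc] at h
          simp only [Bool.and_eq_true, decide_eq_true_eq] at h
          exact Or.inr ⟨c.1, c.2, h.1, rfl, chBeq_eq _ _ h.2⟩
        | cons c' l' =>
          rw [hc] at h
          exact Bool.noConfusion h

variable {D D' : ChevalleyDatum} {K : Type*} [Field K] {z' : ℕ → ℕ → ℤ}

/-- The images of the root elements. -/
def embY (D : ChevalleyDatum) (hS' : Sem D' K z') (ρ : ℕ → ℕ) (q : ℕ) (t : K) : GL D'.Idx K :=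
  if q < D.nroots then xU hS' (ρ q) t else 1

/-- The images of the root elements satisfy the relations (R1), (R2) of `D`. -/
theorem embY_rel {CH CH' : ℕ} {ρ : ℕ → ℕ} (hCh : ChFOK D CH) (hCh' : ChFOK D' CH')
    (hneg : ∀ r < D.nroots, D.neg r = D.nroots - 1 - r)
    (hneg' : ∀ r < D'.nroots, D'.neg r = D'.nroots - 1 - r)
    (hE : EmbTab D.nroots D'.nroots (chainF D.nroots CH) (chainF D'.nroots CH') ρ)
    (hS' : Sem D' K z') (hC' : CommMat D' K) : StRel D (embY D hS' ρ) := by
  have hY : ∀ q < D.nroots, ∀ v : K, embY D hS' ρ q v = xU hS' (ρ q) v := fun q hq v => if_pos hq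
  refine ⟨?_, ?_⟩
  · intro r hr t u
    rw [hY r hr, hY r hr, hY r hr, xU_mul]
  · intro r hr s hs hne hne' t u
    rw [hneg r hr] at hne'
    rw [hY r hr, hY s hs]
    have hρr := hE.lt r hr
    have hρs := hE.lt s hs
    have hne1 : ρ s ≠ ρ r := fun e => hne (hE.inj s hs r hr e)
    have hne2 : ρ s ≠ D'.neg (ρ r) := by
      rw [hneg' _ hρr, ← hE.neg r hr]
      intro e
      exact hne' (hE.inj s hs (D.nroots - 1 - r) (by omega) e)
    have hg := goodPair_of_mat hS' (hC' (ρ r) (ρ s) hρr hρs hne1 hne2) t u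
    have hlen : (chainF D.nroots CH s r).length ≤ 1 ∧ (chainF D'.nroots CH' (ρ s) (ρ r)).length ≤ 1 := by
      rcases hE.ch s hs r hr (Ne.symm hne) (by omega) with ⟨h1, h2⟩ | ⟨q, m, -, h1, h2⟩
      · rw [h1, h2]; exact ⟨Nat.zero_le _, Nat.zero_le _⟩
      · rw [h1, h2]; exact ⟨le_refl _, le_refl _⟩
    rcases hE.ch r hr s hs hne hne' with ⟨h1, h2⟩ | ⟨q, m, hq, h1, h2⟩
    · have hw : D.commWord K r s t u = [] := by
        unfold ChevalleyDatum.commWord
        rw [hCh.commTerms, commTermsG_nil h1 hlen.1]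
        rfl
      have hw' : D'.commWord K (ρ r) (ρ s) t u = [] := by
        unfold ChevalleyDatum.commWord
        rw [hCh'.commTerms, commTermsG_nil h2 hlen.2]
        rfl
      rw [hw, wordB_nil]
      rw [hw', wordU_nil, mul_one] at hg
      rw [mul_assoc, mul_assoc, ← mul_assoc (xU hS' (ρ r) t)⁻¹, hg, inv_mul_cancel]
    · have hw : D.commWord K r s t u = [(q, (m : K) * (-t) ^ 1 * u ^ 1)] := by
        unfold ChevalleyDatum.commWord
        rw [hCh.commTerms, commTermsG_single h1 hlen.1]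
        rfl
      have hw' : D'.commWord K (ρ r) (ρ s) t u = [(ρ q, (m : K) * (-t) ^ 1 * u ^ 1)] := by
        unfold ChevalleyDatum.commWord
        rw [hCh'.commTerms, commTermsG_single h2 hlen.2]
        rfl
      rw [hw, wordB_cons, wordB_nil, mul_one, hY q hq]
      rw [hw', wordU_cons, wordU_nil, mul_one] at hg
      rw [mul_assoc, mul_assoc, ← mul_assoc (xU hS' (ρ r) t)⁻¹, hg, inv_mul_cancel_left]

/-- The homomorphism from the group presented by (R1), (R2) of type `D` to the general linear group of the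
coordinate module of `D'`. -/
theorem exists_emb {CH CH' : ℕ} {ρ : ℕ → ℕ} (hCh : ChFOK D CH) (hCh' : ChFOK D' CH')
    (hneg : ∀ r < D.nroots, D.neg r = D.nroots - 1 - r)
    (hneg' : ∀ r < D'.nroots, D'.neg r = D'.nroots - 1 - r)
    (hE : EmbTab D.nroots D'.nroots (chainF D.nroots CH) (chainF D'.nroots CH') ρ)
    (hS' : Sem D' K z') (hC' : CommMat D' K) :
    ∃ Ψ : D.SteinbergCover K →* GL D'.Idx K, ∀ r < D.nroots, ∀ t : K, Ψ (D.scGen K r t) = xU hS' (ρ r) t := by
  have hrel := embY_rel hCh hCh' hneg hneg' hE hS' hC'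
  have hY1 : ∀ q, D.nroots ≤ q → ∀ t : K, embY D hS' ρ q t = 1 := fun q hq t => if_neg (by omega)
  refine ⟨PresentedGroup.toGroup (liftE_rels (embY D hS' ρ) hY1 hrel), ?_⟩
  intro r hr t
  have h1 : PresentedGroup.toGroup (liftE_rels (embY D hS' ρ) hY1 hrel) (D.scGen K r t) =
      FreeGroup.lift (fun p : Fin D.nroots × K => embY D hS' ρ p.1 p.2) (D.stX r t) := rfl
  rw [h1, liftE_stX (embY D hS' ρ) hY1]
  exact if_pos hr

end Cfsg.Agent.H46
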