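import Cfsg.Agent.H46.CenEmb
import Cfsg.Agent.H46.StMain2
import Cfsg.Agent.H54.CartanLin

set_option autoImplicit false
set_option linter.unusedSectionVars false

/-!
# The centre of the presented (Steinberg) group through an embedding of root systems

The centre of the presented group of type `D` consists of the elements `∏ h̄_{p_i}(ω ^ c_i)` for the `p₂`-th roots
of unity `ω`, when the lattice of solutions of the Cartan equations is generated this way (certificates `B`, `b`),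
and these elements are distinct because they act differently on a root element of a larger root system `D'`.
-/

namespace Cfsg.Agent.H46

open Cfsg.Lie Cfsg.Agent.H23

variable {D D' : ChevalleyDatum} {K : Type*} [Field K] {Γ : Type*} [Group Γ] {z η z' η' : ℕ → ℕ → ℤ}

theorem prodB_congr (C : StCtx D K Γ z η) (f g : ℕ → K) :
    ∀ n, (∀ i < n, f i = g i) → prodB C n f = prodB C n g
  | 0, _ => rfl
  | n + 1, h => by
    show prodB C n f * hB C n (f n) = prodB C n g * hB C n (g n)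
    rw [prodB_congr C f g n (fun i hi => h i (by omega)), h n (by omega)]

/-- The product of the `h_{ρ p_i}(f i)` for `i < n`, in the general linear group of `D'`. -/
def prodE (hS' : Sem D' K z') (ρ : ℕ → ℕ) (D : ChevalleyDatum) : ℕ → (ℕ → K) → GL D'.Idx K
  | 0, _ => 1
  | n + 1, f => prodE hS' ρ D n f * hU hS' (ρ (D.simple n)) (f n)

theorem prodE_conj (hS' : Sem D' K z') (ρ : ℕ → ℕ) (hρ : ∀ i < D.rank, ρ (D.simple i) < D'.nroots)
    (f : ℕ → K) (hf : ∀ i, f i ≠ 0) (s : ℕ) (hs : s < D'.nroots) (u : K) :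
    ∀ n, n ≤ D.rank → prodE hS' ρ D n f * xU hS' s u * (prodE hS' ρ D n f)⁻¹ =
      xU hS' s ((∏ i ∈ Finset.range n, f i ^ z' (ρ (D.simple i)) s) * u)
  | 0, _ => by
    show (1 : GL D'.Idx K) * xU hS' s u * 1⁻¹ = _
    rw [Finset.range_zero, Finset.prod_empty, one_mul, one_mul, inv_one, mul_one]
  | n + 1, hn => by
    show prodE hS' ρ D n f * hU hS' (ρ (D.simple n)) (f n) * xU hS' s u *
      (prodE hS' ρ D n f * hU hS' (ρ (D.simple n)) (f n))⁻¹ = _
    have h1 := hU_conj hS' (ρ (D.simple n)) (hρ n (by omega)) (f n) (hf n) s hs u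
    have h2 := prodE_conj hS' ρ hρ f hf s hs (f n ^ z' (ρ (D.simple n)) s * u) n (by omega)
    rw [Finset.prod_range_succ]
    calc prodE hS' ρ D n f * hU hS' (ρ (D.simple n)) (f n) * xU hS' s u *
          (prodE hS' ρ D n f * hU hS' (ρ (D.simple n)) (f n))⁻¹
        = prodE hS' ρ D n f * (hU hS' (ρ (D.simple n)) (f n) * xU hS' s u *
            (hU hS' (ρ (D.simple n)) (f n))⁻¹) * (prodE hS' ρ D n f)⁻¹ := by group
      _ = _ := by rw [h1, h2, mul_assoc]

theorem map_prodB (C : StCtx D K Γ z η) (Ψ : Γ →* GL D'.Idx K) (hS' : Sem D' K z') (ρ : ℕ → ℕ)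
    (hΨ : ∀ r < D.nroots, ∀ t : K, Ψ (C.xb r t) = xU hS' (ρ r) t)
    (hρneg : ∀ i < D.rank, ρ (D.neg (D.simple i)) = D'.neg (ρ (D.simple i))) (f : ℕ → K) :
    ∀ n, n ≤ D.rank → Ψ (prodB C n f) = prodE hS' ρ D n f
  | 0, _ => map_one _
  | n + 1, hn => by
    show Ψ (prodB C n f * hB C n (f n)) = prodE hS' ρ D n f * hU hS' (ρ (D.simple n)) (f n)
    have hlt := C.hP.tab.simple_lt n (by omega)
    have hnlt := C.hP.tab.neg_lt _ hlt
    have hn' : ∀ t : K, Ψ (nB D C.xb (D.simple n) t) = nU hS' (ρ (D.simple n)) t := by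
      intro t
      unfold nB
      rw [map_mul, map_mul, hΨ _ hlt, hΨ _ hnlt, hρneg n (by omega), nU_eq]
    rw [map_mul, map_prodB C Ψ hS' ρ hΨ hρneg f n (by omega), hB, map_mul, hn', hn', ← hU_eq]

theorem prod_units_zpow (ω : Kˣ) (c : ℕ → ℕ) (e : ℕ → ℤ) :
    ∀ n, ∏ i ∈ Finset.range n, ((ω ^ c i : Kˣ) : K) ^ e i =
      ((ω ^ (∑ i ∈ Finset.range n, (c i : ℤ) * e i) : Kˣ) : K)
  | 0 => by simp
  | n + 1 => by
    rw [Finset.prod_range_succ, Finset.sum_range_succ, prod_units_zpow ω c e n, zpow_add, Units.val_mul]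
    congr 1
    rw [zpow_mul, zpow_natCast, Units.val_zpow_eq_zpow_val]

/-- The centre of the presented group is in bijection with the `p₂`-th roots of unity. -/
theorem card_center_emb {w w0 : List ℕ} (hpk : PackSt D K z η w w0) (hC : CommMat D K)
    (hP' : PackB D' K z' η') (ρ : ℕ → ℕ)
    (Ψ : D.SteinbergGroup K →* GL D'.Idx K)
    (hΨ : ∀ r < D.nroots, ∀ t : K, Ψ (D.stGen K r t) = xU hP'.sem (ρ r) t)
    (hρlt : ∀ i < D.rank, ρ (D.simple i) < D'.nroots)
    (hρneg : ∀ i < D.rank, ρ (D.neg (D.simple i)) = D'.neg (ρ (D.simple i)))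
    (p₂ : ℕ) (c : ℕ → ℕ) (i0 : ℕ) (hi0 : i0 < D.rank)
    (hZ1 : ∀ s < D.nroots, ∃ k : ℤ, ∑ i ∈ Finset.range D.rank, (c i : ℤ) * z (D.simple i) s = p₂ * k)
    (B : ℕ → ℕ → ℤ)
    (hB : ∀ k < D.rank, ∀ i < D.rank, ∑ j ∈ Finset.range D.rank, z (D.simple i) (D.simple j) * B k j =
      (if i = k then 1 else 0) - (if i = i0 then (c k : ℤ) else 0))
    (b : ℕ → ℤ)
    (hb : ∀ i < D.rank, ∑ j ∈ Finset.range D.rank, z (D.simple i) (D.simple j) * b j =
      if i = i0 then (p₂ : ℤ) else 0)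
    (s₀ : ℕ) (hs₀ : s₀ < D'.nroots) (k₀ : ℤ)
    (hZ3 : ∑ i ∈ Finset.range D.rank, (c i : ℤ) * z' (ρ (D.simple i)) s₀ = 1 - p₂ * k₀) :
    Nat.card (Subgroup.center (D.SteinbergGroup K)) = Nat.card {ω : Kˣ // ω ^ p₂ = 1} := by
  classical
  obtain ⟨θ, h1, h2⟩ := exists_hom hpk.hP.sem (D.steinbergRels K) (lift_rels hpk.hP.sem hC)
  have hA : ∀ (r : ℕ) (t₁ t₂ : K), r < D.nroots →
      D.stX r t₁ * D.stX r t₂ * (D.stX r (t₁ + t₂))⁻¹ ∈ D.steinbergRels K :=
    fun r t₁ t₂ hr => Or.inl (Or.inl ⟨r, t₁, t₂, hr, rfl⟩)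
  have hB' : ∀ (r s : ℕ) (t u : K), r < D.nroots → s < D.nroots → s ≠ r → s ≠ D.neg r →
      (D.stX s u)⁻¹ * (D.stX r t)⁻¹ * D.stX s u * D.stX r t * (D.stWord (D.commWord K r s t u))⁻¹ ∈
        D.steinbergRels K :=
    fun r s t u hr hs h1 h2 => Or.inl (Or.inr ⟨r, s, t, u, hr, hs, h1, h2, rfl⟩)
  obtain ⟨C, hCdef⟩ : ∃ C : StCtx D K (D.SteinbergGroup K) z η,
      C = ctxP (D.steinbergRels K) hA hB' hpk.tab hpk.hP hpk.hV θ h2 := ⟨_, rfl⟩
  have hCπ : ∀ k, C.π k = (D.group K).subtype (θ k) := fun k => by rw [hCdef]; rfl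
  have hCxb : ∀ r t, C.xb r t = xbP D (D.steinbergRels K) r t := fun r t => by rw [hCdef]; rfl
  have h3 : R3 C := by
    intro i hi t₁ t₂ ht₁ ht₂
    have hrel : D.stH (D.simple i) t₁ * D.stH (D.simple i) t₂ * (D.stH (D.simple i) (t₁ * t₂))⁻¹ ∈
        D.steinbergRels K := Or.inr ⟨D.simple i, t₁, t₂, hpk.hP.tab.simple_lt i hi, ht₁, ht₂, rfl⟩
    have h4 := PresentedGroup.one_of_mem hrel
    rw [map_mul, map_mul, map_inv, mul_inv_eq_one, mk_stH, mk_stH, mk_stH] at h4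
    rw [hCdef]
    exact h4
  have hgen : Subgroup.closure {g | ∃ (r : ℕ) (t : K), r < D.nroots ∧ g = C.xb r t} = ⊤ := by
    rw [hCdef]; exact closure_xbP _
  have hker : ∀ k, k ∈ Subgroup.center (D.SteinbergGroup K) ↔ C.π k = 1 := by
    intro k
    constructor
    · intro hk
      have hc : θ k ∈ Subgroup.center ↥(D.group K) := by
        rw [Subgroup.mem_center_iff]
        intro g
        obtain ⟨x, rfl⟩ := h1 g
        rw [← map_mul, ← map_mul, Subgroup.mem_center_iff.mp hk x]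
      rw [center_group_eq_bot hpk.hP hpk.hV w0 hpk.tabW, Subgroup.mem_bot] at hc
      rw [hCπ, hc, map_one]
    · intro hk
      exact (ker_mem C hgen k hk).2
  have hfne : ∀ (ω : Kˣ) (i : ℕ), ((ω ^ c i : Kˣ) : K) ≠ 0 := fun ω i => Units.ne_zero _
  -- the elements are central
  have hprod1 : ∀ ω : Kˣ, ω ^ p₂ = 1 → ∀ s < D.nroots,
      ∏ i ∈ Finset.range D.rank, ((ω ^ c i : Kˣ) : K) ^ z (D.simple i) s = 1 := by
    intro ω hω s hs
    obtain ⟨k, hk⟩ := hZ1 s hs
    rw [prod_units_zpow, hk, zpow_mul, zpow_natCast, hω, one_zpow, Units.val_one]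
  have hcenA : ∀ ω : Kˣ, ω ^ p₂ = 1 → C.π (prodB C D.rank (fun i => ((ω ^ c i : Kˣ) : K))) = 1 := by
    intro ω hω
    have hcen : θ (prodB C D.rank (fun i => ((ω ^ c i : Kˣ) : K))) ∈ Subgroup.center ↥(D.group K) := by
      rw [Subgroup.mem_center_iff]
      intro g
      obtain ⟨x, rfl⟩ := h1 g
      have hle : Subgroup.closure {g | ∃ (r : ℕ) (t : K), r < D.nroots ∧ g = C.xb r t} ≤
          (Subgroup.centralizer {θ (prodB C D.rank (fun i => ((ω ^ c i : Kˣ) : K)))}).comap θ := by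
        rw [Subgroup.closure_le]
        rintro _ ⟨r, t, hr, rfl⟩
        rw [SetLike.mem_coe, Subgroup.mem_comap, Subgroup.mem_centralizer_iff]
        intro y hy
        rw [Set.mem_singleton_iff] at hy
        subst hy
        apply Subtype.ext
        rw [Subgroup.coe_mul, Subgroup.coe_mul]
        have e1 : ((θ (prodB C D.rank (fun i => ((ω ^ c i : Kˣ) : K))) : ↥(D.group K)) : GL D.Idx K) =
            prodU C D.rank (fun i => ((ω ^ c i : Kˣ) : K)) := by
          rw [← π_prodB, hCπ]; rfl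
        have e2 : ((θ (C.xb r t) : ↥(D.group K)) : GL D.Idx K) = xU C.hP.sem r t := by
          rw [← C.hπ r t, hCπ]; rfl
        rw [e1, e2]
        have hc := prodU_conj (C := C) (fun i => ((ω ^ c i : Kˣ) : K)) (hfne ω) r hr t D.rank le_rfl
        rw [hprod1 ω hω r hr, one_mul] at hc
        exact (mul_inv_eq_iff_eq_mul.mp hc)
      rw [hgen] at hle
      have hx := hle (Subgroup.mem_top x)
      rw [Subgroup.mem_comap, Subgroup.mem_centralizer_iff] at hx
      exact (hx _ rfl).symm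
    rw [center_group_eq_bot hpk.hP hpk.hV w0 hpk.tabW, Subgroup.mem_bot] at hcen
    rw [hCπ, hcen, map_one]
  -- every central element is of this form
  have hsurj : ∀ k ∈ Subgroup.center (D.SteinbergGroup K), ∃ ω : Kˣ, ω ^ p₂ = 1 ∧
      prodB C D.rank (fun i => ((ω ^ c i : Kˣ) : K)) = k := by
    intro k hk
    have hk' := (hker k).mp hk
    have hmem := (ker_mem C hgen k hk').1
    obtain ⟨f, hf, rfl⟩ := exists_prodB h3 k hmem
    rw [π_prodB] at hk'
    have hT := C.hP.tab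
    have hcart : ∀ j < D.rank, ∏ i ∈ Finset.range D.rank, f i ^ z (D.simple i) (D.simple j) = 1 := by
      intro j hj
      have h2 := prodU_conj (C := C) f hf (D.simple j) (hT.simple_lt j hj) 1 D.rank le_rfl
      rw [hk', one_mul, inv_one, mul_one, mul_one] at h2
      exact (xU_inj C.hP _ (hT.simple_lt j hj) _ _ h2).symm
    have ht : ∀ j < D.rank, ∏ i ∈ Finset.range D.rank,
        (Units.mk0 (f i) (hf i)) ^ z (D.simple i) (D.simple j) = 1 := by
      intro j hj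
      apply Units.ext
      rw [Units.coe_prod, Units.val_one, ← hcart j hj]
      apply Finset.prod_congr rfl
      intro i _
      rw [Units.val_zpow_eq_zpow_val, Units.val_mk0]
    have e1 := Cfsg.Agent.H54.CartanLin.eq_zpow_of_cartan D.rank (fun i j => z (D.simple i) (D.simple j)) B
      (fun k => (c k : ℤ)) i0 hi0 hB (fun i => Units.mk0 (f i) (hf i)) ht
    have e2 := Cfsg.Agent.H54.CartanLin.zpow_eq_one_of_cartan D.rank (fun i j => z (D.simple i) (D.simple j)) b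
      (p₂ : ℤ) i0 hi0 hb (fun i => Units.mk0 (f i) (hf i)) ht
    refine ⟨Units.mk0 (f i0) (hf i0), by rw [← zpow_natCast]; exact e2, ?_⟩
    apply prodB_congr
    intro i hi
    have h5 := e1 i hi
    rw [zpow_natCast] at h5
    show ((Units.mk0 (f i0) (hf i0) ^ c i : Kˣ) : K) = f i
    rw [← h5, Units.val_mk0]
  -- the elements are distinct
  have hΨ' : ∀ r < D.nroots, ∀ t : K, Ψ (C.xb r t) = xU hP'.sem (ρ r) t := by
    intro r hr t
    rw [hCxb]
    exact hΨ r hr t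
  have hchar : ∀ ω : Kˣ, ω ^ p₂ = 1 →
      ∏ i ∈ Finset.range D.rank, ((ω ^ c i : Kˣ) : K) ^ z' (ρ (D.simple i)) s₀ = (ω : K) := by
    intro ω hω
    rw [prod_units_zpow, hZ3, zpow_sub, zpow_one, zpow_mul, zpow_natCast, hω, one_zpow, inv_one, mul_one]
  have hinj : ∀ ω ω' : Kˣ, ω ^ p₂ = 1 → ω' ^ p₂ = 1 →
      prodB C D.rank (fun i => ((ω ^ c i : Kˣ) : K)) = prodB C D.rank (fun i => ((ω' ^ c i : Kˣ) : K)) →
      ω = ω' := by
    intro ω ω' hω hω' heq
    have h5 := congrArg Ψ heq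
    rw [map_prodB C Ψ hP'.sem ρ hΨ' hρneg _ D.rank le_rfl, map_prodB C Ψ hP'.sem ρ hΨ' hρneg _ D.rank le_rfl] at h5
    have h6 := prodE_conj hP'.sem ρ hρlt (fun i => ((ω ^ c i : Kˣ) : K)) (hfne ω) s₀ hs₀ 1 D.rank le_rfl
    have h7 := prodE_conj hP'.sem ρ hρlt (fun i => ((ω' ^ c i : Kˣ) : K)) (hfne ω') s₀ hs₀ 1 D.rank le_rfl
    rw [h5, h7] at h6
    have h8 := xU_inj hP' s₀ hs₀ _ _ h6
    rw [mul_one, mul_one, hchar ω' hω', hchar ω hω] at h8
    exact (Units.ext h8).symm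
  have hbij : Function.Bijective (fun ω : {ω : Kˣ // ω ^ p₂ = 1} =>
      (⟨prodB C D.rank (fun i => ((ω.1 ^ c i : Kˣ) : K)), (hker _).mpr (hcenA ω.1 ω.2)⟩ :
        Subgroup.center (D.SteinbergGroup K))) := by
    constructor
    · intro a b hab
      apply Subtype.ext
      exact hinj a.1 b.1 a.2 b.2 (congrArg Subtype.val hab)
    · intro k
      obtain ⟨ω, hω, h⟩ := hsurj k.1 k.2
      exact ⟨⟨ω, hω⟩, Subtype.ext h⟩
  exact (Nat.card_congr (Equiv.ofBijective _ hbij)).symm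

end Cfsg.Agent.H46
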