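import Cfsg.Agent.H22.ChevWtData

/-!
# The elements `n_p(1)` for fundamental roots `p` are signed monomial matrices (helper46)

Built on helper22's symbolic engine (`Cfsg.Agent.H22`): the columns of `n_p = x_p(1) x_{-p}(-1) x_p(1)`
are computed by `leftWordN` and compared with the expected signed monomial columns.
-/

set_option autoImplicit false

namespace Cfsg.Agent.H46

open Cfsg Cfsg.Lie Cfsg.Agent.H22

variable (D : ChevalleyDatum)

/-- the word of `n_r(1)` -/
def npW (r : ℕ) : List (ℕ × Poly) :=
  [(r, [⟨1, 0, 0, 0, 0, 0⟩]), (Nat.sub (Nat.sub D.nroots 1) r, [⟨0, 1, 0, 0, 0, 0⟩]),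
    (r, [⟨1, 0, 0, 0, 0, 0⟩])]

/-- column `k` of `n_{p_i}(1)` -/
def npCol (i k : ℕ) : List Ent := leftWordN D (npW D (simpleN D i)) [unitE k]

/-- the monomial `±1` -/
def sgMono (sg : Bool) : Mono := bif sg then ⟨0, 1, 0, 0, 0, 0⟩ else ⟨1, 0, 0, 0, 0, 0⟩

/-- the expected column `k` of `n_{p_i}(1)`, with sign `sg` on the root part -/
def npExpect (i k : ℕ) (sg : Bool) : List Ent :=
  bif Nat.blt k D.rank then
    [⟨k, k, ⟨1, 0, 0, 0, 0, 0⟩⟩,
      ⟨i, k, ⟨Nat.sub 128 (cartanN D k (simpleN D i)), Nat.sub (cartanN D k (simpleN D i)) 128,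
        0, 0, 0, 0⟩⟩]
  else [⟨Nat.add D.rank (D.reflectRoot i (Nat.sub k D.rank)), k, sgMono sg⟩]

/-- is the sign `η_s` negative? -/
def npNeg (i s : ℕ) : Bool :=
  entEq ⟨1, 0, 1, 0, Nat.add D.rank s⟩ (npCol D i (Nat.add D.rank s))
    (npExpect D i (Nat.add D.rank s) true)

/-- the sign `η_s` -/
def npEta (i s : ℕ) : ℤ := bif npNeg D i s then -1 else 1

def bxor' (a b : Bool) : Bool := bif a then !b else b

def beqB (a b : Bool) : Bool := bif a then b else !b

theorem beqB_eq {a b : Bool} (h : beqB a b = true) : a = b := by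
  cases a <;> cases b <;> simp_all [beqB]

/-- the check of the columns -/
def npColChk (i : ℕ) : Bool :=
  allBelow (Nat.add D.rank D.nroots) fun k =>
    entEq ⟨1, 0, 1, 0, k⟩ (npCol D i k) (npExpect D i k (npNeg D i (Nat.sub k D.rank)))

/-- the check of the signs -/
def npSgnChk (i : ℕ) : Bool :=
  npNeg D i (simpleN D i) && (npNeg D i (Nat.sub (Nat.sub D.nroots 1) (simpleN D i)) &&
    allBelow D.nroots fun s =>
      Nat.blt (D.reflectRoot i s) D.nroots &&
        (beqB (bxor' (npNeg D i s) (npNeg D i (D.reflectRoot i s)))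
            (Nat.beq (Nat.mod (cartanN D i s) 2) 1) &&
          beqB (npNeg D i s) (npNeg D i (Nat.sub (Nat.sub D.nroots 1) s))))

def npChk (i : ℕ) : Bool := npColChk D i && npSgnChk D i

theorem npEta_cases (i s : ℕ) : npEta D i s = 1 ∨ npEta D i s = -1 := by
  unfold npEta
  cases npNeg D i s <;> simp

variable {D} {F : Type*} [Field F]

theorem npEta_props (h : tablesCheck D = true) (i : ℕ) (hi : i < D.rank)
    (hp : D.simple i < D.nroots) (hc : npSgnChk D i = true) :
    npEta D i (D.simple i) = -1 ∧ npEta D i (D.neg (D.simple i)) = -1 ∧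
      ∀ s < D.nroots, D.reflectRoot i s < D.nroots ∧
        npEta D i s * npEta D i (D.reflectRoot i s) = (-1) ^ (D.cartan i s).natAbs ∧
        npEta D i s * npEta D i (D.neg s) = 1 := by
  simp only [npSgnChk, Bool.and_eq_true] at hc
  obtain ⟨h1, h2, h3⟩ := hc
  rw [simpleN_eq] at h1 h2
  refine ⟨by simp [npEta, h1], ?_, ?_⟩
  · rw [neg_eq h _ hp]
    have : npNeg D i (D.nroots - 1 - D.simple i) = true := h2
    simp [npEta, this]
  · intro s hs
    have h4 := (allBelow_iff _ _).mp h3 s hs
    simp only [Bool.and_eq_true] at h4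
    obtain ⟨h5, h6, h7⟩ := h4
    have h5' : D.reflectRoot i s < D.nroots := by simpa [Nat.blt] using h5
    refine ⟨h5', ?_, ?_⟩
    · have h8 := beqB_eq h6
      have hcart : D.cartan i s = (cartanN D i s : ℤ) - 128 := by
        rw [← cartanF_eq h i s hi hs, cartanF_eq_N]
      have hpar : ((-1 : ℤ)) ^ (D.cartan i s).natAbs =
          bif Nat.beq (Nat.mod (cartanN D i s) 2) 1 then -1 else 1 := by
        by_cases hodd : cartanN D i s % 2 = 1
        · have h9 : Nat.beq (Nat.mod (cartanN D i s) 2) 1 = true := beq_true' hodd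
          rw [h9, cond_true]
          apply Odd.neg_one_pow
          rw [Nat.odd_iff, hcart]
          omega
        · have h9 : Nat.beq (Nat.mod (cartanN D i s) 2) 1 = false := beq_false' hodd
          rw [h9, cond_false]
          apply Even.neg_one_pow
          rw [Nat.even_iff, hcart]
          omega
      rw [hpar, ← h8]
      unfold npEta
      cases npNeg D i s <;> cases npNeg D i (D.reflectRoot i s) <;> simp [bxor']
    · have h8 := beqB_eq h7
      rw [neg_eq h s hs]
      have h9 : npNeg D i (D.nroots - 1 - s) = npNeg D i s := h8.symm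
      unfold npEta
      rw [h9]
      cases npNeg D i s <;> simp

theorem mul_bmat_enc_apply (M : Matrix D.Idx D.Idx F) (j a b : D.Idx) :
    (M * bmat D F (enc D j) (enc D j)) a b = if b = j then M a j else 0 := by
  rw [bmat_eq_colMat, mul_colMat, bvec_enc, Matrix.mulVec_single_one]
  by_cases hb : b = j
  · subst hb
    simp [colMat]
  · have : enc D b ≠ enc D j := fun h' => hb (enc_injective D h')
    simp [colMat, hb, this]

theorem ent_eval_apply (ρ : Val F) (e : Ent) (a b : D.Idx) :
    (e.eval D ρ) a b = if enc D a = e.row ∧ enc D b = e.col then e.m.eval ρ else 0 := by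
  simp [Ent.eval, bmat]

/-- the evaluation point `X = Y = 1` -/
def rhoOne (F : Type*) [Field F] : Val F := ⟨1, 1, one_ne_zero, one_ne_zero⟩

theorem sgMono_eval (sg : Bool) :
    (sgMono sg).eval (rhoOne F) = ((bif sg then (-1 : ℤ) else 1 : ℤ) : F) := by
  cases sg <;> simp [sgMono, Mono.eval, Mono.mon, rhoOne]

/-- `n_{p_i}(1)` is the expected signed monomial matrix -/
theorem nMat_simple_of_chk (h : tablesCheck D = true) (i : ℕ) (hi : i < D.rank)
    (hp : D.simple i < D.nroots) (hc : npColChk D i = true) :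
    D.nMat F (D.simple i) 1 = Matrix.of (fun (row col : D.Idx) =>
        Sum.elim
          (fun j' : Fin D.rank => Sum.elim
            (fun j : Fin D.rank => (if j' = j then (1 : F) else 0) -
              (if (j' : ℕ) = i then ((D.cartan j (D.simple i) : ℤ) : F) else 0))
            (fun _ => (0 : F)) col)
          (fun s' : Fin D.nroots => Sum.elim
            (fun _ => (0 : F))
            (fun s : Fin D.nroots =>
              if (s' : ℕ) = D.reflectRoot i s then ((npEta D i s : ℤ) : F) else 0) col)
          row) := by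
  have hw : D.nWord (D.simple i) (1 : F) = evalWord (rhoOne F) (npW D (simpleN D i)) := by
    simp [ChevalleyDatum.nWord, evalWord, npW, Poly.eval, Mono.eval, Mono.mon, neg_eq h _ hp,
      simpleN_eq, rhoOne]
  rw [ChevalleyDatum.nMat, hw]
  apply mat_eq_of_mul_bmat
  intro k hk
  obtain ⟨j, rfl⟩ := exists_enc_eq D k hk
  rw [← entsEval_unitE D (rhoOne F) (enc D j), ← leftWordN_sound h]
  have h1 := entEq_sound D (rhoOne F) _ _ _ ((allBelow_iff _ _).mp hc (enc D j) hk)
  have h2 : leftWordN D (npW D (simpleN D i)) [unitE (enc D j)] = npCol D i (enc D j) := rfl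
  rw [h2, h1, entsEval_unitE]
  ext a b
  rw [mul_bmat_enc_apply]
  rcases j with jj | s
  · have hb : Nat.blt (enc D (Sum.inl jj : D.Idx)) D.rank = true := blt_true' jj.isLt
    have hE : npExpect D i (enc D (Sum.inl jj : D.Idx))
        (npNeg D i (Nat.sub (enc D (Sum.inl jj : D.Idx)) D.rank)) =
        [⟨jj.val, jj.val, ⟨1, 0, 0, 0, 0, 0⟩⟩,
          ⟨i, jj.val, ⟨Nat.sub 128 (cartanN D jj.val (simpleN D i)),
            Nat.sub (cartanN D jj.val (simpleN D i)) 128, 0, 0, 0, 0⟩⟩] := by
      unfold npExpect
      rw [hb, cond_true]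
      rfl
    rw [hE]
    have hcart : ((D.cartan jj.val (D.simple i) : ℤ) : F) =
        (cartanN D jj.val (simpleN D i) : F) - 128 := by
      rw [← cartanF_eq h jj.val (D.simple i) jj.isLt hp, cartanF_eq_N, simpleN_eq]
      push_cast
      ring
    have hm1 : (⟨1, 0, 0, 0, 0, 0⟩ : Mono).eval (rhoOne F) = 1 := by
      simp [Mono.eval, Mono.mon, rhoOne]
    have hm2 : (⟨Nat.sub 128 (cartanN D jj.val (simpleN D i)),
        Nat.sub (cartanN D jj.val (simpleN D i)) 128, 0, 0, 0, 0⟩ : Mono).eval (rhoOne F) =
        -((D.cartan jj.val (D.simple i) : ℤ) : F) := by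
      have hsub := natCast_sub_sub (F := F) 128 (cartanN D jj.val (simpleN D i))
      have h128 : ((128 : ℕ) : F) = 128 := by norm_cast
      rw [h128] at hsub
      simp only [Mono.eval, Mono.mon, rhoOne, pow_zero, mul_one, Nat.sub_eq]
      rw [hcart, hsub]
      ring
    simp only [entsEval_cons, entsEval_nil, add_zero, Matrix.add_apply, ent_eval_apply, hm1, hm2]
    rcases a with j' | s'
    · rcases b with jb | sb
      · by_cases hbj : jb = jj
        · subst hbj
          simp only [enc, Matrix.of_apply, Sum.elim_inl, if_true, and_true]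
          by_cases h3 : j' = jb
          · subst h3
            by_cases h4 : (j' : ℕ) = i
            · simp [h4]
              ring
            · simp [h4]
          · have h3' : (j' : ℕ) ≠ (jb : ℕ) := fun e => h3 (Fin.ext e)
            by_cases h4 : (j' : ℕ) = i
            · have h5 : ¬ i = (jb : ℕ) := fun e => h3' (h4.trans e)
              simp [h4, h3, h5]
            · simp [h3, h3', h4]
        · have hbj' : (jb : ℕ) ≠ (jj : ℕ) := fun e => hbj (Fin.ext e)
          simp [enc, hbj, hbj']
      · have : D.rank + (sb : ℕ) ≠ (jj : ℕ) := by have := jj.isLt; omega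
        simp [enc, this]
    · have h5 : D.rank + (s' : ℕ) ≠ (jj : ℕ) := by have := jj.isLt; omega
      have h6 : D.rank + (s' : ℕ) ≠ i := by omega
      simp [enc, h5, h6]
  · have hb : Nat.blt (enc D (Sum.inr s : D.Idx)) D.rank = false :=
      blt_false' (by simp only [enc]; omega)
    have hsub : Nat.sub (enc D (Sum.inr s : D.Idx)) D.rank = s.val := by
      show D.rank + s.val - D.rank = s.val
      omega
    have hE : npExpect D i (enc D (Sum.inr s : D.Idx))
        (npNeg D i (Nat.sub (enc D (Sum.inr s : D.Idx)) D.rank)) =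
        [⟨D.rank + D.reflectRoot i s.val, D.rank + s.val, sgMono (npNeg D i s.val)⟩] := by
      unfold npExpect
      rw [hb, cond_false, hsub]
      rfl
    rw [hE]
    simp only [entsEval_cons, entsEval_nil, add_zero, ent_eval_apply, sgMono_eval]
    rcases a with j' | s'
    · have h5 : (j' : ℕ) ≠ D.rank + D.reflectRoot i s.val := by have := j'.isLt; omega
      simp [enc, h5]
    · rcases b with jb | sb
      · have h5 : (jb : ℕ) ≠ D.rank + s.val := by have := jb.isLt; omega
        simp [enc, h5]
      · by_cases hbs : sb = s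
        · subst hbs
          simp [enc, npEta]
        · have hbs' : (sb : ℕ) ≠ (s : ℕ) := fun e => hbs (Fin.ext e)
          simp [enc, hbs, hbs']

end Cfsg.Agent.H46
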