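import Cfsg.Agent.H46.ChevNp

/-!
# `n_p(1)` signed monomial: kernel computations for `E₈`, part a (helper46)
-/

set_option autoImplicit false
set_option maxRecDepth 1000000

namespace Cfsg.Agent.H46

open Cfsg Cfsg.Lie Cfsg.Agent.H22

theorem npChk_E8_0 : npChk chevE8 0 = true := by decide +kernel
theorem npChk_E8_1 : npChk chevE8 1 = true := by decide +kernel
theorem npChk_E8_2 : npChk chevE8 2 = true := by decide +kernel
theorem npChk_E8_3 : npChk chevE8 3 = true := by decide +kernel

end Cfsg.Agent.H46
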