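import Cfsg.Agent.H46.ChevNpData
import Cfsg.Agent.H46.ChevNpE6
import Cfsg.Agent.H46.ChevNpE8a
import Cfsg.Agent.H46.ChevNpE8b

/-!
# `n_p(1)` is a signed monomial matrix, for the seven tabulated data (helper46)

Main results (for `D` in the list of seven data, `i < D.rank`):
* `nMat_simple_eq`: the matrix of `n_{p_i}(1)` (columns `h_j ↦ h_j - A_{j,p} h_p`, `e_s ↦ η_s e_{w_p s}`),
  with the signs `npEta D i`;
* `npEta_all`: the sign rules; `reflectRoot_lt`.
-/

set_option autoImplicit false

namespace Cfsg.Agent.H46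

open Cfsg Cfsg.Lie Cfsg.Agent.H22

theorem npChk_all (D : ChevalleyDatum)
    (hD : D ∈ [chevG2, chevB2, chevD4, chevF4, chevE6, chevE7, chevE8]) (i : ℕ)
    (hi : i < D.rank) : npChk D i = true := by
  simp only [List.mem_cons, List.not_mem_nil, or_false] at hD
  rcases hD with rfl | rfl | rfl | rfl | rfl | rfl | rfl
  · exact (allBelow_iff _ _).mp npChk_G2 i hi
  · exact (allBelow_iff _ _).mp npChk_B2 i hi
  · exact (allBelow_iff _ _).mp npChk_D4 i hi
  · exact (allBelow_iff _ _).mp npChk_F4 i hi
  · exact (allBelow_iff _ _).mp npChk_E6 i hi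
  · exact (allBelow_iff _ _).mp npChk_E7 i hi
  · have hi' : i < 8 := hi
    interval_cases i
    exacts [npChk_E8_0, npChk_E8_1, npChk_E8_2, npChk_E8_3, npChk_E8_4, npChk_E8_5, npChk_E8_6,
      npChk_E8_7]

variable {F : Type*} [Field F]

/-- the sign rules of `η = npEta D i`, and `w_p(s)` is in range -/
theorem npEta_all (D : ChevalleyDatum)
    (hD : D ∈ [chevG2, chevB2, chevD4, chevF4, chevE6, chevE7, chevE8]) (i : ℕ)
    (hi : i < D.rank) :
    npEta D i (D.simple i) = -1 ∧ npEta D i (D.neg (D.simple i)) = -1 ∧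
      ∀ s < D.nroots, D.reflectRoot i s < D.nroots ∧
        npEta D i s * npEta D i (D.reflectRoot i s) = (-1) ^ (D.cartan i s).natAbs ∧
        npEta D i s * npEta D i (D.neg s) = 1 := by
  have hc := npChk_all D hD i hi
  simp only [npChk, Bool.and_eq_true] at hc
  exact npEta_props (tablesCheck_all D hD) i hi (simple_lt D hD i hi) hc.2

theorem reflectRoot_lt (D : ChevalleyDatum)
    (hD : D ∈ [chevG2, chevB2, chevD4, chevF4, chevE6, chevE7, chevE8]) (i : ℕ)
    (hi : i < D.rank) (s : ℕ) (hs : s < D.nroots) : D.reflectRoot i s < D.nroots :=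
  ((npEta_all D hD i hi).2.2 s hs).1

/-- `n_{p_i}(1)` is the signed monomial matrix `h_j ↦ h_j - A_{j,p} h_p`, `e_s ↦ η_s e_{w_p s}` -/
theorem nMat_simple_eq (D : ChevalleyDatum)
    (hD : D ∈ [chevG2, chevB2, chevD4, chevF4, chevE6, chevE7, chevE8]) (i : ℕ)
    (hi : i < D.rank) :
    D.nMat F (D.simple i) 1 = Matrix.of (fun (row col : D.Idx) =>
        Sum.elim
          (fun j' : Fin D.rank => Sum.elim
            (fun j : Fin D.rank => (if j' = j then (1 : F) else 0) -
              (if (j' : ℕ) = i then ((D.cartan j (D.simple i) : ℤ) : F) else 0))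
            (fun _ => (0 : F)) col)
          (fun s' : Fin D.nroots => Sum.elim
            (fun _ => (0 : F))
            (fun s : Fin D.nroots =>
              if (s' : ℕ) = D.reflectRoot i s then ((npEta D i s : ℤ) : F) else 0) col)
          row) := by
  have hc := npChk_all D hD i hi
  simp only [npChk, Bool.and_eq_true] at hc
  exact nMat_simple_of_chk (tablesCheck_all D hD) i hi (simple_lt D hD i hi) hc.1

end Cfsg.Agent.H46
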