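import Cfsg.Agent.H46.ChevNp

/-!
# `n_p(1)` signed monomial: kernel computations (helper46)
-/

set_option autoImplicit false
set_option maxRecDepth 1000000

namespace Cfsg.Agent.H46

open Cfsg Cfsg.Lie Cfsg.Agent.H22

theorem npChk_G2 : allBelow chevG2.rank (npChk chevG2) = true := by decide +kernel
theorem npChk_B2 : allBelow chevB2.rank (npChk chevB2) = true := by decide +kernel
theorem npChk_D4 : allBelow chevD4.rank (npChk chevD4) = true := by decide +kernel
theorem npChk_F4 : allBelow chevF4.rank (npChk chevF4) = true := by decide +kernel

end Cfsg.Agent.H46
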