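import Cfsg.Agent.H46.ChevNpAll
import Cfsg.Agent.H22.ChevHAll

/-!
# `n_p h_{p_j}(t) = h_{w_p(p_j)}(t) n_p` for fundamental roots (helper46)

Uses the signed monomial form of `n_p` (`nMat_simple_eq`), the diagonal form of all `h_r(t)`
(helper22's `hMat_eq_diagonal`) and a table check of `⟨w_p s, (w_p p_j)∨⟩ = A(j, s)`.
-/

set_option autoImplicit false
set_option maxRecDepth 1000000

namespace Cfsg.Agent.H46

open Cfsg Cfsg.Lie Cfsg.Agent.H22

/-- check of `⟨w_p s, (w_p p_j)∨⟩ = A(j, s)` for `p = p_i` -/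
def npPairChk (D : ChevalleyDatum) (i : ℕ) : Bool :=
  allBelow D.rank fun j => allBelow D.nroots fun s =>
    Nat.beq (Nat.add (pairP D (D.reflectRoot i (simpleN D j)) (D.reflectRoot i s)) 128)
      (Nat.add (pairN D (D.reflectRoot i (simpleN D j)) (D.reflectRoot i s)) (cartanN D j s))

theorem npPairChk_G2 : allBelow chevG2.rank (npPairChk chevG2) = true := by decide +kernel
theorem npPairChk_B2 : allBelow chevB2.rank (npPairChk chevB2) = true := by decide +kernel
theorem npPairChk_D4 : allBelow chevD4.rank (npPairChk chevD4) = true := by decide +kernel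
theorem npPairChk_F4 : allBelow chevF4.rank (npPairChk chevF4) = true := by decide +kernel
theorem npPairChk_E6 : allBelow chevE6.rank (npPairChk chevE6) = true := by decide +kernel
theorem npPairChk_E7 : allBelow chevE7.rank (npPairChk chevE7) = true := by decide +kernel
theorem npPairChk_E8 : allBelow chevE8.rank (npPairChk chevE8) = true := by decide +kernel

theorem npPairChk_all (D : ChevalleyDatum)
    (hD : D ∈ [chevG2, chevB2, chevD4, chevF4, chevE6, chevE7, chevE8]) (i : ℕ)
    (hi : i < D.rank) : npPairChk D i = true := by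
  simp only [List.mem_cons, List.not_mem_nil, or_false] at hD
  rcases hD with rfl | rfl | rfl | rfl | rfl | rfl | rfl
  · exact (allBelow_iff _ _).mp npPairChk_G2 i hi
  · exact (allBelow_iff _ _).mp npPairChk_B2 i hi
  · exact (allBelow_iff _ _).mp npPairChk_D4 i hi
  · exact (allBelow_iff _ _).mp npPairChk_F4 i hi
  · exact (allBelow_iff _ _).mp npPairChk_E6 i hi
  · exact (allBelow_iff _ _).mp npPairChk_E7 i hi
  · exact (allBelow_iff _ _).mp npPairChk_E8 i hi

/-- `⟨w_p s, (w_p p_j)∨⟩ = A(j, s)` for `p = p_i` -/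
theorem pairZ_reflect (D : ChevalleyDatum)
    (hD : D ∈ [chevG2, chevB2, chevD4, chevF4, chevE6, chevE7, chevE8]) (i j s : ℕ)
    (hi : i < D.rank) (hj : j < D.rank) (hs : s < D.nroots) :
    pairZ D (D.reflectRoot i (D.simple j)) (D.reflectRoot i s) = D.cartan j s := by
  have h1 := (allBelow_iff _ _).mp ((allBelow_iff _ _).mp (npPairChk_all D hD i hi) j hj) s hs
  rw [simpleN_eq] at h1
  have h2 : pairP D (D.reflectRoot i (D.simple j)) (D.reflectRoot i s) + 128 =
      pairN D (D.reflectRoot i (D.simple j)) (D.reflectRoot i s) + cartanN D j s :=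
    Nat.eq_of_beq_eq_true h1
  rw [← cartanF_eq (tablesCheck_all D hD) j s hj hs, cartanF_eq_N, pairZ]
  omega

variable {F : Type*} [Field F]

/-- `n_p h_{p_j}(t) = h_{w_p(p_j)}(t) n_p` -/
theorem nMat_mul_hMat_simple (D : ChevalleyDatum)
    (hD : D ∈ [chevG2, chevB2, chevD4, chevF4, chevE6, chevE7, chevE8]) (i j : ℕ)
    (hi : i < D.rank) (hj : j < D.rank) (t : F) (ht : t ≠ 0) :
    D.nMat F (D.simple i) 1 * D.hMat F (D.simple j) t =
      D.hMat F (D.reflectRoot i (D.simple j)) t * D.nMat F (D.simple i) 1 := by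
  have hpj := simple_lt D hD j hj
  have hr := reflectRoot_lt D hD i hi (D.simple j) hpj
  rw [nMat_simple_eq D hD i hi, hMat_eq_diagonal D hD _ hpj t ht, hMat_eq_diagonal D hD _ hr t ht]
  ext a b
  rw [Matrix.mul_diagonal, Matrix.diagonal_mul]
  rcases a with j' | s'
  · rcases b with jb | sb
    · simp
    · simp
  · rcases b with jb | sb
    · simp
    · simp only [Matrix.of_apply, Sum.elim_inr]
      by_cases h1 : (s' : ℕ) = D.reflectRoot i sb
      · rw [if_pos h1, h1, pairZ_reflect D hD i j sb hi hj sb.isLt,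
          pairZ_simple D hD j sb hj sb.isLt]
        ring
      · rw [if_neg h1]
        ring

end Cfsg.Agent.H46
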