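import Cfsg.Agent.H23.ChainF

set_option autoImplicit false

/-!
# The commutator regime: table conditions

For a simply laced root system in which every root is a sum of two roots and commuting pairs of roots can be
separated, the commutator relations of the root elements can be restored in any central extension without
using the torus.  This file contains the conditions on the chain table (as Boolean checkers on a chain function
`cf`, with witnesses read off packed tables) and their propositional content.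
-/

namespace Cfsg.Agent.H46

open Cfsg.Lie Cfsg.Agent.H23

/-- The head of a chain. -/
def chHd (cf : ℕ → ℕ → List (ℕ × ℤ)) (r s : ℕ) : ℕ × ℤ := (cf r s).headD (0, 0)

/-- `β + γ = q` with sign `e`: the commutator of the root elements of `β` and `γ` is the root element of `q`
with parameter `e * t * u`. -/
def AdjZ (n : ℕ) (cf : ℕ → ℕ → List (ℕ × ℤ)) (β γ q : ℕ) (e : ℤ) : Prop :=
  γ ≠ β ∧ γ ≠ n - 1 - β ∧ cf γ β = [(q, -e)] ∧ (e = 1 ∨ e = -1)

/-- The root elements of `a` and `b` commute. -/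
def NonAdjP (n : ℕ) (cf : ℕ → ℕ → List (ℕ × ℤ)) (a b : ℕ) : Prop :=
  b ≠ a ∧ b ≠ n - 1 - a ∧ cf a b = []

/-- Boolean form of `AdjZ`. -/
def adjB (n : ℕ) (cf : ℕ → ℕ → List (ℕ × ℤ)) (β γ q : ℕ) (e : ℤ) : Bool :=
  !(Nat.beq γ β) && (!(Nat.beq γ (n - 1 - β)) &&
    (chBeq (cf γ β) [(q, -e)] && (decide (e = 1) || decide (e = -1))))

/-- Boolean form of `NonAdjP`. -/
def nonB (n : ℕ) (cf : ℕ → ℕ → List (ℕ × ℤ)) (a b : ℕ) : Bool :=
  !(Nat.beq b a) && (!(Nat.beq b (n - 1 - a)) && chBeq (cf a b) [])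

/-- The packed table of witnesses for commuting pairs: 8 bits for each pair. -/
def w1F (n W a b : ℕ) : ℕ := Nat.land (Nat.shiftRight W (Nat.mul 8 (Nat.add (Nat.mul n a) b))) 255

/-- The packed table of decompositions: 32 bits for each root (`β`, `γ`, sign bit, partner). -/
def decF (DEC q : ℕ) : ℕ × ℕ × ℤ × ℕ :=
  (Nat.land (Nat.shiftRight DEC (Nat.mul 32 q)) 255,
   Nat.land (Nat.shiftRight DEC (Nat.add (Nat.mul 32 q) 8)) 255,
   bif Nat.beq (Nat.land (Nat.shiftRight DEC (Nat.add (Nat.mul 32 q) 16)) 255) 1 then 1 else -1,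
   Nat.land (Nat.shiftRight DEC (Nat.add (Nat.mul 32 q) 24)) 255)

/-- Check of the shape of the chain of a pair of roots, and that a sum commutes with its summands. -/
def chkT0 (n : ℕ) (cf : ℕ → ℕ → List (ℕ × ℤ)) (r s : ℕ) : Bool :=
  Nat.beq s r || (Nat.beq s (n - 1 - r) ||
    (match cf r s with
     | [] => true
     | [c] => decide (c.1 < n) && ((decide (c.2 = 1) || decide (c.2 = -1)) &&
        (nonB n cf c.1 r && nonB n cf c.1 s))
     | _ => false))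

/-- Check of a witness for a commuting pair. -/
def chkC1b (n : ℕ) (cf : ℕ → ℕ → List (ℕ × ℤ)) (a b β γ : ℕ) : Bool :=
  decide (β < n) && (decide (γ < n) && (adjB n cf β γ b (-(chHd cf γ β).2) &&
    (nonB n cf a β && nonB n cf a γ)))

/-- Commuting pairs: the second root is a sum of two roots commuting with the first. -/
def chkC1 (n : ℕ) (cf : ℕ → ℕ → List (ℕ × ℤ)) (W a b : ℕ) : Bool :=
  !(nonB n cf a b) || chkC1b n cf a b (w1F n W a b) (chHd cf (n - 1 - w1F n W a b) b).1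

/-- The chosen decomposition of a root. -/
def chkC2 (n : ℕ) (cf : ℕ → ℕ → List (ℕ × ℤ)) (DEC q : ℕ) : Bool :=
  decide ((decF DEC q).1 < n) && (decide ((decF DEC q).2.1 < n) &&
    adjB n cf (decF DEC q).1 (decF DEC q).2.1 q (decF DEC q).2.2.1)

/-- The configuration `β' + δ = β`, `δ + γ = γ'`. -/
def chkTri (n : ℕ) (cf : ℕ → ℕ → List (ℕ × ℤ)) (β γ : ℕ) (e : ℤ) (β' γ' : ℕ) (e' : ℤ) (δ : ℕ) : Bool :=
  decide (δ < n) && (adjB n cf β' δ β (-(chHd cf δ β').2) && (adjB n cf δ γ γ' (-(chHd cf γ δ).2) &&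
    (nonB n cf γ β' && (nonB n cf β γ' &&
      decide ((-(chHd cf δ β').2) * e = (-(chHd cf γ δ).2) * e')))))

/-- The four cases for a decomposition of a root compared with the chosen one. -/
def chkC4b (n : ℕ) (cf : ℕ → ℕ → List (ℕ × ℤ)) (β γ : ℕ) (e : ℤ) (β' γ' : ℕ) (e' : ℤ) : Bool :=
  (Nat.beq β' β && (Nat.beq γ' γ && decide (e' = e))) ||
  ((Nat.beq β' γ && (Nat.beq γ' β && decide (e' = -e))) ||
  (chkTri n cf β γ e β' γ' e' (chHd cf (n - 1 - β') β).1 ||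
   chkTri n cf β γ e γ' β' (-e') (chHd cf (n - 1 - γ') β).1))

/-- Every decomposition of a root is linked to the chosen one. -/
def chkC4 (n : ℕ) (cf : ℕ → ℕ → List (ℕ × ℤ)) (DEC β' γ' : ℕ) : Bool :=
  Nat.beq γ' β' || (Nat.beq γ' (n - 1 - β') ||
    (match cf γ' β' with
     | [c] => chkC4b n cf (decF DEC c.1).1 (decF DEC c.1).2.1 (decF DEC c.1).2.2.1 β' γ' (-c.2)
     | _ => true))

/-- The partner of the chosen decomposition. -/
def chkC5b (n : ℕ) (cf : ℕ → ℕ → List (ℕ × ℤ)) (β γ : ℕ) (e : ℤ) (q β' γ' : ℕ) : Bool :=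
  decide (β' < n) && (decide (γ' < n) && (adjB n cf β' γ' q (-(chHd cf γ' β').2) &&
    chkTri n cf β γ e β' γ' (-(chHd cf γ' β').2) (chHd cf (n - 1 - β') β).1))

/-- The chosen decomposition of a root has a partner. -/
def chkC5 (n : ℕ) (cf : ℕ → ℕ → List (ℕ × ℤ)) (DEC q : ℕ) : Bool :=
  chkC5b n cf (decF DEC q).1 (decF DEC q).2.1 (decF DEC q).2.2.1 q (decF DEC q).2.2.2
    (chHd cf (n - 1 - (decF DEC q).2.2.2) q).1

/-! ### Soundness -/

section Sound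

variable {n : ℕ} {cf : ℕ → ℕ → List (ℕ × ℤ)}

theorem adjB_sound {β γ q : ℕ} {e : ℤ} (h : adjB n cf β γ q e = true) : AdjZ n cf β γ q e := by
  unfold adjB at h
  simp only [Bool.and_eq_true, Bool.not_eq_true', Bool.or_eq_true, decide_eq_true_eq] at h
  obtain ⟨h1, h2, h3, h4⟩ := h
  refine ⟨fun e1 => ?_, fun e2 => ?_, chBeq_eq _ _ h3, h4⟩
  · rw [e1, Nat.beq_refl] at h1; exact Bool.noConfusion h1
  · rw [e2, Nat.beq_refl] at h2; exact Bool.noConfusion h2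

theorem nonB_sound {a b : ℕ} (h : nonB n cf a b = true) : NonAdjP n cf a b := by
  unfold nonB at h
  simp only [Bool.and_eq_true, Bool.not_eq_true'] at h
  obtain ⟨h1, h2, h3⟩ := h
  refine ⟨fun e1 => ?_, fun e2 => ?_, chBeq_eq _ _ h3⟩
  · rw [e1, Nat.beq_refl] at h1; exact Bool.noConfusion h1
  · rw [e2, Nat.beq_refl] at h2; exact Bool.noConfusion h2

theorem nonB_complete {a b : ℕ} (h : NonAdjP n cf a b) : nonB n cf a b = true := by
  obtain ⟨h1, h2, h3⟩ := h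
  unfold nonB
  have e1 : Nat.beq b a = false := by
    cases hb : Nat.beq b a
    · rfl
    · exact absurd (Nat.eq_of_beq_eq_true hb) h1
  have e2 : Nat.beq b (n - 1 - a) = false := by
    cases hb : Nat.beq b (n - 1 - a)
    · rfl
    · exact absurd (Nat.eq_of_beq_eq_true hb) h2
  rw [e1, e2, h3]
  rfl

theorem chkT0_sound {r s : ℕ} (h : chkT0 n cf r s = true) (h1 : s ≠ r) (h2 : s ≠ n - 1 - r) :
    cf r s = [] ∨ ∃ q m, cf r s = [(q, m)] ∧ q < n ∧ (m = 1 ∨ m = -1) ∧ NonAdjP n cf q r ∧ NonAdjP n cf q s := by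
  unfold chkT0 at h
  rw [Bool.or_eq_true, Bool.or_eq_true] at h
  rcases h with h | h | h
  · exact absurd (Nat.eq_of_beq_eq_true h) h1
  · exact absurd (Nat.eq_of_beq_eq_true h) h2
  · cases hc : cf r s with
    | nil => exact Or.inl rfl
    | cons c l =>
      cases l with
      | nil =>
        rw [hc] at h
        simp only [Bool.and_eq_true, Bool.or_eq_true, decide_eq_true_eq] at h
        obtain ⟨h3, h4, h5, h6⟩ := h
        exact Or.inr ⟨c.1, c.2, rfl, h3, h4, nonB_sound h5, nonB_sound h6⟩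
      | cons c' l' =>
        rw [hc] at h
        exact Bool.noConfusion h

theorem chkC1_sound {W a b : ℕ} (h : chkC1 n cf W a b = true) (hab : NonAdjP n cf a b) :
    ∃ β γ e, β < n ∧ γ < n ∧ AdjZ n cf β γ b e ∧ NonAdjP n cf a β ∧ NonAdjP n cf a γ := by
  unfold chkC1 at h
  rw [nonB_complete hab] at h
  simp only [Bool.not_true, Bool.false_or] at h
  unfold chkC1b at h
  simp only [Bool.and_eq_true, decide_eq_true_eq] at h
  obtain ⟨h1, h2, h3, h4, h5⟩ := h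
  exact ⟨_, _, _, h1, h2, adjB_sound h3, nonB_sound h4, nonB_sound h5⟩

theorem chkC2_sound {DEC q : ℕ} (h : chkC2 n cf DEC q = true) :
    (decF DEC q).1 < n ∧ (decF DEC q).2.1 < n ∧ AdjZ n cf (decF DEC q).1 (decF DEC q).2.1 q (decF DEC q).2.2.1 := by
  unfold chkC2 at h
  simp only [Bool.and_eq_true, decide_eq_true_eq] at h
  exact ⟨h.1, h.2.1, adjB_sound h.2.2⟩

theorem chkTri_sound {β γ : ℕ} {e : ℤ} {β' γ' : ℕ} {e' : ℤ} {δ : ℕ}
    (h : chkTri n cf β γ e β' γ' e' δ = true) :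
    ∃ e₁ e₂, δ < n ∧ AdjZ n cf β' δ β e₁ ∧ AdjZ n cf δ γ γ' e₂ ∧ NonAdjP n cf γ β' ∧ NonAdjP n cf β γ' ∧
      e₁ * e = e₂ * e' := by
  unfold chkTri at h
  simp only [Bool.and_eq_true, decide_eq_true_eq] at h
  obtain ⟨h1, h2, h3, h4, h5, h6⟩ := h
  exact ⟨_, _, h1, adjB_sound h2, adjB_sound h3, nonB_sound h4, nonB_sound h5, h6⟩

/-- The propositional form of the four cases. -/
def C4P (n : ℕ) (cf : ℕ → ℕ → List (ℕ × ℤ)) (β γ : ℕ) (e : ℤ) (β' γ' : ℕ) (e' : ℤ) : Prop :=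
  (β' = β ∧ γ' = γ ∧ e' = e) ∨ (β' = γ ∧ γ' = β ∧ e' = -e) ∨
  (∃ δ e₁ e₂, δ < n ∧ AdjZ n cf β' δ β e₁ ∧ AdjZ n cf δ γ γ' e₂ ∧ NonAdjP n cf γ β' ∧ NonAdjP n cf β γ' ∧
    e₁ * e = e₂ * e') ∨
  (∃ δ e₁ e₂, δ < n ∧ AdjZ n cf γ' δ β e₁ ∧ AdjZ n cf δ γ β' e₂ ∧ NonAdjP n cf γ γ' ∧ NonAdjP n cf β β' ∧
    e₁ * e = -(e₂ * e'))

theorem chkC4b_sound {β γ : ℕ} {e : ℤ} {β' γ' : ℕ} {e' : ℤ} (h : chkC4b n cf β γ e β' γ' e' = true) :
    C4P n cf β γ e β' γ' e' := by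
  unfold chkC4b at h
  simp only [Bool.or_eq_true, Bool.and_eq_true, decide_eq_true_eq] at h
  rcases h with ⟨h1, h2, h3⟩ | ⟨h1, h2, h3⟩ | h | h
  · exact Or.inl ⟨Nat.eq_of_beq_eq_true h1, Nat.eq_of_beq_eq_true h2, h3⟩
  · exact Or.inr (Or.inl ⟨Nat.eq_of_beq_eq_true h1, Nat.eq_of_beq_eq_true h2, h3⟩)
  · obtain ⟨e₁, e₂, h1, h2, h3, h4, h5, h6⟩ := chkTri_sound h
    exact Or.inr (Or.inr (Or.inl ⟨_, e₁, e₂, h1, h2, h3, h4, h5, h6⟩))
  · obtain ⟨e₁, e₂, h1, h2, h3, h4, h5, h6⟩ := chkTri_sound h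
    refine Or.inr (Or.inr (Or.inr ⟨_, e₁, e₂, h1, h2, h3, h4, h5, ?_⟩))
    rw [h6, mul_neg]

theorem chkC4_sound {DEC β' γ' q : ℕ} {e' : ℤ} (h : chkC4 n cf DEC β' γ' = true)
    (hadj : AdjZ n cf β' γ' q e') :
    C4P n cf (decF DEC q).1 (decF DEC q).2.1 (decF DEC q).2.2.1 β' γ' e' := by
  obtain ⟨h1, h2, h3, -⟩ := hadj
  unfold chkC4 at h
  rw [Bool.or_eq_true, Bool.or_eq_true] at h
  rcases h with h | h | h
  · exact absurd (Nat.eq_of_beq_eq_true h) h1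
  · exact absurd (Nat.eq_of_beq_eq_true h) h2
  · rw [h3] at h
    have h4 := chkC4b_sound h
    rw [neg_neg] at h4
    exact h4

theorem chkC5_sound {DEC q : ℕ} (h : chkC5 n cf DEC q = true) :
    ∃ β' γ' e' δ e₁ e₂, β' < n ∧ γ' < n ∧ δ < n ∧ AdjZ n cf β' γ' q e' ∧
      AdjZ n cf β' δ (decF DEC q).1 e₁ ∧ AdjZ n cf δ (decF DEC q).2.1 γ' e₂ ∧
      NonAdjP n cf (decF DEC q).2.1 β' ∧ NonAdjP n cf (decF DEC q).1 γ' ∧
      e₁ * (decF DEC q).2.2.1 = e₂ * e' := by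
  unfold chkC5 chkC5b at h
  simp only [Bool.and_eq_true, decide_eq_true_eq] at h
  obtain ⟨h1, h2, h3, h4⟩ := h
  obtain ⟨e₁, e₂, h5, h6, h7, h8, h9, h10⟩ := chkTri_sound h4
  exact ⟨_, _, _, _, e₁, e₂, h1, h2, h5, adjB_sound h3, h6, h7, h8, h9, h10⟩

end Sound

/-- The table conditions of the commutator regime. -/
structure CommTab (n : ℕ) (cf : ℕ → ℕ → List (ℕ × ℤ)) (dec : ℕ → ℕ × ℕ × ℤ × ℕ) : Prop where
  t0 : ∀ r < n, ∀ s < n, s ≠ r → s ≠ n - 1 - r →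
    cf r s = [] ∨ ∃ q m, cf r s = [(q, m)] ∧ q < n ∧ (m = 1 ∨ m = -1) ∧ NonAdjP n cf q r ∧ NonAdjP n cf q s
  c1 : ∀ a < n, ∀ b < n, NonAdjP n cf a b →
    ∃ β γ e, β < n ∧ γ < n ∧ AdjZ n cf β γ b e ∧ NonAdjP n cf a β ∧ NonAdjP n cf a γ
  c2 : ∀ q < n, (dec q).1 < n ∧ (dec q).2.1 < n ∧ AdjZ n cf (dec q).1 (dec q).2.1 q (dec q).2.2.1
  c4 : ∀ β' < n, ∀ γ' < n, ∀ q e', AdjZ n cf β' γ' q e' →
    C4P n cf (dec q).1 (dec q).2.1 (dec q).2.2.1 β' γ' e'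
  c5 : ∀ q < n, ∃ β' γ' e' δ e₁ e₂, β' < n ∧ γ' < n ∧ δ < n ∧ AdjZ n cf β' γ' q e' ∧
      AdjZ n cf β' δ (dec q).1 e₁ ∧ AdjZ n cf δ (dec q).2.1 γ' e₂ ∧
      NonAdjP n cf (dec q).2.1 β' ∧ NonAdjP n cf (dec q).1 γ' ∧ e₁ * (dec q).2.2.1 = e₂ * e'

/-- The table conditions from the Boolean checks. -/
theorem commTab_of_chk (n : ℕ) (cf : ℕ → ℕ → List (ℕ × ℤ)) (W DEC : ℕ)
    (h0 : ∀ r < n, allFrom (chkT0 n cf r) 0 n = true)
    (h1 : ∀ a < n, allFrom (chkC1 n cf W a) 0 n = true)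
    (h2 : allFrom (chkC2 n cf DEC) 0 n = true)
    (h4 : ∀ β' < n, allFrom (chkC4 n cf DEC β') 0 n = true)
    (h5 : allFrom (chkC5 n cf DEC) 0 n = true) : CommTab n cf (decF DEC) where
  t0 := fun r hr s hs hne hne' =>
    chkT0_sound (allFrom_sound _ 0 n (h0 r hr) s (Nat.zero_le _) (by omega)) hne hne'
  c1 := fun a ha b hb hab =>
    chkC1_sound (allFrom_sound _ 0 n (h1 a ha) b (Nat.zero_le _) (by omega)) hab
  c2 := fun q hq => chkC2_sound (allFrom_sound _ 0 n h2 q (Nat.zero_le _) (by omega))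
  c4 := fun β' hβ' γ' hγ' q e' hadj =>
    chkC4_sound (allFrom_sound _ 0 n (h4 β' hβ') γ' (Nat.zero_le _) (by omega)) hadj
  c5 := fun q hq => chkC5_sound (allFrom_sound _ 0 n h5 q (Nat.zero_le _) (by omega))

end Cfsg.Agent.H46
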