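import Cfsg.Agent.H46.CommReg

set_option autoImplicit false

/-!
# The commutator regime with orthogonal pairs: table conditions

In type D4 the condition `c1` of the commutator regime fails for the pairs of orthogonal roots.  For those pairs
the exact commutation of the lifted root elements is obtained otherwise (a torus element, or the Hall–Witt
argument in odd characteristic, for which the certificate `cO` is checked here).
-/

namespace Cfsg.Agent.H46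

open Cfsg.Lie Cfsg.Agent.H23

/-- The roots `a`, `b` are orthogonal: `b` commutes with `a` and with `-a`. -/
def OrthP (n : ℕ) (cf : ℕ → ℕ → List (ℕ × ℤ)) (a b : ℕ) : Prop :=
  NonAdjP n cf a b ∧ NonAdjP n cf (n - 1 - a) b

/-- Boolean form of `OrthP`. -/
def orthB (n : ℕ) (cf : ℕ → ℕ → List (ℕ × ℤ)) (a b : ℕ) : Bool :=
  nonB n cf a b && nonB n cf (n - 1 - a) b

/-- Commuting pairs: orthogonal, or the second root is a sum of two roots commuting with the first. -/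
def chkC1o (n : ℕ) (cf : ℕ → ℕ → List (ℕ × ℤ)) (W a b : ℕ) : Bool :=
  orthB n cf a b || chkC1 n cf W a b

/-- The certificate of an orthogonal pair `(a, b)` from the root `β`: `b = β + γ = β' + δ`, `δ = a + β`,
`γ = a + β'`. -/
def chkOb (n : ℕ) (cf : ℕ → ℕ → List (ℕ × ℤ)) (a b β γ δ β' : ℕ) : Bool :=
  decide (β < n) && (decide (γ < n) && (decide (δ < n) && (decide (β' < n) &&
  (adjB n cf β γ b (-(chHd cf γ β).2) && (adjB n cf a β δ (-(chHd cf β a).2) &&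
  (adjB n cf β' δ b (-(chHd cf δ β').2) && (adjB n cf a β' γ (-(chHd cf β' a).2) &&
  (decide ((-(chHd cf γ β).2) * (-(chHd cf β a).2) = (-(chHd cf δ β').2) * (-(chHd cf β' a).2)) &&
  ((nonB n cf a γ && !(orthB n cf a γ)) && ((nonB n cf a δ && !(orthB n cf a δ)) &&
  ((nonB n cf δ b && !(orthB n cf δ b)) && ((nonB n cf γ b && !(orthB n cf γ b)) &&
  nonB n cf δ γ))))))))))))

/-- Orthogonal pairs have a certificate. -/
def chkO (n : ℕ) (cf : ℕ → ℕ → List (ℕ × ℤ)) (WO a b : ℕ) : Bool :=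
  !(orthB n cf a b) ||
    chkOb n cf a b (w1F n WO a b) (chHd cf (n - 1 - w1F n WO a b) b).1 (chHd cf (w1F n WO a b) a).1
      (chHd cf (n - 1 - (chHd cf (w1F n WO a b) a).1) b).1

section Sound

variable {n : ℕ} {cf : ℕ → ℕ → List (ℕ × ℤ)}

theorem orthB_sound {a b : ℕ} (h : orthB n cf a b = true) : OrthP n cf a b := by
  unfold orthB at h
  rw [Bool.and_eq_true] at h
  exact ⟨nonB_sound h.1, nonB_sound h.2⟩

theorem orthB_complete {a b : ℕ} (h : OrthP n cf a b) : orthB n cf a b = true := by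
  unfold orthB
  rw [nonB_complete h.1, nonB_complete h.2]
  rfl

theorem not_orthP_of {a b : ℕ} (h : (!(orthB n cf a b)) = true) : ¬ OrthP n cf a b := by
  intro ho
  rw [orthB_complete ho] at h
  exact Bool.noConfusion h

theorem chkC1o_sound {W a b : ℕ} (h : chkC1o n cf W a b = true) (hab : NonAdjP n cf a b) :
    OrthP n cf a b ∨
      ∃ β γ e, β < n ∧ γ < n ∧ AdjZ n cf β γ b e ∧ NonAdjP n cf a β ∧ NonAdjP n cf a γ := by
  unfold chkC1o at h
  rw [Bool.or_eq_true] at h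
  rcases h with h | h
  · exact Or.inl (orthB_sound h)
  · exact Or.inr (chkC1_sound h hab)

/-- The propositional form of the certificate of an orthogonal pair. -/
def COP (n : ℕ) (cf : ℕ → ℕ → List (ℕ × ℤ)) (a b : ℕ) : Prop :=
  ∃ β γ δ β' e e₁ e' e₁', β < n ∧ γ < n ∧ δ < n ∧ β' < n ∧
    AdjZ n cf β γ b e ∧ AdjZ n cf a β δ e₁ ∧ AdjZ n cf β' δ b e' ∧ AdjZ n cf a β' γ e₁' ∧ e * e₁ = e' * e₁' ∧
    (NonAdjP n cf a γ ∧ ¬ OrthP n cf a γ) ∧ (NonAdjP n cf a δ ∧ ¬ OrthP n cf a δ) ∧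
    (NonAdjP n cf δ b ∧ ¬ OrthP n cf δ b) ∧ (NonAdjP n cf γ b ∧ ¬ OrthP n cf γ b) ∧ NonAdjP n cf δ γ

theorem chkOb_sound {a b β γ δ β' : ℕ} (h : chkOb n cf a b β γ δ β' = true) : COP n cf a b := by
  unfold chkOb at h
  simp only [Bool.and_eq_true, decide_eq_true_eq] at h
  obtain ⟨h1, h2, h3, h4, h5, h6, h7, h8, h9, ⟨h10, h10'⟩, ⟨h11, h11'⟩, ⟨h12, h12'⟩, ⟨h13, h13'⟩, h14⟩ := h
  exact ⟨β, γ, δ, β', _, _, _, _, h1, h2, h3, h4, adjB_sound h5, adjB_sound h6, adjB_sound h7, adjB_sound h8, h9,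
    ⟨nonB_sound h10, not_orthP_of h10'⟩, ⟨nonB_sound h11, not_orthP_of h11'⟩,
    ⟨nonB_sound h12, not_orthP_of h12'⟩, ⟨nonB_sound h13, not_orthP_of h13'⟩, nonB_sound h14⟩

theorem chkO_sound {WO a b : ℕ} (h : chkO n cf WO a b = true) (hab : OrthP n cf a b) : COP n cf a b := by
  unfold chkO at h
  rw [orthB_complete hab] at h
  simp only [Bool.not_true, Bool.false_or] at h
  exact chkOb_sound h

end Sound

/-- The table conditions of the commutator regime with orthogonal pairs. -/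
structure CommTab2 (n : ℕ) (cf : ℕ → ℕ → List (ℕ × ℤ)) (dec : ℕ → ℕ × ℕ × ℤ × ℕ) : Prop where
  t0 : ∀ r < n, ∀ s < n, s ≠ r → s ≠ n - 1 - r →
    cf r s = [] ∨ ∃ q m, cf r s = [(q, m)] ∧ q < n ∧ (m = 1 ∨ m = -1) ∧ NonAdjP n cf q r ∧ NonAdjP n cf q s
  c1 : ∀ a < n, ∀ b < n, NonAdjP n cf a b → OrthP n cf a b ∨
    ∃ β γ e, β < n ∧ γ < n ∧ AdjZ n cf β γ b e ∧ NonAdjP n cf a β ∧ NonAdjP n cf a γ
  c2 : ∀ q < n, (dec q).1 < n ∧ (dec q).2.1 < n ∧ AdjZ n cf (dec q).1 (dec q).2.1 q (dec q).2.2.1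
  c4 : ∀ β' < n, ∀ γ' < n, ∀ q e', AdjZ n cf β' γ' q e' →
    C4P n cf (dec q).1 (dec q).2.1 (dec q).2.2.1 β' γ' e'
  c5 : ∀ q < n, ∃ β' γ' e' δ e₁ e₂, β' < n ∧ γ' < n ∧ δ < n ∧ AdjZ n cf β' γ' q e' ∧
      AdjZ n cf β' δ (dec q).1 e₁ ∧ AdjZ n cf δ (dec q).2.1 γ' e₂ ∧
      NonAdjP n cf (dec q).2.1 β' ∧ NonAdjP n cf (dec q).1 γ' ∧ e₁ * (dec q).2.2.1 = e₂ * e'
  cO : ∀ a < n, ∀ b < n, OrthP n cf a b → COP n cf a b

/-- The table conditions from the Boolean checks. -/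
theorem commTab2_of_chk (n : ℕ) (cf : ℕ → ℕ → List (ℕ × ℤ)) (W WO DEC : ℕ)
    (h0 : ∀ r < n, allFrom (chkT0 n cf r) 0 n = true)
    (h1 : ∀ a < n, allFrom (chkC1o n cf W a) 0 n = true)
    (h2 : allFrom (chkC2 n cf DEC) 0 n = true)
    (h4 : ∀ β' < n, allFrom (chkC4 n cf DEC β') 0 n = true)
    (h5 : allFrom (chkC5 n cf DEC) 0 n = true)
    (hO : ∀ a < n, allFrom (chkO n cf WO a) 0 n = true) : CommTab2 n cf (decF DEC) where
  t0 := fun r hr s hs hne hne' =>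
    chkT0_sound (allFrom_sound _ 0 n (h0 r hr) s (Nat.zero_le _) (by omega)) hne hne'
  c1 := fun a ha b hb hab =>
    chkC1o_sound (allFrom_sound _ 0 n (h1 a ha) b (Nat.zero_le _) (by omega)) hab
  c2 := fun q hq => chkC2_sound (allFrom_sound _ 0 n h2 q (Nat.zero_le _) (by omega))
  c4 := fun β' hβ' γ' hγ' q e' hadj =>
    chkC4_sound (allFrom_sound _ 0 n (h4 β' hβ') γ' (Nat.zero_le _) (by omega)) hadj
  c5 := fun q hq => chkC5_sound (allFrom_sound _ 0 n h5 q (Nat.zero_le _) (by omega))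
  cO := fun a ha b hb hab =>
    chkO_sound (allFrom_sound _ 0 n (hO a ha) b (Nat.zero_le _) (by omega)) hab

end Cfsg.Agent.H46
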