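import Cfsg.Agent.H46.UnivMain

set_option autoImplicit false
set_option linter.unusedSectionVars false

/-!
# Central extensions of the group presented by (R1), (R2) split: the relations and the section
-/

namespace Cfsg.Agent.H46

open Cfsg.Lie Cfsg.Agent.H23 Cfsg.Agent.H46.Univ

variable {D : ChevalleyDatum} {K : Type*} [Field K] {z η : ℕ → ℕ → ℤ}

section Rel

variable {E : Type*} [Group E] {w w0 : List ℕ} (hpk : PackSt D K z η w w0) (ρ : E →* GL D.Idx K)
  (hρc : ρ.ker ≤ Subgroup.center E) (hTl : ∀ g ∈ TD D K, ∃ e : E, ρ e = g)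
  (Y : ℕ → K → E) (hmap : ∀ q < D.nroots, ∀ t, ρ (Y q t) = xU hpk.hP.sem q t)
  (htor : ∀ q < D.nroots, ∀ (h : E) (χ : K), ρ h ∈ TD D K →
    (∀ t, ρ h * xU hpk.hP.sem q t * (ρ h)⁻¹ = xU hpk.hP.sem q (χ * t)) → ∀ t, h * Y q t * h⁻¹ = Y q (χ * t))
  (hadd : ∀ q < D.nroots, ∀ t u : K, Y q (t + u) = Y q t * Y q u)

include hmap in
theorem map_wordB (w' : List (ℕ × K)) (hw' : ∀ p ∈ w', p.1 < D.nroots) :
    ρ (wordB Y w') = wordU hpk.hP.sem w' := by
  induction w' with
  | nil => rw [wordB_nil, map_one, wordU_nil]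
  | cons p w' ih =>
    rw [wordB_cons, map_mul, hmap p.1 (hw' p (List.mem_cons_self ..)), ih (fun q hq => hw' q (List.mem_cons_of_mem _ hq)),
      wordU_cons]

include hρc hTl hmap htor hadd in
/-- The lifted root elements satisfy (R1) and (R2). -/
theorem lifts_rel
    (hG : ∀ r < D.nroots, ∀ s < D.nroots, s ≠ r → s ≠ D.neg r → GoodPair hpk.hP.sem r s)
    (hPos : ∀ r < D.nroots, ∀ s < D.nroots, s ≠ r → s ≠ D.neg r → PosP D r s)
    (hsep : ∀ e < D.nroots, ∀ e' < D.nroots, D.IsPosRoot e → D.IsPosRoot e' → e' ≠ e →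
      ∃ h ∈ TD D K, ∃ c : K, c - 1 ≠ 0 ∧ (∀ t : K, h * xU hpk.hP.sem e t * h⁻¹ = xU hpk.hP.sem e t) ∧
        (∀ u : K, h * xU hpk.hP.sem e' u * h⁻¹ = xU hpk.hP.sem e' (c * u))) :
    StRel D Y where
  add := fun r hr t u => (hadd r hr t u).symm
  comm := by
    intro r hr s hs hne hne' t u
    have hP := hpk.hP
    have hS := hP.sem
    have hT := hP.tab
    obtain ⟨v, hv, hrp, hsp, hterms⟩ := hPos r hr s hs hne hne'
    have hvr : ∀ i ∈ v.reverse, i < D.rank := fun i hi => hv i (List.mem_reverse.mp hi)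
    have hpos0 := convList_pos hT w hpk.tab.conv
    have hgood0 : GoodL (xU hS) (TD D K) (convList D w) :=
      goodL_of_chain hP hG hsep _ hpk.tab.chP (SepG_convList hP hpk.hV w hpk.tab.conv) hpos0
    have hgood : GoodL (xU hS) (TD D K) ((convList D w).map (reflW D v.reverse)) :=
      goodL_reflW hP v.reverse hvr _ (fun q hq => (hpos0 q hq).1) hgood0
    have hLlt : ∀ q ∈ (convList D w).map (reflW D v.reverse), q < D.nroots := by
      intro q hq
      obtain ⟨q0, hq0, rfl⟩ := List.mem_map.mp hq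
      exact reflW_lt hT _ hvr q0 (hpos0 q0 hq0).1
    have hmemL : ∀ q < D.nroots, D.IsPosRoot (reflW D v q) → q ∈ (convList D w).map (reflW D v.reverse) := by
      intro q hq hp
      exact List.mem_map.mpr ⟨reflW D v q, hpk.tab.cov _ hp.1 hp, reflW_reverse_cancel hT v hv q hq⟩
    have inj := UnivAbs.inj_of_goodL ρ hρc (xU hS) Y (TD D K) ((convList D w).map (reflW D v.reverse)) hTl
      (fun g hg q hq => TD_act hP g hg q (hLlt q hq)) (fun q hq => hmap q (hLlt q hq))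
      (fun q hq => hadd q (hLlt q hq)) (fun q hq => htor q (hLlt q hq)) hgood
    have hrL := hmemL r hr hrp
    have hsL := hmemL s hs hsp
    have hY : ∀ q ∈ (convList D w).map (reflW D v.reverse), ∀ a : K,
        Y q a ∈ GX Y ((convList D w).map (reflW D v.reverse)) :=
      fun q hq a => Subgroup.subset_closure ⟨q, a, hq, rfl⟩
    have hPm : wordB Y (D.commWord K r s t u) ∈ GX Y ((convList D w).map (reflW D v.reverse)) :=
      commWord_mem_XP Y (fun q => q ∈ (convList D w).map (reflW D v.reverse)) r s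
        (fun c hc => hmemL c.1 (hterms c hc).1 (hterms c hc).2) t u
    have hmem : (Y s u)⁻¹ * (Y r t)⁻¹ * Y s u * Y r t * (wordB Y (D.commWord K r s t u))⁻¹ ∈
        GX Y ((convList D w).map (reflW D v.reverse)) :=
      Subgroup.mul_mem _ (Subgroup.mul_mem _ (Subgroup.mul_mem _ (Subgroup.mul_mem _
        (Subgroup.inv_mem _ (hY s hsL u)) (Subgroup.inv_mem _ (hY r hrL t))) (hY s hsL u)) (hY r hrL t))
        (Subgroup.inv_mem _ hPm)
    have hw' : ∀ p ∈ D.commWord K r s t u, p.1 < D.nroots := by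
      intro p hp
      unfold ChevalleyDatum.commWord at hp
      obtain ⟨c, hc, rfl⟩ := List.mem_map.mp hp
      exact (hterms c hc).1
    have h1 : ρ ((Y s u)⁻¹ * (Y r t)⁻¹ * Y s u * Y r t * (wordB Y (D.commWord K r s t u))⁻¹) = 1 := by
      rw [map_mul, map_inv, map_wordB hpk ρ Y hmap _ hw', map_mul, map_mul, map_mul, map_inv, map_inv,
        hmap s hs, hmap r hr]
      have hg := hG r hr s hs hne hne' t u
      rw [mul_inv_eq_one, mul_assoc, mul_assoc, inv_mul_eq_iff_eq_mul, ← mul_assoc]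
      exact hg
    exact mul_inv_eq_one.mp (inj _ hmem h1)

end Rel

/-! ### The homomorphism from the presented group -/

section Hom

variable {E : Type*} [Group E] (Y : ℕ → K → E) (hY1 : ∀ q, D.nroots ≤ q → ∀ t, Y q t = 1)

include hY1 in
theorem liftE_stX (r : ℕ) (t : K) :
    FreeGroup.lift (fun p : Fin D.nroots × K => Y p.1 p.2) (D.stX r t) = Y r t := by
  unfold ChevalleyDatum.stX
  split_ifs with h
  · rw [FreeGroup.lift_apply_of]
  · rw [map_one, hY1 r (by omega)]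

include hY1 in
theorem liftE_stWord (w : List (ℕ × K)) :
    FreeGroup.lift (fun p : Fin D.nroots × K => Y p.1 p.2) (D.stWord w) = wordB Y w := by
  induction w with
  | nil =>
    have h : D.stWord ([] : List (ℕ × K)) = 1 := rfl
    rw [h, map_one, wordB_nil]
  | cons p w ih =>
    have h : D.stWord (p :: w) = D.stX p.1 p.2 * D.stWord w := by
      unfold ChevalleyDatum.stWord
      rw [List.map_cons, List.prod_cons]
    rw [h, map_mul, ih, liftE_stX Y hY1, wordB_cons]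

include hY1 in
theorem liftE_rels (hrel : StRel D Y) :
    ∀ g ∈ D.steinbergRelsAB K, FreeGroup.lift (fun p : Fin D.nroots × K => Y p.1 p.2) g = 1 := by
  rintro g (⟨r, t₁, t₂, hr, rfl⟩ | ⟨r, s, t, u, hr, hs, h1, h2, rfl⟩)
  · rw [map_mul, map_mul, map_inv, liftE_stX Y hY1, liftE_stX Y hY1, liftE_stX Y hY1, hrel.add r hr,
      mul_inv_cancel]
  · simp only [map_mul, map_inv, liftE_stX Y hY1, liftE_stWord Y hY1]
    rw [hrel.comm r hr s hs h1 h2, mul_inv_cancel]

end Hom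

/-- Every central extension of the group presented by (R1), (R2) splits (over a field with more than four
elements). -/
theorem cover_split {w w0 : List ℕ} (hpk : PackSt D K z η w w0) (hC : CommMat D K)
    (hK : ∃ s : Finset K, 4 < s.card)
    (hPos : ∀ r < D.nroots, ∀ s < D.nroots, s ≠ r → s ≠ D.neg r → PosP D r s)
    (hZ : ZTab D z)
    {E : Type*} [Group E] (ψ : E →* D.SteinbergCover K) (hψs : Function.Surjective ψ)
    (hψ : ψ.ker ≤ Subgroup.center E) :
    (commutator (D.SteinbergCover K) = ⊤) ∧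
      ∃ θ : D.SteinbergCover K →* E, ψ.comp θ = MonoidHom.id (D.SteinbergCover K) := by
  classical
  have hP := hpk.hP
  have hS := hP.sem
  have hT := hP.tab
  obtain ⟨⟨v2, hv2, hv2'⟩, ⟨v3, hv3, hv3'⟩, ⟨v1, hv1, hv1', hv1''⟩⟩ := UnivAbs.exists_field_elts hK
  have hG : ∀ r < D.nroots, ∀ s < D.nroots, s ≠ r → s ≠ D.neg r → GoodPair hS r s :=
    fun r hr s hs h1 h2 => goodPair_of_mat hS (hC r s hr hs h1 h2)
  obtain ⟨θ₀, hθs, hθc, hθ⟩ := cover_central hpk.tab hP hpk.hV hC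
  have hA : ∀ (r : ℕ) (t₁ t₂ : K), r < D.nroots →
      D.stX r t₁ * D.stX r t₂ * (D.stX r (t₁ + t₂))⁻¹ ∈ D.steinbergRelsAB K :=
    fun r t₁ t₂ hr => Or.inl ⟨r, t₁, t₂, hr, rfl⟩
  have hB : ∀ (r s : ℕ) (t u : K), r < D.nroots → s < D.nroots → s ≠ r → s ≠ D.neg r →
      (D.stX s u)⁻¹ * (D.stX r t)⁻¹ * D.stX s u * D.stX r t * (D.stWord (D.commWord K r s t u))⁻¹ ∈
        D.steinbergRelsAB K :=
    fun r s t u hr hs h1 h2 => Or.inr ⟨r, s, t, u, hr, hs, h1, h2, rfl⟩
  obtain ⟨C, hCxb, hCπ'⟩ : ∃ C : StCtx D K (D.SteinbergCover K) z η, C.xb = xbP D (D.steinbergRelsAB K) ∧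
      C.π = (D.group K).subtype.comp θ₀ :=
    ⟨ctxP (D.steinbergRelsAB K) hA hB hpk.tab hP hpk.hV θ₀ hθ, rfl, rfl⟩
  have hCπ : ∀ r t, C.π (C.xb r t) = xU hS r t := C.hπ
  have hSt := fun q (hq : q < D.nroots) => isSteinberg_root C q hq
  have hHπ : ∀ q < D.nroots, ∀ v : K, C.π (H85.stH (C.xb q) (C.xb (D.neg q)) v) = hU hS q v := by
    intro q hq v
    unfold H85.stH H85.stN
    simp only [map_mul, map_inv, hCπ]
    rw [← nU_eq, ← nU_eq, nU_inv, hU_eq]
  have hkey : ∀ q < D.nroots, ∀ s : K,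
      H85.stH (C.xb q) (C.xb (D.neg q)) v2 * C.xb q s * (H85.stH (C.xb q) (C.xb (D.neg q)) v2)⁻¹ *
        (C.xb q s)⁻¹ = C.xb q ((v2 ^ 2 - 1) * s) := by
    intro q hq s
    rw [(hSt q hq).h_conj_a hv2 s, xb_inv C.rel q hq, C.rel.add q hq]
    congr 1
    ring
  -- the presented group is perfect
  have hperf : commutator (D.SteinbergCover K) = ⊤ := by
    rw [eq_top_iff, ← closure_xbP (D.steinbergRelsAB K), Subgroup.closure_le]
    rintro g ⟨r, t, hr, rfl⟩
    have h1 := hkey r hr (t / (v2 ^ 2 - 1))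
    have h2 : (v2 ^ 2 - 1) * (t / (v2 ^ 2 - 1)) = t := by field_simp
    rw [h2, hCxb] at h1
    rw [← h1, ← commutatorElement_def, commutator_def]
    exact Subgroup.commutator_mem_commutator (Subgroup.mem_top _) (Subgroup.mem_top _)
  refine ⟨hperf, ?_⟩
  -- the central extension of the Chevalley group
  have hρc : (C.π.comp ψ).ker ≤ Subgroup.center E := by
    intro e he
    apply UnivAbs.ker_comp_central θ₀ hθc ψ hψs hψ hperf
    rw [MonoidHom.mem_ker] at he ⊢
    rw [hCπ'] at he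
    exact Subtype.ext he
  have hxl : ∀ q t, ∃ e : E, (C.π.comp ψ) e = xU hS q t := by
    intro q t
    obtain ⟨e, he⟩ := hψs (C.xb q t)
    exact ⟨e, by rw [MonoidHom.comp_apply, he, hCπ]⟩
  have hTl : ∀ g ∈ TD D K, ∃ e : E, (C.π.comp ψ) e = g := by
    intro g hg
    obtain ⟨d, hd⟩ := hθs ⟨g, TD_le_group hP g hg⟩
    obtain ⟨e, he⟩ := hψs d
    refine ⟨e, ?_⟩
    rw [MonoidHom.comp_apply, he, hCπ', MonoidHom.comp_apply, hd]
    rfl
  obtain ⟨Y, hmap, htor, hdef, hY1⟩ := exists_lifts hP (C.π.comp ψ) hρc hTl hxl hZ.self v2 hv2 hv2'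
  have hcomm := fun q (hq : q < D.nroots) =>
    lifts_comm hP (C.π.comp ψ) hρc hTl Y hmap htor hG hZ v1 hv1 hv1' hv1'' v2 hv2 hv2' v3 hv3 hv3' q hq
  have hadd := fun q (hq : q < D.nroots) =>
    lifts_add hP (C.π.comp ψ) hρc hTl Y hmap htor v2 hv2 hv2' hdef q hq (hcomm q hq)
  have hsep : ∀ e < D.nroots, ∀ e' < D.nroots, D.IsPosRoot e → D.IsPosRoot e' → e' ≠ e →
      ∃ h ∈ TD D K, ∃ c : K, c - 1 ≠ 0 ∧ (∀ t : K, h * xU hS e t * h⁻¹ = xU hS e t) ∧
        (∀ u : K, h * xU hS e' u * h⁻¹ = xU hS e' (c * u)) :=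
    fun e he e' he' hp hp' hne => sep_of_z hP e e' he he' (hZ.self e he) (hZ.self e' he')
      (hZ.pair e he e' he' hp hp' hne) v2 hv2 hv2' v3 hv3 hv3'
  have hrel : StRel D Y := lifts_rel hpk (C.π.comp ψ) hρc hTl Y hmap htor hadd hG hPos hsep
  -- compatibility with `ψ`
  have hψY : ∀ q < D.nroots, ∀ t, ψ (Y q t) = C.xb q t := by
    intro q hq t
    obtain ⟨h, hh⟩ := hψs (H85.stH (C.xb q) (C.xb (D.neg q)) v2)
    obtain ⟨e, he⟩ := hψs (C.xb q (t / (v2 ^ 2 - 1)))
    have h1 := hdef q hq h e (t / (v2 ^ 2 - 1)) (by rw [MonoidHom.comp_apply, hh, hHπ q hq])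
      (by rw [MonoidHom.comp_apply, he, hCπ])
    have h2 : (v2 ^ 2 - 1) * (t / (v2 ^ 2 - 1)) = t := by field_simp
    rw [h2] at h1
    rw [← h1, map_mul, map_mul, map_mul, map_inv, map_inv, hh, he]
    have h3 := hkey q hq (t / (v2 ^ 2 - 1))
    rw [h2] at h3
    exact h3
  refine ⟨PresentedGroup.toGroup (liftE_rels Y hY1 hrel), ?_⟩
  apply PresentedGroup.ext
  intro p
  rw [MonoidHom.comp_apply, PresentedGroup.toGroup.of, MonoidHom.id_apply, hψY p.1.val p.1.isLt p.2, hCxb]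
  unfold xbP ChevalleyDatum.stX
  rw [dif_pos p.1.isLt]
  rfl

end Cfsg.Agent.H46
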