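import Cfsg.Agent.H46.CommReg
import Cfsg.Agent.H46.UnivSplit
import Cfsg.Agent.H56.CommLifts

set_option autoImplicit false

/-!
# The commutator regime: central extensions of the group presented by (R1), (R2) split

Under the table conditions `CommTab` (types E6, E7, E8), lifts of the root elements to a central extension can be
corrected so that the relations (R1), (R2) hold; no field elements are needed, so this works over every field.
-/

namespace Cfsg.Agent.H46

open Cfsg.Lie Cfsg.Agent.H23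

theorem commTermsG_nil {cf : ℕ → ℕ → List (ℕ × ℤ)} {r s : ℕ} (h1 : cf r s = [])
    (h2 : (cf s r).length ≤ 1) : commTermsG cf r s = [] := by
  unfold commTermsG
  match h : cf s r, h2 with
  | [], _ => simp [h1, h]
  | [c], _ => simp [h1, h]
  | _ :: _ :: _, h3 => simp at h3

theorem commTermsG_single {cf : ℕ → ℕ → List (ℕ × ℤ)} {r s q : ℕ} {m : ℤ} (h1 : cf r s = [(q, m)])
    (h2 : (cf s r).length ≤ 1) : commTermsG cf r s = [(q, m, 1, 1)] := by
  unfold commTermsG
  match h : cf s r, h2 with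
  | [], _ => simp [h1, h]
  | [c], _ => simp [h1, h]
  | _ :: _ :: _, h3 => simp at h3

variable {D : ChevalleyDatum} {K : Type*} [Field K]

/-- Every central extension of the group presented by (R1), (R2) splits, under the table conditions of the
commutator regime. -/
theorem cover_split_comm {CH DEC : ℕ} (hCh : ChFOK D CH)
    (hneg : ∀ r < D.nroots, D.neg r = D.nroots - 1 - r)
    (hT : CommTab D.nroots (chainF D.nroots CH) (decF DEC))
    {E : Type*} [Group E] (ψ : E →* D.SteinbergCover K) (hψs : Function.Surjective ψ)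
    (hψ : ψ.ker ≤ Subgroup.center E) :
    ∃ θ : D.SteinbergCover K →* E, ψ.comp θ = MonoidHom.id (D.SteinbergCover K) := by
  classical
  have hA : ∀ (r : ℕ) (t₁ t₂ : K), r < D.nroots →
      D.stX r t₁ * D.stX r t₂ * (D.stX r (t₁ + t₂))⁻¹ ∈ D.steinbergRelsAB K :=
    fun r t₁ t₂ hr => Or.inl ⟨r, t₁, t₂, hr, rfl⟩
  have hB : ∀ (r s : ℕ) (t u : K), r < D.nroots → s < D.nroots → s ≠ r → s ≠ D.neg r →
      (D.stX s u)⁻¹ * (D.stX r t)⁻¹ * D.stX s u * D.stX r t * (D.stWord (D.commWord K r s t u))⁻¹ ∈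
        D.steinbergRelsAB K :=
    fun r s t u hr hs h1 h2 => Or.inr ⟨r, s, t, u, hr, hs, h1, h2, rfl⟩
  have hX : StRel D (xbP D (D.steinbergRelsAB K)) := stRel_xbP _ hA hB
  obtain ⟨X, hXdef⟩ : ∃ X, xbP D (D.steinbergRelsAB K) = X := ⟨_, rfl⟩
  rw [hXdef] at hX
  obtain ⟨cf, hcfdef⟩ : ∃ cf, chainF D.nroots CH = cf := ⟨_, rfl⟩
  obtain ⟨n, hndef⟩ : ∃ n, D.nroots = n := ⟨_, rfl⟩
  rw [hcfdef, hndef] at hT
  have hct : ∀ r s, D.commTerms r s = commTermsG cf r s := fun r s => by rw [← hcfdef]; exact hCh.commTerms r s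
  have hneg' : ∀ r < n, D.neg r = n - 1 - r := fun r hr => by rw [← hndef]; exact hneg r (by omega)
  have hlen : ∀ r < n, ∀ s < n, s ≠ r → s ≠ n - 1 - r → (cf r s).length ≤ 1 := by
    intro r hr s hs h1 h2
    rcases hT.t0 r hr s hs h1 h2 with h | ⟨q, m, h, -⟩
    · rw [h]; exact Nat.zero_le _
    · rw [h]; exact le_refl _
  -- commutation in the presented group
  have hcomm0 : ∀ a < n, ∀ b < n, NonAdjP n cf a b → ∀ t u : K, X a t * X b u = X b u * X a t := by
    intro a ha b hb hab t u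
    obtain ⟨h1, h2, h3⟩ := hab
    have hc := hX.comm a (by omega) b (by omega) h1 (by rw [hneg' a ha]; exact h2) t u
    have hw : D.commWord K a b t u = [] := by
      unfold ChevalleyDatum.commWord
      rw [hct, commTermsG_nil h3 (hlen b hb a ha (Ne.symm h1) (by omega))]
      rfl
    rw [hw, wordB_nil] at hc
    calc X a t * X b u = X b u * X a t * ((X b u)⁻¹ * (X a t)⁻¹ * X b u * X a t)⁻¹ := by group
      _ = X b u * X a t := by rw [hc, inv_one, mul_one]
  have hcomm1 : ∀ β < n, ∀ γ < n, ∀ (q : ℕ) (e : ℤ), AdjZ n cf β γ q e → ∀ t u : K,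
      X β t * X γ u * (X β t)⁻¹ * (X γ u)⁻¹ = X q ((e : K) * t * u) := by
    intro β hβ γ hγ q e hadj t u
    obtain ⟨h1, h2, h3, -⟩ := hadj
    have hc := hX.comm γ (by omega) β (by omega) (Ne.symm h1) (by rw [hneg' γ hγ]; omega) (-u) (-t)
    have hw : D.commWord K γ β (-u) (-t) = [(q, ((-e : ℤ) : K) * (- -u) ^ 1 * (-t) ^ 1)] := by
      unfold ChevalleyDatum.commWord
      rw [hct, commTermsG_single h3 (hlen β hβ γ hγ h1 h2)]
      rfl
    rw [hw, wordB_cons, wordB_nil, mul_one, ← xb_inv hX β (by omega), ← xb_inv hX γ (by omega), inv_inv,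
      inv_inv] at hc
    rw [hc]
    congr 1
    push_cast
    ring
  -- lifts of the generators
  choose x0 hx0 using fun (p : Fin n × K) => hψs (X p.1.val p.2)
  have hx : ∀ (q : Fin n) (t : K), ψ (x0 (q, t)) = X q.val t := fun q t => hx0 (q, t)
  have hc2 := hT.c2
  obtain ⟨y, hy1, hy2, hy3, hy4⟩ := Cfsg.Agent.H56.CommLifts.exists_comm_lifts ψ.ker hψ
    (fun (q : Fin n) (t : K) => x0 (q, t))
    (fun (β γ q : Fin n) (ε : K) => ∃ e : ℤ, AdjZ n cf β.val γ.val q.val e ∧ ε = (e : K))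
    (fun (a b : Fin n) => NonAdjP n cf a.val b.val)
    (fun (q : Fin n) => ((⟨(decF DEC q.val).1, (hc2 q.val q.isLt).1⟩ : Fin n),
      (⟨(decF DEC q.val).2.1, (hc2 q.val q.isLt).2.1⟩ : Fin n), (((decF DEC q.val).2.2.1 : ℤ) : K)))
    (by
      rintro β γ q ε ⟨e, ⟨-, -, -, he⟩, rfl⟩
      rcases he with rfl | rfl <;> push_cast <;> ring)
    (by
      intro q t u
      rw [MonoidHom.mem_ker, map_mul, map_inv, map_mul, hx, hx, hx, hX.add q.val (by omega), mul_inv_cancel])
    (by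
      rintro β γ q ε ⟨e, hadj, rfl⟩ t u
      rw [MonoidHom.mem_ker]
      simp only [map_mul, map_inv, hx]
      rw [hcomm1 β.val β.isLt γ.val γ.isLt q.val e hadj t u, mul_inv_cancel])
    (by
      intro a b hab t u
      rw [MonoidHom.mem_ker]
      simp only [map_mul, map_inv, hx]
      rw [hcomm0 a.val a.isLt b.val b.isLt hab t u, mul_inv_cancel_right, mul_inv_cancel])
    (by
      intro a b hab
      obtain ⟨β, γ, e, hβ, hγ, h1, h2, h3⟩ := hT.c1 a.val a.isLt b.val b.isLt hab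
      exact ⟨⟨β, hβ⟩, ⟨γ, hγ⟩, (e : K), ⟨e, h1, rfl⟩, h2, h3⟩)
    (by
      intro q
      exact ⟨(decF DEC q.val).2.2.1, (hc2 q.val q.isLt).2.2, rfl⟩)
    (by
      rintro β γ q ε ⟨e, hadj, rfl⟩
      obtain ⟨h1, h2, h3, -⟩ := hadj
      rcases hT.t0 γ.val γ.isLt β.val β.isLt (Ne.symm h1) (by omega) with h | ⟨q', m, h, -, -, h4, h5⟩
      · rw [h] at h3; exact absurd h3 (by simp)
      · rw [h] at h3
        have hq : q' = q.val := by
          have := List.head_eq_of_cons_eq h3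
          exact congrArg Prod.fst this
        rw [hq] at h4 h5
        exact ⟨h5, h4⟩)
    (by
      rintro β' γ' q ε' ⟨e', hadj, rfl⟩
      rcases hT.c4 β'.val β'.isLt γ'.val γ'.isLt q.val e' hadj with
        ⟨h1, h2, h3⟩ | ⟨h1, h2, h3⟩ | ⟨δ, e₁, e₂, hδ, h1, h2, h3, h4, h5⟩ | ⟨δ, e₁, e₂, hδ, h1, h2, h3, h4, h5⟩
      · exact Or.inl ⟨Fin.ext h1, Fin.ext h2, by rw [h3]⟩
      · exact Or.inr (Or.inl ⟨Fin.ext h1, Fin.ext h2, by rw [h3]; push_cast; rfl⟩)
      · refine Or.inr (Or.inr (Or.inl ⟨⟨δ, hδ⟩, (e₁ : K), (e₂ : K), ⟨e₁, h1, rfl⟩, ⟨e₂, h2, rfl⟩, h3, h4, ?_⟩))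
        have := congrArg (Int.cast : ℤ → K) h5
        push_cast at this
        exact this
      · refine Or.inr (Or.inr (Or.inr ⟨⟨δ, hδ⟩, (e₁ : K), (e₂ : K), ⟨e₁, h1, rfl⟩, ⟨e₂, h2, rfl⟩, h3, h4, ?_⟩))
        have := congrArg (Int.cast : ℤ → K) h5
        push_cast at this
        exact this)
    (by
      intro q
      obtain ⟨β', γ', e', δ, e₁, e₂, hβ', hγ', hδ, h1, h2, h3, h4, h5, h6⟩ := hT.c5 q.val q.isLt
      refine ⟨⟨β', hβ'⟩, ⟨γ', hγ'⟩, (e' : K), ⟨δ, hδ⟩, (e₁ : K), (e₂ : K), ⟨e', h1, rfl⟩, ⟨e₁, h2, rfl⟩,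
        ⟨e₂, h3, rfl⟩, h4, h5, ?_⟩
      have := congrArg (Int.cast : ℤ → K) h6
      push_cast at this
      exact this)
  -- the corrected lifts
  have hy0 : ∀ q, y q 0 = 1 := by
    intro q
    have h1 := hy2 q 0 0
    rw [add_zero] at h1
    exact mul_eq_left.mp h1.symm
  have hyneg : ∀ q t, y q (-t) = (y q t)⁻¹ := by
    intro q t
    rw [eq_inv_iff_mul_eq_one, ← hy2, neg_add_cancel, hy0]
  obtain ⟨Y, hYdef⟩ : ∃ Y : ℕ → K → E, Y = fun q t => if h : q < n then y ⟨q, h⟩ t else 1 := ⟨_, rfl⟩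
  have hY1 : ∀ q, D.nroots ≤ q → ∀ t, Y q t = 1 := by
    intro q hq t
    rw [hYdef]
    simp only
    rw [dif_neg (by omega)]
  have hYy : ∀ (q : ℕ) (h : q < n) (t : K), Y q t = y ⟨q, h⟩ t := by
    intro q h t
    rw [hYdef]
    simp only
    rw [dif_pos h]
  have hrel : StRel D Y := by
    refine ⟨?_, ?_⟩
    · intro r hr t u
      have hr' : r < n := by omega
      rw [hYy r hr', hYy r hr', hYy r hr', hy2]
    · intro r hr s hs hne hne' t u
      have hr' : r < n := by omega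
      have hs' : s < n := by omega
      rw [hneg' r hr'] at hne'
      rw [hYy r hr', hYy s hs']
      rcases hT.t0 r hr' s hs' hne hne' with h0 | ⟨q, m, h0, hq, hm, -, -⟩
      · have hw : D.commWord K r s t u = [] := by
          unfold ChevalleyDatum.commWord
          rw [hct, commTermsG_nil h0 (hlen s hs' r hr' (Ne.symm hne) (by omega))]
          rfl
        rw [hw, wordB_nil]
        have hc := hy4 ⟨r, hr'⟩ ⟨s, hs'⟩ ⟨hne, hne', h0⟩ t u
        rw [mul_assoc, ← hc]
        group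
      · have hadj : AdjZ n cf s r q (-m) := by
          refine ⟨Ne.symm hne, by omega, by rw [neg_neg]; exact h0, ?_⟩
          rcases hm with rfl | rfl
          · exact Or.inr rfl
          · exact Or.inl rfl
        have hc := hy3 ⟨s, hs'⟩ ⟨r, hr'⟩ ⟨q, hq⟩ ((-m : ℤ) : K) ⟨-m, hadj, rfl⟩ (-u) (-t)
        rw [hyneg, hyneg, inv_inv, inv_inv] at hc
        have hw : D.commWord K r s t u = [(q, (m : K) * (-t) ^ 1 * u ^ 1)] := by
          unfold ChevalleyDatum.commWord
          rw [hct, commTermsG_single h0 (hlen s hs' r hr' (Ne.symm hne) (by omega))]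
          rfl
        rw [hw, wordB_cons, wordB_nil, mul_one, hYy q hq, hc]
        congr 1
        push_cast
        ring
  refine ⟨PresentedGroup.toGroup (liftE_rels Y hY1 hrel), ?_⟩
  apply PresentedGroup.ext
  intro p
  have hp : p.1.val < n := by have := p.1.isLt; omega
  rw [MonoidHom.comp_apply, PresentedGroup.toGroup.of, MonoidHom.id_apply, hYy p.1.val hp]
  have h1 := hy1 ⟨p.1.val, hp⟩ p.2
  rw [MonoidHom.mem_ker, map_mul, map_inv, mul_inv_eq_one, hx] at h1
  rw [h1, ← hXdef]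
  unfold xbP ChevalleyDatum.stX
  rw [dif_pos p.1.isLt]
  rfl

end Cfsg.Agent.H46
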