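import Cfsg.Agent.H46.CommReg2
import Cfsg.Agent.H46.CommSplit
import Cfsg.Agent.H70.CommLiftsOrth
import Cfsg.Agent.H73.D4Odd

set_option autoImplicit false

/-!
# The commutator regime with orthogonal pairs: central extensions of the group presented by (R1), (R2) split

As `cover_split_comm`, for root systems in which the condition `c1` fails exactly for the orthogonal pairs of
roots (type D4): the lifts of the root elements of orthogonal roots commute by the Hall–Witt argument in odd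
characteristic, or by a hypothesis (proved with a torus element in characteristic 2).
-/

namespace Cfsg.Agent.H46

open Cfsg.Lie Cfsg.Agent.H23

variable {D : ChevalleyDatum} {K : Type*} [Field K]

/-- Every central extension of the group presented by (R1), (R2) splits, under the table conditions of the
commutator regime with orthogonal pairs, in odd characteristic or when the lifts of the root elements of
orthogonal roots commute. -/
theorem cover_split_comm2 {CH DEC : ℕ} (hCh : ChFOK D CH)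
    (hneg : ∀ r < D.nroots, D.neg r = D.nroots - 1 - r)
    (hT : CommTab2 D.nroots (chainF D.nroots CH) (decF DEC))
    {E : Type*} [Group E] (ψ : E →* D.SteinbergCover K) (hψs : Function.Surjective ψ)
    (hψ : ψ.ker ≤ Subgroup.center E)
    (hor : (2 : K) ≠ 0 ∨ ∀ a < D.nroots, ∀ b < D.nroots, OrthP D.nroots (chainF D.nroots CH) a b →
      ∀ (ea eb : E) (t u : K), ψ ea = xbP D (D.steinbergRelsAB K) a t →
        ψ eb = xbP D (D.steinbergRelsAB K) b u → ea * eb = eb * ea) :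
    ∃ θ : D.SteinbergCover K →* E, ψ.comp θ = MonoidHom.id (D.SteinbergCover K) := by
  classical
  have hA : ∀ (r : ℕ) (t₁ t₂ : K), r < D.nroots →
      D.stX r t₁ * D.stX r t₂ * (D.stX r (t₁ + t₂))⁻¹ ∈ D.steinbergRelsAB K :=
    fun r t₁ t₂ hr => Or.inl ⟨r, t₁, t₂, hr, rfl⟩
  have hB : ∀ (r s : ℕ) (t u : K), r < D.nroots → s < D.nroots → s ≠ r → s ≠ D.neg r →
      (D.stX s u)⁻¹ * (D.stX r t)⁻¹ * D.stX s u * D.stX r t * (D.stWord (D.commWord K r s t u))⁻¹ ∈
        D.steinbergRelsAB K :=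
    fun r s t u hr hs h1 h2 => Or.inr ⟨r, s, t, u, hr, hs, h1, h2, rfl⟩
  have hX : StRel D (xbP D (D.steinbergRelsAB K)) := stRel_xbP _ hA hB
  obtain ⟨X, hXdef⟩ : ∃ X, xbP D (D.steinbergRelsAB K) = X := ⟨_, rfl⟩
  rw [hXdef] at hX hor
  obtain ⟨cf, hcfdef⟩ : ∃ cf, chainF D.nroots CH = cf := ⟨_, rfl⟩
  obtain ⟨n, hndef⟩ : ∃ n, D.nroots = n := ⟨_, rfl⟩
  rw [hcfdef, hndef] at hT
  rw [hcfdef] at hor
  have hct : ∀ r s, D.commTerms r s = commTermsG cf r s := fun r s => by rw [← hcfdef]; exact hCh.commTerms r s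
  have hneg' : ∀ r < n, D.neg r = n - 1 - r := fun r hr => by rw [← hndef]; exact hneg r (by omega)
  have hlen : ∀ r < n, ∀ s < n, s ≠ r → s ≠ n - 1 - r → (cf r s).length ≤ 1 := by
    intro r hr s hs h1 h2
    rcases hT.t0 r hr s hs h1 h2 with h | ⟨q, m, h, -⟩
    · rw [h]; exact Nat.zero_le _
    · rw [h]; exact le_refl _
  -- commutation in the presented group
  have hcomm0 : ∀ a < n, ∀ b < n, NonAdjP n cf a b → ∀ t u : K, X a t * X b u = X b u * X a t := by
    intro a ha b hb hab t u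
    obtain ⟨h1, h2, h3⟩ := hab
    have hc := hX.comm a (by omega) b (by omega) h1 (by rw [hneg' a ha]; exact h2) t u
    have hw : D.commWord K a b t u = [] := by
      unfold ChevalleyDatum.commWord
      rw [hct, commTermsG_nil h3 (hlen b hb a ha (Ne.symm h1) (by omega))]
      rfl
    rw [hw, wordB_nil] at hc
    calc X a t * X b u = X b u * X a t * ((X b u)⁻¹ * (X a t)⁻¹ * X b u * X a t)⁻¹ := by group
      _ = X b u * X a t := by rw [hc, inv_one, mul_one]
  have hcomm1 : ∀ β < n, ∀ γ < n, ∀ (q : ℕ) (e : ℤ), AdjZ n cf β γ q e → ∀ t u : K,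
      X β t * X γ u * (X β t)⁻¹ * (X γ u)⁻¹ = X q ((e : K) * t * u) := by
    intro β hβ γ hγ q e hadj t u
    obtain ⟨h1, h2, h3, -⟩ := hadj
    have hc := hX.comm γ (by omega) β (by omega) (Ne.symm h1) (by rw [hneg' γ hγ]; omega) (-u) (-t)
    have hw : D.commWord K γ β (-u) (-t) = [(q, ((-e : ℤ) : K) * (- -u) ^ 1 * (-t) ^ 1)] := by
      unfold ChevalleyDatum.commWord
      rw [hct, commTermsG_single h3 (hlen β hβ γ hγ h1 h2)]
      rfl
    rw [hw, wordB_cons, wordB_nil, mul_one, ← xb_inv hX β (by omega), ← xb_inv hX γ (by omega), inv_inv,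
      inv_inv] at hc
    rw [hc]
    congr 1
    push_cast
    ring
  -- lifts of the generators
  choose x0 hx0 using fun (p : Fin n × K) => hψs (X p.1.val p.2)
  have hx : ∀ (q : Fin n) (t : K), ψ (x0 (q, t)) = X q.val t := fun q t => hx0 (q, t)
  have hc2 := hT.c2
  have hL1 : ∀ (q : Fin n) (t u : K), x0 (q, t + u) * (x0 (q, t) * x0 (q, u))⁻¹ ∈ ψ.ker := by
    intro q t u
    rw [MonoidHom.mem_ker, map_mul, map_inv, map_mul, hx, hx, hx, hX.add q.val (by omega), mul_inv_cancel]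
  have hL2 : ∀ (β γ q : Fin n) (ε : K), (∃ e : ℤ, AdjZ n cf β.val γ.val q.val e ∧ ε = (e : K)) → ∀ t u : K,
      x0 (β, t) * x0 (γ, u) * (x0 (β, t))⁻¹ * (x0 (γ, u))⁻¹ * (x0 (q, ε * t * u))⁻¹ ∈ ψ.ker := by
    rintro β γ q ε ⟨e, hadj, rfl⟩ t u
    rw [MonoidHom.mem_ker]
    simp only [map_mul, map_inv, hx]
    rw [hcomm1 β.val β.isLt γ.val γ.isLt q.val e hadj t u, mul_inv_cancel]
  have hL3 : ∀ a b : Fin n, NonAdjP n cf a.val b.val → ∀ t u : K,
      x0 (a, t) * x0 (b, u) * (x0 (a, t))⁻¹ * (x0 (b, u))⁻¹ ∈ ψ.ker := by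
    intro a b hab t u
    rw [MonoidHom.mem_ker]
    simp only [map_mul, map_inv, hx]
    rw [hcomm0 a.val a.isLt b.val b.isLt hab t u, mul_inv_cancel_right, mul_inv_cancel]
  obtain ⟨y, hy1, hy2, hy3, hy4⟩ := Cfsg.Agent.H70.CommLiftsOrth.exists_comm_lifts_orth ψ.ker hψ
    (fun (q : Fin n) (t : K) => x0 (q, t))
    (fun (β γ q : Fin n) (ε : K) => ∃ e : ℤ, AdjZ n cf β.val γ.val q.val e ∧ ε = (e : K))
    (fun (a b : Fin n) => NonAdjP n cf a.val b.val)
    (fun (a b : Fin n) => OrthP n cf a.val b.val)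
    (fun (q : Fin n) => ((⟨(decF DEC q.val).1, (hc2 q.val q.isLt).1⟩ : Fin n),
      (⟨(decF DEC q.val).2.1, (hc2 q.val q.isLt).2.1⟩ : Fin n), (((decF DEC q.val).2.2.1 : ℤ) : K)))
    (by
      rintro β γ q ε ⟨e, ⟨-, -, -, he⟩, rfl⟩
      rcases he with rfl | rfl <;> push_cast <;> ring)
    hL1 hL2 hL3
    (by
      intro a b hab
      rcases hT.c1 a.val a.isLt b.val b.isLt hab with ho | ⟨β, γ, e, hβ, hγ, h1, h2, h3⟩
      · exact Or.inl ho
      · exact Or.inr ⟨⟨β, hβ⟩, ⟨γ, hγ⟩, (e : K), ⟨e, h1, rfl⟩, h2, h3⟩)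
    (by
      intro hex a b hab ho
      rcases hor with h2ne | htor
      · exact Cfsg.Agent.H73.D4.orth_comm_odd h2ne ψ.ker hψ
          (fun (q : Fin n) (t : K) => x0 (q, t))
          (fun (β γ q : Fin n) (ε : K) => ∃ e : ℤ, AdjZ n cf β.val γ.val q.val e ∧ ε = (e : K))
          (fun (a b : Fin n) => NonAdjP n cf a.val b.val)
          (fun (a b : Fin n) => OrthP n cf a.val b.val)
          (by
            rintro β γ q ε ⟨e, ⟨-, -, -, he⟩, rfl⟩
            rcases he with rfl | rfl <;> push_cast <;> ring)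
          hL1 hL2 hL3 hex
          (by
            intro a b _ ho
            obtain ⟨β, γ, δ, β', e, e₁, e', e₁', hβ, hγ, hδ, hβ', h1, h2, h3, h4, h5, h6, h7, h8, h9, h10⟩ :=
              hT.cO a.val a.isLt b.val b.isLt ho
            refine ⟨⟨β, hβ⟩, ⟨γ, hγ⟩, ⟨δ, hδ⟩, ⟨β', hβ'⟩, (e : K), (e₁ : K), (e' : K), (e₁' : K),
              ⟨e, h1, rfl⟩, ⟨e₁, h2, rfl⟩, ⟨e', h3, rfl⟩, ⟨e₁', h4, rfl⟩, ?_, h6, h7, h8, h9, h10⟩
            have := congrArg (Int.cast : ℤ → K) h5
            push_cast at this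
            exact this)
          a b hab ho
      · intro t u
        exact htor a.val (by have := a.isLt; omega) b.val (by have := b.isLt; omega) (by rw [hndef]; exact ho)
          (x0 (a, t)) (x0 (b, u)) t u (hx a t) (hx b u))
    (by
      intro q
      exact ⟨(decF DEC q.val).2.2.1, (hc2 q.val q.isLt).2.2, rfl⟩)
    (by
      rintro β γ q ε ⟨e, hadj, rfl⟩
      obtain ⟨h1, h2, h3, -⟩ := hadj
      rcases hT.t0 γ.val γ.isLt β.val β.isLt (Ne.symm h1) (by omega) with h | ⟨q', m, h, -, -, h4, h5⟩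
      · rw [h] at h3; exact absurd h3 (by simp)
      · rw [h] at h3
        have hq : q' = q.val := by
          have := List.head_eq_of_cons_eq h3
          exact congrArg Prod.fst this
        rw [hq] at h4 h5
        exact ⟨h5, h4⟩)
    (by
      rintro β' γ' q ε' ⟨e', hadj, rfl⟩
      rcases hT.c4 β'.val β'.isLt γ'.val γ'.isLt q.val e' hadj with
        ⟨h1, h2, h3⟩ | ⟨h1, h2, h3⟩ | ⟨δ, e₁, e₂, hδ, h1, h2, h3, h4, h5⟩ | ⟨δ, e₁, e₂, hδ, h1, h2, h3, h4, h5⟩
      · exact Or.inl ⟨Fin.ext h1, Fin.ext h2, by rw [h3]⟩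
      · exact Or.inr (Or.inl ⟨Fin.ext h1, Fin.ext h2, by rw [h3]; push_cast; rfl⟩)
      · refine Or.inr (Or.inr (Or.inl ⟨⟨δ, hδ⟩, (e₁ : K), (e₂ : K), ⟨e₁, h1, rfl⟩, ⟨e₂, h2, rfl⟩, h3, h4, ?_⟩))
        have := congrArg (Int.cast : ℤ → K) h5
        push_cast at this
        exact this
      · refine Or.inr (Or.inr (Or.inr ⟨⟨δ, hδ⟩, (e₁ : K), (e₂ : K), ⟨e₁, h1, rfl⟩, ⟨e₂, h2, rfl⟩, h3, h4, ?_⟩))
        have := congrArg (Int.cast : ℤ → K) h5
        push_cast at this
        exact this)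
    (by
      intro q
      obtain ⟨β', γ', e', δ, e₁, e₂, hβ', hγ', hδ, h1, h2, h3, h4, h5, h6⟩ := hT.c5 q.val q.isLt
      refine ⟨⟨β', hβ'⟩, ⟨γ', hγ'⟩, (e' : K), ⟨δ, hδ⟩, (e₁ : K), (e₂ : K), ⟨e', h1, rfl⟩, ⟨e₁, h2, rfl⟩,
        ⟨e₂, h3, rfl⟩, h4, h5, ?_⟩
      have := congrArg (Int.cast : ℤ → K) h6
      push_cast at this
      exact this)
  -- the corrected lifts
  have hy0 : ∀ q, y q 0 = 1 := by
    intro q
    have h1 := hy2 q 0 0
    rw [add_zero] at h1
    exact mul_eq_left.mp h1.symm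
  have hyneg : ∀ q t, y q (-t) = (y q t)⁻¹ := by
    intro q t
    rw [eq_inv_iff_mul_eq_one, ← hy2, neg_add_cancel, hy0]
  obtain ⟨Y, hYdef⟩ : ∃ Y : ℕ → K → E, Y = fun q t => if h : q < n then y ⟨q, h⟩ t else 1 := ⟨_, rfl⟩
  have hY1 : ∀ q, D.nroots ≤ q → ∀ t, Y q t = 1 := by
    intro q hq t
    rw [hYdef]
    simp only
    rw [dif_neg (by omega)]
  have hYy : ∀ (q : ℕ) (h : q < n) (t : K), Y q t = y ⟨q, h⟩ t := by
    intro q h t
    rw [hYdef]
    simp only
    rw [dif_pos h]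
  have hrel : StRel D Y := by
    refine ⟨?_, ?_⟩
    · intro r hr t u
      have hr' : r < n := by omega
      rw [hYy r hr', hYy r hr', hYy r hr', hy2]
    · intro r hr s hs hne hne' t u
      have hr' : r < n := by omega
      have hs' : s < n := by omega
      rw [hneg' r hr'] at hne'
      rw [hYy r hr', hYy s hs']
      rcases hT.t0 r hr' s hs' hne hne' with h0 | ⟨q, m, h0, hq, hm, -, -⟩
      · have hw : D.commWord K r s t u = [] := by
          unfold ChevalleyDatum.commWord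
          rw [hct, commTermsG_nil h0 (hlen s hs' r hr' (Ne.symm hne) (by omega))]
          rfl
        rw [hw, wordB_nil]
        have hc := hy4 ⟨r, hr'⟩ ⟨s, hs'⟩ ⟨hne, hne', h0⟩ t u
        rw [mul_assoc, ← hc]
        group
      · have hadj : AdjZ n cf s r q (-m) := by
          refine ⟨Ne.symm hne, by omega, by rw [neg_neg]; exact h0, ?_⟩
          rcases hm with rfl | rfl
          · exact Or.inr rfl
          · exact Or.inl rfl
        have hc := hy3 ⟨s, hs'⟩ ⟨r, hr'⟩ ⟨q, hq⟩ ((-m : ℤ) : K) ⟨-m, hadj, rfl⟩ (-u) (-t)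
        rw [hyneg, hyneg, inv_inv, inv_inv] at hc
        have hw : D.commWord K r s t u = [(q, (m : K) * (-t) ^ 1 * u ^ 1)] := by
          unfold ChevalleyDatum.commWord
          rw [hct, commTermsG_single h0 (hlen s hs' r hr' (Ne.symm hne) (by omega))]
          rfl
        rw [hw, wordB_cons, wordB_nil, mul_one, hYy q hq, hc]
        congr 1
        push_cast
        ring
  refine ⟨PresentedGroup.toGroup (liftE_rels Y hY1 hrel), ?_⟩
  apply PresentedGroup.ext
  intro p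
  have hp : p.1.val < n := by have := p.1.isLt; omega
  rw [MonoidHom.comp_apply, PresentedGroup.toGroup.of, MonoidHom.id_apply, hYy p.1.val hp]
  have h1 := hy1 ⟨p.1.val, hp⟩ p.2
  rw [MonoidHom.mem_ker, map_mul, map_inv, mul_inv_eq_one, hx] at h1
  rw [h1, ← hXdef]
  unfold xbP ChevalleyDatum.stX
  rw [dif_pos p.1.isLt]
  rfl

end Cfsg.Agent.H46
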