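import Mathlib

/-!
Helper (helper46): certificates for word identities in Coxeter groups (braid moves and
cancellations), checked by evaluation.
-/

namespace Cfsg.Agent.H46

open CoxeterSystem List

variable {B : Type*} [DecidableEq B] (M : CoxeterMatrix B)

/-- One elementary move at position `k`: cancel `i i`, or apply the braid relation. -/
def coxStep (w : List B) (k : ℕ) : Option (List B) :=
  match w.drop k with
  | i :: j :: rest =>
    if i = j then some (w.take k ++ rest)
    else
      if (i :: j :: rest).take (M i j) = alternatingWord i j (M i j) then
        some (w.take k ++ (alternatingWord j i (M i j) ++ (i :: j :: rest).drop (M i j)))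
      else if (i :: j :: rest).take (M i j) = alternatingWord j i (M i j) then
        some (w.take k ++ (alternatingWord i j (M i j) ++ (i :: j :: rest).drop (M i j)))
      else none
  | _ => none

/-- Run a list of moves. -/
def coxRun : List B → List ℕ → Option (List B)
  | w, [] => some w
  | w, k :: ks =>
    match coxStep M w k with
    | some w' => coxRun w' ks
    | none => none

variable {M} {W : Type*} [Group W] (cs : CoxeterSystem M W)

theorem coxStep_sound {w w' : List B} {k : ℕ} (h : coxStep M w k = some w') :
    cs.wordProd w = cs.wordProd w' := by
  unfold coxStep at h
  have hw : w = w.take k ++ w.drop k := (List.take_append_drop k w).symm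
  split at h
  · rename_i i j rest heq
    rw [heq] at hw
    by_cases hij : i = j
    · rw [if_pos hij] at h
      subst hij
      injection h with h
      subst h
      conv_lhs => rw [hw]
      rw [wordProd_append, wordProd_append, wordProd_cons, wordProd_cons,
        simple_mul_simple_cancel_left]
    · rw [if_neg hij] at h
      have hsplit : (i :: j :: rest) = (i :: j :: rest).take (M i j) ++ (i :: j :: rest).drop (M i j) :=
        (List.take_append_drop _ _).symm
      have hb1 : cs.wordProd (alternatingWord i j (M i j)) = cs.wordProd (alternatingWord j i (M i j)) := by
        have := cs.wordProd_braidWord_eq i j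
        unfold braidWord at this
        rw [M.symmetric j i] at this
        exact this
      split at h
      · rename_i h1
        injection h with h
        subst h
        conv_lhs => rw [hw, hsplit, h1]
        simp only [wordProd_append, hb1]
      · split at h
        · rename_i h1 h2
          injection h with h
          subst h
          conv_lhs => rw [hw, hsplit, h2]
          simp only [wordProd_append, hb1]
        · exact absurd h (by simp)
  · exact absurd h (by simp)

theorem coxRun_sound : ∀ {w w' : List B} {ks : List ℕ}, coxRun M w ks = some w' →
    cs.wordProd w = cs.wordProd w'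
  | w, w', [], h => by
    simp only [coxRun, Option.some.injEq] at h
    rw [h]
  | w, w', k :: ks, h => by
    rw [coxRun] at h
    split at h
    · rename_i w1 h1
      rw [coxStep_sound cs h1]
      exact coxRun_sound h
    · exact absurd h (by simp)

/-- Derivation step: a product of three known words lies in the subgroup. -/
theorem cox_mem3 (H : Subgroup W) {a b c w : List B} (ha : cs.wordProd a ∈ H) (hb : cs.wordProd b ∈ H)
    (hc : cs.wordProd c ∈ H) (ks : List ℕ) (hrun : coxRun M (a ++ (b ++ c)) ks = some w) :
    cs.wordProd w ∈ H := by
  rw [← coxRun_sound cs hrun, wordProd_append, wordProd_append]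
  exact H.mul_mem ha (H.mul_mem hb hc)

theorem cox_mem2 (H : Subgroup W) {a b w : List B} (ha : cs.wordProd a ∈ H) (hb : cs.wordProd b ∈ H)
    (ks : List ℕ) (hrun : coxRun M (a ++ b) ks = some w) :
    cs.wordProd w ∈ H := by
  rw [← coxRun_sound cs hrun, wordProd_append]
  exact H.mul_mem ha hb

theorem cox_mem_rev (H : Subgroup W) {a : List B} (ha : cs.wordProd a ∈ H) :
    cs.wordProd a.reverse ∈ H := by
  rw [wordProd_reverse]
  exact H.inv_mem ha

/-- If all simple reflections lie in a subgroup, it is everything. -/
theorem cox_eq_top (H : Subgroup W) (h : ∀ i : B, cs.wordProd [i] ∈ H) : H = ⊤ := by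
  rw [eq_top_iff, ← cs.subgroup_closure_range_simple, Subgroup.closure_le]
  rintro _ ⟨i, rfl⟩
  have := h i
  rwa [wordProd_singleton] at this

end Cfsg.Agent.H46
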