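import Mathlib
import Cfsg.Prelude.Def_ChevStructure
import Cfsg.Agent.H46.CoxCert

/-!
Helper (helper46): the Weyl groups of types D₄, F₄, E₆, E₇, E₈ are generated by the Coxeter
element and one or two simple reflections. Derivations were found by computer search; each step
is a word identity certified by braid moves (`coxRun`).
-/

namespace Cfsg.Agent.H46

open CoxeterSystem

theorem cox_gen_D4 :
    Subgroup.closure (({((List.finRange 4).map Cfsg.Lie.coxeterD4.simple).prod} : Set Cfsg.Lie.coxeterD4.Group) ∪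
      ({Cfsg.Lie.coxeterD4.simple 0} ∪ {Cfsg.Lie.coxeterD4.simple 2})) = ⊤ := by
  set cs := Cfsg.Lie.coxeterD4.toCoxeterSystem with hcs
  set H := Subgroup.closure (({((List.finRange 4).map Cfsg.Lie.coxeterD4.simple).prod} : Set Cfsg.Lie.coxeterD4.Group) ∪
      ({Cfsg.Lie.coxeterD4.simple 0} ∪ {Cfsg.Lie.coxeterD4.simple 2})) with hH
  have hc : cs.wordProd [0, 1, 2, 3] ∈ H := Subgroup.subset_closure (Or.inl rfl)
  have ht0 : cs.wordProd [0] ∈ H :=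
    Subgroup.subset_closure (Or.inr (Or.inl (by rw [wordProd_singleton]; rfl)))
  have ht2 : cs.wordProd [2] ∈ H :=
    Subgroup.subset_closure (Or.inr (Or.inr (by rw [wordProd_singleton]; rfl)))
  have h1 : cs.wordProd [1] ∈ H :=
    cox_mem3 cs H hc ht0 (cox_mem_rev cs H hc) [3, 4, 2, 3, 0, 2, 1] (by decide)
  have h2 : cs.wordProd [0, 1, 3] ∈ H :=
    cox_mem2 cs H hc ht2 [2, 3] (by decide)
  have h3 : cs.wordProd [3] ∈ H :=
    cox_mem3 cs H h2 h1 (cox_mem_rev cs H h2) [1, 3, 2, 0, 1] (by decide)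
  refine cox_eq_top cs H (fun i => ?_)
  fin_cases i
  · exact ht0
  · exact h1
  · exact ht2
  · exact h3

theorem cox_gen_F4 :
    Subgroup.closure (({((List.finRange 4).map CoxeterMatrix.F₄.simple).prod} : Set CoxeterMatrix.F₄.Group) ∪
      ({CoxeterMatrix.F₄.simple 0} ∪ {CoxeterMatrix.F₄.simple 2})) = ⊤ := by
  set cs := CoxeterMatrix.F₄.toCoxeterSystem with hcs
  set H := Subgroup.closure (({((List.finRange 4).map CoxeterMatrix.F₄.simple).prod} : Set CoxeterMatrix.F₄.Group) ∪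
      ({CoxeterMatrix.F₄.simple 0} ∪ {CoxeterMatrix.F₄.simple 2})) with hH
  have hc : cs.wordProd [0, 1, 2, 3] ∈ H := Subgroup.subset_closure (Or.inl rfl)
  have ht0 : cs.wordProd [0] ∈ H :=
    Subgroup.subset_closure (Or.inr (Or.inl (by rw [wordProd_singleton]; rfl)))
  have ht2 : cs.wordProd [2] ∈ H :=
    Subgroup.subset_closure (Or.inr (Or.inr (by rw [wordProd_singleton]; rfl)))
  have h1 : cs.wordProd [1] ∈ H :=
    cox_mem3 cs H hc ht0 (cox_mem_rev cs H hc) [3, 4, 2, 3, 0, 2, 1] (by decide)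
  have h2 : cs.wordProd [3] ∈ H :=
    cox_mem3 cs H hc ht2 (cox_mem_rev cs H hc) [2, 4, 3, 1, 2, 0, 1] (by decide)
  refine cox_eq_top cs H (fun i => ?_)
  fin_cases i
  · exact ht0
  · exact h1
  · exact ht2
  · exact h2

theorem cox_gen_E6 :
    Subgroup.closure (({((List.finRange 6).map CoxeterMatrix.E₆.simple).prod} : Set CoxeterMatrix.E₆.Group) ∪
      ({CoxeterMatrix.E₆.simple 0})) = ⊤ := by
  set cs := CoxeterMatrix.E₆.toCoxeterSystem with hcs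
  set H := Subgroup.closure (({((List.finRange 6).map CoxeterMatrix.E₆.simple).prod} : Set CoxeterMatrix.E₆.Group) ∪
      ({CoxeterMatrix.E₆.simple 0})) with hH
  have hc : cs.wordProd [0, 1, 2, 3, 4, 5] ∈ H := Subgroup.subset_closure (Or.inl rfl)
  have ht0 : cs.wordProd [0] ∈ H :=
    Subgroup.subset_closure (Or.inr (by rw [wordProd_singleton]; rfl))
  have h1 : cs.wordProd [5, 4, 3, 2, 1] ∈ H :=
    cox_mem2 cs H (cox_mem_rev cs H hc) ht0 [5] (by decide)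
  have h2 : cs.wordProd [2] ∈ H :=
    cox_mem3 cs H hc ht0 (cox_mem_rev cs H hc) [5, 6, 4, 5, 3, 4, 0, 1, 3, 0, 1, 2, 1] (by decide)
  have h3 : cs.wordProd [5, 4, 3, 1] ∈ H :=
    cox_mem2 cs H h1 h2 [3, 4] (by decide)
  have h4 : cs.wordProd [1, 3, 1] ∈ H :=
    cox_mem3 cs H hc h2 (cox_mem_rev cs H hc) [5, 6, 4, 5, 2, 4, 3, 0, 1, 2, 3] (by decide)
  have h5 : cs.wordProd [5, 4, 1] ∈ H :=
    cox_mem2 cs H h3 h4 [3, 2] (by decide)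
  have h6 : cs.wordProd [5, 1, 3, 4] ∈ H :=
    cox_mem3 cs H h4 h3 (cox_mem_rev cs H h4) [6, 5, 2, 3, 4, 1, 0] (by decide)
  have h7 : cs.wordProd [5, 4, 1, 3, 1] ∈ H :=
    cox_mem2 cs H (cox_mem_rev cs H h5) (cox_mem_rev cs H h6) [1, 3, 4, 5, 0, 1] (by decide)
  have h8 : cs.wordProd [1] ∈ H :=
    cox_mem2 cs H h3 (cox_mem_rev cs H h7) [3, 2, 1, 2, 0, 1] (by decide)
  have h9 : cs.wordProd [3] ∈ H :=
    cox_mem2 cs H (cox_mem_rev cs H h3) h7 [3, 2, 0, 2, 1] (by decide)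
  have h10 : cs.wordProd [2, 1, 3, 4, 5, 2] ∈ H :=
    cox_mem2 cs H (cox_mem_rev cs H h1) h2 [0] (by decide)
  have h11 : cs.wordProd [5, 4, 2, 3, 1] ∈ H :=
    cox_mem3 cs H h2 h1 (cox_mem_rev cs H h2) [4, 5, 0, 1] (by decide)
  have h12 : cs.wordProd [3, 4, 5, 4, 3] ∈ H :=
    cox_mem2 cs H (cox_mem_rev cs H h10) (cox_mem_rev cs H h11) [4, 5, 0, 1, 2, 4, 3, 1, 3, 0, 1] (by decide)
  have h13 : cs.wordProd [4] ∈ H :=
    cox_mem3 cs H h6 h12 (cox_mem_rev cs H h6) [2, 4, 3, 0, 1, 3, 5, 4, 3, 0, 1, 2, 1] (by decide)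
  have h14 : cs.wordProd [2, 1, 3, 4, 5, 0] ∈ H :=
    cox_mem3 cs H ht0 hc (cox_mem_rev cs H ht0) [0, 0] (by decide)
  have h15 : cs.wordProd [1, 3, 4, 5, 0, 2] ∈ H :=
    cox_mem3 cs H h2 h14 (cox_mem_rev cs H h2) [0] (by decide)
  have h16 : cs.wordProd [2, 3, 4, 5, 4, 3] ∈ H :=
    cox_mem2 cs H (cox_mem_rev cs H hc) h15 [4, 5, 4, 5, 6, 7, 2, 4, 5, 6, 1, 2, 4, 0, 1, 2] (by decide)
  have h17 : cs.wordProd [3, 4, 3] ∈ H :=
    cox_mem3 cs H (cox_mem_rev cs H h3) h4 h3 [3, 4, 5, 6, 2, 0, 2, 4, 5, 1, 2, 4, 3] (by decide)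
  have h18 : cs.wordProd [5] ∈ H :=
    cox_mem3 cs H h16 h17 (cox_mem_rev cs H h16) [5, 4, 4, 2, 4, 3, 1, 2, 0, 1] (by decide)
  refine cox_eq_top cs H (fun i => ?_)
  fin_cases i
  · exact ht0
  · exact h8
  · exact h2
  · exact h9
  · exact h13
  · exact h18

theorem cox_gen_E7 :
    Subgroup.closure (({((List.finRange 7).map CoxeterMatrix.E₇.simple).prod} : Set CoxeterMatrix.E₇.Group) ∪
      ({CoxeterMatrix.E₇.simple 5})) = ⊤ := by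
  set cs := CoxeterMatrix.E₇.toCoxeterSystem with hcs
  set H := Subgroup.closure (({((List.finRange 7).map CoxeterMatrix.E₇.simple).prod} : Set CoxeterMatrix.E₇.Group) ∪
      ({CoxeterMatrix.E₇.simple 5})) with hH
  have hc : cs.wordProd [0, 1, 2, 3, 4, 5, 6] ∈ H := Subgroup.subset_closure (Or.inl rfl)
  have ht5 : cs.wordProd [5] ∈ H :=
    Subgroup.subset_closure (Or.inr (by rw [wordProd_singleton]; rfl))
  have h1 : cs.wordProd [4] ∈ H :=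
    cox_mem3 cs H (cox_mem_rev cs H hc) ht5 hc [6, 7, 5, 6, 4, 5, 3, 4, 1, 3, 2, 0, 1] (by decide)
  have h2 : cs.wordProd [4, 5, 4] ∈ H :=
    cox_mem3 cs H ht5 h1 (cox_mem_rev cs H ht5) [0] (by decide)
  have h3 : cs.wordProd [6] ∈ H :=
    cox_mem3 cs H hc ht5 (cox_mem_rev cs H hc) [5, 7, 6, 4, 5, 3, 4, 2, 3, 1, 2, 0, 1] (by decide)
  have h4 : cs.wordProd [0, 2, 1, 3, 4, 5] ∈ H :=
    cox_mem2 cs H hc h3 [6, 1] (by decide)
  have h5 : cs.wordProd [5, 4, 0, 2, 1, 3] ∈ H :=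
    cox_mem3 cs H h2 h4 (cox_mem_rev cs H h2) [0, 2, 3, 4, 5, 6, 8, 7, 6] (by decide)
  have h6 : cs.wordProd [3] ∈ H :=
    cox_mem3 cs H (cox_mem_rev cs H hc) h1 hc [6, 7, 5, 6, 4, 5, 2, 4, 3, 1, 2, 0, 1] (by decide)
  have h7 : cs.wordProd [5, 4, 3, 2, 1, 3, 0] ∈ H :=
    cox_mem2 cs H (cox_mem_rev cs H h4) h6 [5, 3] (by decide)
  have h8 : cs.wordProd [4, 0, 2, 1, 3, 0, 2] ∈ H :=
    cox_mem3 cs H h5 h7 (cox_mem_rev cs H h5) [5, 1, 2, 3, 0, 1, 2, 3, 5, 7, 9, 10, 8, 9, 7, 9, 6, 7, 8, 4, 5, 6, 7, 2, 1, 0] (by decide)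
  have h9 : cs.wordProd [0] ∈ H :=
    cox_mem3 cs H h8 h6 (cox_mem_rev cs H h8) [4, 2, 1, 2, 4, 6, 5, 3, 4, 3, 1, 2, 1, 0, 1] (by decide)
  have h10 : cs.wordProd [5, 4] ∈ H :=
    cox_mem2 cs H ht5 h1 [] (by decide)
  have h11 : cs.wordProd [0, 2, 1, 3] ∈ H :=
    cox_mem2 cs H h4 h10 [5, 4] (by decide)
  have h12 : cs.wordProd [2, 3, 4, 5, 0] ∈ H :=
    cox_mem2 cs H h11 (cox_mem_rev cs H h7) [3, 4, 2, 3, 0, 2, 1, 2, 3] (by decide)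
  have h13 : cs.wordProd [5, 4, 3] ∈ H :=
    cox_mem2 cs H h10 h6 [] (by decide)
  have h14 : cs.wordProd [5, 4, 3, 0, 2, 1] ∈ H :=
    cox_mem3 cs H h13 h5 (cox_mem_rev cs H h13) [8, 4, 5, 6, 7, 3, 4, 5, 6] (by decide)
  have h15 : cs.wordProd [1] ∈ H :=
    cox_mem2 cs H h12 h14 [3, 4, 2, 3, 1, 2, 1, 0] (by decide)
  have h16 : cs.wordProd [5, 3, 4, 3] ∈ H :=
    cox_mem3 cs H h6 h10 (cox_mem_rev cs H h6) [0] (by decide)
  have h17 : cs.wordProd [3, 4, 0, 2, 1] ∈ H :=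
    cox_mem2 cs H (cox_mem_rev cs H h7) h16 [6, 4, 6, 5, 2, 3, 2, 0, 1] (by decide)
  have h18 : cs.wordProd [2, 3] ∈ H :=
    cox_mem2 cs H h17 h8 [1, 2, 3, 4, 2, 1, 2, 4, 1, 2, 3, 2, 3, 0, 2] (by decide)
  have h19 : cs.wordProd [2] ∈ H :=
    cox_mem2 cs H h6 (cox_mem_rev cs H h18) [0] (by decide)
  refine cox_eq_top cs H (fun i => ?_)
  fin_cases i
  · exact h9
  · exact h15
  · exact h19
  · exact h6
  · exact h1
  · exact ht5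
  · exact h3

theorem cox_gen_E8 :
    Subgroup.closure (({((List.finRange 8).map CoxeterMatrix.E₈.simple).prod} : Set CoxeterMatrix.E₈.Group) ∪
      ({CoxeterMatrix.E₈.simple 5})) = ⊤ := by
  set cs := CoxeterMatrix.E₈.toCoxeterSystem with hcs
  set H := Subgroup.closure (({((List.finRange 8).map CoxeterMatrix.E₈.simple).prod} : Set CoxeterMatrix.E₈.Group) ∪
      ({CoxeterMatrix.E₈.simple 5})) with hH
  have hc : cs.wordProd [0, 1, 2, 3, 4, 5, 6, 7] ∈ H := Subgroup.subset_closure (Or.inl rfl)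
  have ht5 : cs.wordProd [5] ∈ H :=
    Subgroup.subset_closure (Or.inr (by rw [wordProd_singleton]; rfl))
  have h1 : cs.wordProd [6] ∈ H :=
    cox_mem3 cs H hc ht5 (cox_mem_rev cs H hc) [7, 8, 5, 7, 6, 4, 5, 3, 4, 2, 3, 1, 2, 0, 1] (by decide)
  have h2 : cs.wordProd [4] ∈ H :=
    cox_mem3 cs H (cox_mem_rev cs H hc) ht5 hc [7, 8, 6, 7, 5, 6, 4, 5, 2, 4, 3, 1, 2, 0, 1] (by decide)
  have h3 : cs.wordProd [5, 4] ∈ H :=
    cox_mem2 cs H ht5 h2 [] (by decide)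
  have h4 : cs.wordProd [6, 5, 4] ∈ H :=
    cox_mem2 cs H h1 h3 [] (by decide)
  have h5 : cs.wordProd [7] ∈ H :=
    cox_mem3 cs H hc h1 (cox_mem_rev cs H hc) [6, 8, 7, 5, 6, 4, 5, 3, 4, 2, 3, 1, 2, 0, 1] (by decide)
  have h6 : cs.wordProd [7, 0, 2, 1, 3, 4, 5, 6] ∈ H :=
    cox_mem3 cs H h5 hc (cox_mem_rev cs H h5) [8, 2] (by decide)
  have h7 : cs.wordProd [4, 5, 6, 7, 0, 2, 1, 3] ∈ H :=
    cox_mem3 cs H (cox_mem_rev cs H h4) h6 h4 [10, 9, 8] (by decide)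
  have h8 : cs.wordProd [4, 0, 2, 1, 3, 2, 1, 0] ∈ H :=
    cox_mem2 cs H hc (cox_mem_rev cs H h7) [7, 8, 9, 10, 11, 6, 7, 8, 9, 10, 5, 6, 7, 8, 9, 3, 5, 6, 7, 8, 5, 1, 2, 1, 0] (by decide)
  have h9 : cs.wordProd [0, 2, 1, 3, 4, 5, 6] ∈ H :=
    cox_mem2 cs H hc h5 [7, 1] (by decide)
  have h10 : cs.wordProd [0, 2, 1, 3] ∈ H :=
    cox_mem2 cs H h9 h4 [6, 5, 4] (by decide)
  have h11 : cs.wordProd [3] ∈ H :=
    cox_mem3 cs H (cox_mem_rev cs H hc) h2 hc [7, 8, 6, 7, 5, 6, 3, 5, 4, 2, 3, 1, 2, 0, 1] (by decide)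
  have h12 : cs.wordProd [2, 1, 3, 2, 1] ∈ H :=
    cox_mem3 cs H (cox_mem_rev cs H h10) h11 h10 [3, 4, 2, 0, 2, 3, 5, 1, 0] (by decide)
  have h13 : cs.wordProd [0] ∈ H :=
    cox_mem3 cs H h8 h12 (cox_mem_rev cs H h8) [6, 7, 8, 2, 3, 5, 1, 2, 3, 5, 7, 6, 4, 5, 6, 5, 2, 4, 3, 1, 2, 1, 0, 1] (by decide)
  have h14 : cs.wordProd [3, 0, 2, 1, 3, 4, 5, 6] ∈ H :=
    cox_mem2 cs H h11 h9 [] (by decide)
  have h15 : cs.wordProd [6, 5, 4, 3, 0, 2] ∈ H :=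
    cox_mem2 cs H (cox_mem_rev cs H h14) (cox_mem_rev cs H h10) [7, 4, 5, 6, 4, 6] (by decide)
  have h16 : cs.wordProd [5, 4, 3] ∈ H :=
    cox_mem2 cs H h3 h11 [] (by decide)
  have h17 : cs.wordProd [6, 5, 4, 3] ∈ H :=
    cox_mem2 cs H h1 h16 [] (by decide)
  have h18 : cs.wordProd [5, 6] ∈ H :=
    cox_mem2 cs H ht5 h1 [] (by decide)
  have h19 : cs.wordProd [6, 4] ∈ H :=
    cox_mem2 cs H h1 h2 [] (by decide)
  have h20 : cs.wordProd [4, 5, 6, 4, 5, 4] ∈ H :=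
    cox_mem3 cs H (cox_mem_rev cs H h18) h19 h18 [0, 2, 4, 1, 2, 0, 2] (by decide)
  have h21 : cs.wordProd [6, 5, 4, 0, 2, 1, 3] ∈ H :=
    cox_mem3 cs H h20 h9 (cox_mem_rev cs H h20) [3, 5, 6, 7, 8, 9, 11, 12, 1, 3, 4, 5, 6, 7, 8, 9, 11, 0, 1, 3, 4, 5, 6, 7, 9, 10, 9, 8, 7] (by decide)
  have h22 : cs.wordProd [6, 5, 4, 3, 0, 2, 1] ∈ H :=
    cox_mem3 cs H h17 h21 (cox_mem_rev cs H h17) [10, 6, 7, 8, 9, 5, 6, 7, 8, 4, 5, 6, 7] (by decide)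
  have h23 : cs.wordProd [1] ∈ H :=
    cox_mem2 cs H (cox_mem_rev cs H h15) h22 [5, 4, 3, 2, 1, 0] (by decide)
  have h24 : cs.wordProd [5, 6, 3] ∈ H :=
    cox_mem2 cs H h18 h11 [] (by decide)
  have h25 : cs.wordProd [0, 2, 1, 3, 4, 3] ∈ H :=
    cox_mem2 cs H h9 (cox_mem_rev cs H h24) [6, 7, 5, 6] (by decide)
  have h26 : cs.wordProd [3, 0, 2, 1, 3, 4, 3] ∈ H :=
    cox_mem2 cs H h11 h25 [] (by decide)
  have h27 : cs.wordProd [2, 3, 0, 2, 1, 3, 4, 3] ∈ H :=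
    cox_mem3 cs H h14 h10 (cox_mem_rev cs H h14) [7, 8, 9, 10, 11, 6, 7, 8, 9, 10, 5, 6, 7, 8, 10, 4, 2, 1, 2, 4, 6, 8, 9, 5, 1, 2, 3, 5, 7, 8, 2, 3, 0, 2, 3, 5, 6, 7, 2, 3] (by decide)
  have h28 : cs.wordProd [2] ∈ H :=
    cox_mem2 cs H h26 (cox_mem_rev cs H h27) [6, 5, 4, 3, 2, 1, 0] (by decide)
  refine cox_eq_top cs H (fun i => ?_)
  fin_cases i
  · exact h13
  · exact h23
  · exact h28
  · exact h11
  · exact h2
  · exact ht5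
  · exact h1
  · exact h5

end Cfsg.Agent.H46
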