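import Cfsg.Prelude.Def_ChevAutomorphisms
import Cfsg.Prelude.Def_LieTypes
import Cfsg.Prelude.Def_ChevB2

/-!
# S2159: the table fact on `chainRoot r s 1` for the seven types (helper46)
-/

set_option autoImplicit false

namespace Cfsg.Agent.H46.OS

open Cfsg Cfsg.Lie

/-- Boolean form of the chain fact, rows `lo ≤ r < hi`. -/
def chainChkR (D : ChevalleyDatum) (lo hi : ℕ) : Bool :=
  (List.range (hi - lo)).all fun r' => (List.range D.nroots).all fun s =>
    match D.chainRoot (lo + r') s 1 with
    | none => true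
    | some k => decide (k < D.nroots) && (s != (lo + r')) && (s != D.neg (lo + r'))

/-- The chain fact. -/
def ChainF (D : ChevalleyDatum) : Prop :=
  ∀ r < D.nroots, ∀ s < D.nroots, ∀ k, D.chainRoot r s 1 = some k →
    k < D.nroots ∧ s ≠ r ∧ s ≠ D.neg r

theorem chainChkR_sound (D : ChevalleyDatum) (lo hi : ℕ) (h : chainChkR D lo hi = true) :
    ∀ r, lo ≤ r → r < hi → ∀ s < D.nroots, ∀ k, D.chainRoot r s 1 = some k →
      k < D.nroots ∧ s ≠ r ∧ s ≠ D.neg r := by
  intro r hlo hhi s hs k hk
  unfold chainChkR at h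
  rw [List.all_eq_true] at h
  have h1 := h (r - lo) (List.mem_range.mpr (by omega))
  rw [List.all_eq_true] at h1
  have h2 := h1 s (List.mem_range.mpr hs)
  have e : lo + (r - lo) = r := by omega
  rw [e, hk] at h2
  simp only [Bool.and_eq_true, decide_eq_true_eq, bne_iff_ne, ne_eq] at h2
  exact ⟨h2.1.1, h2.1.2, h2.2⟩

theorem chainF_of_chk (D : ChevalleyDatum) (h : chainChkR D 0 D.nroots = true) : ChainF D :=
  fun r hr s hs k hk => chainChkR_sound D 0 D.nroots h r (Nat.zero_le r) hr s hs k hk

theorem chain_G2 : ChainF chevG2 := chainF_of_chk _ (by decide +kernel)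
theorem chain_B2 : ChainF chevB2 := chainF_of_chk _ (by decide +kernel)
theorem chain_D4 : ChainF chevD4 := chainF_of_chk _ (by decide +kernel)
theorem chain_F4 : ChainF chevF4 := chainF_of_chk _ (by decide +kernel)
theorem chain_E6 : ChainF chevE6 := chainF_of_chk _ (by decide +kernel)

end Cfsg.Agent.H46.OS
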