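import Cfsg.Agent.H46.OSDefs
import Cfsg.Agent.H80.OSDNGGen
import Cfsg.Agent.H23.Gens
import Cfsg.Agent.H23.ChainTab

/-!
# S2159: OS-DNF and OS-DNG without the closure of S2157 (helper46)

The conjugation formula `ĥ(χ) x_r(t) ĥ(χ)⁻¹ = x_r(χ(r) t)` is re-derived here from helper23's torus lemmas
(`charDiag_isTorus`, `isTorus_conj`), so that the closure of S2159 does not contain two copies of an
on-demand lemma (one in `H23/Sound2`, one in `H42/CharDiag`).  `dNF` is helper15's proof (H15/OSDNF.lean) with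
that formula; `dNG` is helper80's generic core `dNG_gen` (H80/OSDNGGen.lean) applied to the seven types.
-/

set_option autoImplicit false

namespace Cfsg.Agent.H46.OS

open Cfsg Cfsg.Lie Cfsg.Agent.H23 Cfsg.Agent.H23.Stb Cfsg.Agent.H23.StbD
open scoped MatrixGroups

universe u

theorem osc_charDiag_mul_inv {F : Type*} [Field F] (D : ChevalleyDatum) (χ : ℕ → Fˣ) :
    D.charDiag F χ * D.charDiag F (fun r => (χ r)⁻¹) = 1 := by
  unfold ChevalleyDatum.charDiag
  rw [Matrix.diagonal_mul_diagonal, ← Matrix.diagonal_one]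
  congr 1
  funext i
  rcases i with i | i <;> simp

theorem osc_charDiag_inv_mul {F : Type*} [Field F] (D : ChevalleyDatum) (χ : ℕ → Fˣ) :
    D.charDiag F (fun r => (χ r)⁻¹) * D.charDiag F χ = 1 := by
  unfold ChevalleyDatum.charDiag
  rw [Matrix.diagonal_mul_diagonal, ← Matrix.diagonal_one]
  congr 1
  funext i
  rcases i with i | i <;> simp

/-- The conjugation formula of S2157, from the torus lemmas. -/
theorem conjFormula {F : Type*} [Field F] (D : ChevalleyDatum) (hD : D ∈ Seven) (χ : ℕ → Fˣ)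
    (hχ : D.IsRootCharacter χ) (r : ℕ) (hr : r < D.nroots) (t : F) :
    D.charDiag F χ * D.x F r t * D.charDiag F (fun s => (χ s)⁻¹) = D.x F r ((χ r : F) * t) := by
  obtain ⟨z, η, w, rT, par, dep, hP⟩ := Cfsg.Agent.H23.packF_all (F := F) D hD
  have hS := hP.packB.sem
  have hTor := charDiag_isTorus (chainOK_all D hD) hP.packB.tab χ hχ
    (⟨D.charDiag F χ, D.charDiag F (fun r => (χ r)⁻¹), osc_charDiag_mul_inv D χ,
      osc_charDiag_inv_mul D χ⟩ : GL D.Idx F) rfl
  have h := isTorus_conj hS (chiExt D χ) _ hTor r hr t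
  have h2 := congrArg (fun g : GL D.Idx F => (g : Matrix D.Idx D.Idx F)) h
  simp only [Units.val_mul, xU_val] at h2
  rw [chiExt_root χ r hr] at h2
  exact h2

/-- **OS-DNF** (helper15's proof, with `conjFormula`). -/
theorem dNF : StDNF.{u} := by
  intro F _ _ D hD f d hf hd
  obtain ⟨σ, hσ⟩ := hf
  obtain ⟨χ, hχ, hd⟩ := hd
  let χ' : ℕ → Fˣ := fun r => Units.map ((σ : F →+* F) : F →* F) (χ r)
  have hχ' : D.IsRootCharacter χ' := by
    refine ⟨fun r hr => ?_, fun r s k hr hs hk => ?_⟩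
    · show Units.map ((σ : F →+* F) : F →* F) (χ (D.neg r)) = (Units.map ((σ : F →+* F) : F →* F) (χ r))⁻¹
      rw [hχ.1 r hr, map_inv]
    · show Units.map ((σ : F →+* F) : F →* F) (χ k)
        = Units.map ((σ : F →+* F) : F →* F) (χ r) * Units.map ((σ : F →+* F) : F →* F) (χ s)
      rw [hχ.2 r s k hr hs hk, map_mul]
  have hval : ∀ r, ((χ' r : Fˣ) : F) = σ (χ r : F) := fun r => rfl
  let U : GL D.Idx F := ⟨D.charDiag F χ', D.charDiag F (fun r => (χ' r)⁻¹),
    osc_charDiag_mul_inv D χ', osc_charDiag_inv_mul D χ'⟩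
  have hU : ((U : GL D.Idx F) : Matrix D.Idx D.Idx F) = D.charDiag F χ' := rfl
  have hU' : ((U⁻¹ : GL D.Idx F) : Matrix D.Idx D.Idx F) = D.charDiag F (fun r => (χ' r)⁻¹) := rfl
  let Ψ₁ : ↥(D.group F) →* GL D.Idx F := (D.group F).subtype.comp ((f * d : MulAut ↥(D.group F)).toMonoidHom)
  let Ψ₂ : ↥(D.group F) →* GL D.Idx F :=
    ((MulAut.conj U).toMonoidHom).comp ((D.group F).subtype.comp f.toMonoidHom)
  have h₁ : ∀ y : ↥(D.group F), Ψ₁ y = (f (d y) : GL D.Idx F) := fun y => rfl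
  have h₂ : ∀ y : ↥(D.group F), Ψ₂ y = U * (f y : GL D.Idx F) * U⁻¹ := fun y => rfl
  have hΨ : Ψ₁ = Ψ₂ := by
    refine MonoidHom.eq_of_eqOn_dense
      (s := (((↑) : ↥(D.group F) → GL D.Idx F) ⁻¹'
        {g : GL D.Idx F | ∃ (r : Fin D.nroots) (t : F), (g : Matrix D.Idx D.Idx F) = D.xMat F r t})) ?_ ?_
    · exact Subgroup.closure_closure_coe_preimage
    · rintro ⟨g, hg⟩ ⟨r, t, hrt⟩
      have hx : (((⟨g, hg⟩ : ↥(D.group F)) : GL D.Idx F) : Matrix D.Idx D.Idx F) = D.x F r.val t := by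
        show (g : Matrix D.Idx D.Idx F) = _
        rw [hrt]
        unfold ChevalleyDatum.x
        rw [dif_pos r.isLt]
      have h1 : ((d ⟨g, hg⟩ : GL D.Idx F) : Matrix D.Idx D.Idx F) = D.x F r.val ((χ r.val : F) * t) := by
        rw [hd, hx]
        exact conjFormula D hD χ hχ r.val r.isLt t
      have h2 := hσ (d ⟨g, hg⟩) r.val _ r.isLt h1
      have h3 := hσ ⟨g, hg⟩ r.val t r.isLt hx
      apply Units.ext
      rw [h₁, h₂, h2, Units.val_mul, Units.val_mul, h3, hU, hU',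
        conjFormula D hD χ' hχ' r.val r.isLt (σ t), hval, map_mul]
  refine ⟨χ', hχ', fun g => ?_⟩
  have h := congrArg (fun Ψ : ↥(D.group F) →* GL D.Idx F =>
    ((Ψ (f⁻¹ g) : GL D.Idx F) : Matrix D.Idx D.Idx F)) hΨ
  simp only [h₁, h₂, Units.val_mul, hU, hU', MulAut.apply_inv_self] at h
  exact h

/-- **OS-DNG** (helper80's generic core, with `conjFormula`). -/
theorem dNG (h1 : StHatEx.{u}) (h2 : StHatAut.{u}) (h3 : StRootChar.{u}) : StDNG.{u} := by
  intro F _ _ D hD m hm hchain g d hg hd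
  obtain ⟨z, η, w, rT, par, dep, hP⟩ := Cfsg.Agent.H23.packF_all (F := F) D hD
  exact Cfsg.Agent.H80.OS.dNG_gen h1 h2 h3 F D z η hP.packB
    (fun χ hχ r hr t => conjFormula D hD χ hχ r hr t)
    (fun a b h => Cfsg.Agent.H23.hom_ext_fund hP.packB.sem hP.packB.semN hP.packB.tab a b h)
    m hm hchain g d hg hd

end Cfsg.Agent.H46.OS
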