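import Cfsg.Agent.H27.OSGraph2Core
import Cfsg.Agent.H23.Gens

/-!
# S2159: OS-GRAPH2 from helper27's core (wrapper with `packF_all`; helper46)
-/

set_option autoImplicit false

namespace Cfsg.Agent.H46.OS

open Cfsg Cfsg.Lie

universe u

theorem graph2 (h : StFEx.{u}) : StGraph2.{u} := by
  intro F _ _ D hD hsym
  obtain ⟨z, η, w, rT, par, dep, hP⟩ := Cfsg.Agent.H23.packF_all (F := F) D hD
  exact Cfsg.Agent.H27.OS.graph2_core D
    (fun a b hab => Cfsg.Agent.H23.hom_ext_fund hP.packB.sem hP.packB.semN hP.packB.tab a b hab)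
    hP.packB.tab.simple_lt hP.packB.tab.neg_lt (h F D hD) hsym

example : StFEx.{u} → StGraph2.{u} := graph2

end Cfsg.Agent.H46.OS
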