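import Cfsg.Agent.H46.OSDefs
import Cfsg.Agent.S2160

/-!
# S2159: assembly (helper46)
-/

set_option autoImplicit false

namespace Cfsg.Agent.H46.OS

open Cfsg Cfsg.Lie Cfsg.Agent.H23 Cfsg.Agent.H23.Stb
open scoped MatrixGroups

universe u

theorem main (hDec : StDec.{u}) (hDC : StDComm.{u}) (hFC : StFCyc.{u}) (hDNF : StDNF.{u})
    (hDNG : ∀ (F : Type u) [Field F] [Finite F] (D : ChevalleyDatum), D ∈ Seven →
      ∀ g d : MulAut ↥(D.group F), D.IsGraphAut g → D.IsDiagonalAut d → D.IsDiagonalAut (g * d * g⁻¹))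
    (hG2 : StGraph2.{u}) (hG6 : StGraph6.{u}) (hAN : StAbsN.{u}) (hAI : StAbsI.{u})
    (hSym : ∀ D ∈ Seven, D ≠ chevD4 → StSym2 D)
    {F : Type u} [Field F] [Finite F] (D : ChevalleyDatum) (hD : D ∈ Seven)
    (Dbar Fbar : Subgroup (Cfsg.Out ↥(D.group F)))
    (hDbar : Dbar = (Subgroup.closure {φ : MulAut ↥(D.group F) | D.IsDiagonalAut φ}).map
      (QuotientGroup.mk' (Cfsg.Inn ↥(D.group F))))
    (hFbar : Fbar = (Subgroup.closure {φ : MulAut ↥(D.group F) | D.IsFieldAut φ}).map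
      (QuotientGroup.mk' (Cfsg.Inn ↥(D.group F)))) :
    Dbar.Normal ∧ IsMulCommutative ↥Dbar ∧ IsCyclic ↥Fbar ∧ (Dbar ⊔ Fbar).Normal ∧
      ((Dbar ⊔ Fbar).index = 1 ∨ (Dbar ⊔ Fbar).index = 2 ∨
        ((Dbar ⊔ Fbar).index = 6 ∧ ¬ commutator (Cfsg.Out ↥(D.group F)) ≤ Dbar ⊔ Fbar)) := by
  have h1 : ∀ d ∈ {φ : MulAut ↥(D.group F) | D.IsDiagonalAut φ},
      ∀ d' ∈ {φ : MulAut ↥(D.group F) | D.IsDiagonalAut φ}, d * d' = d' * d :=
    fun d hd d' hd' => hDC F D d d' hd hd'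
  have h2 : ∃ φ0 : MulAut ↥(D.group F), ∀ f ∈ {φ : MulAut ↥(D.group F) | D.IsFieldAut φ},
      f ∈ Subgroup.zpowers φ0 := hFC F D hD
  have h3 : ∀ f ∈ {φ : MulAut ↥(D.group F) | D.IsFieldAut φ},
      ∀ d ∈ {φ : MulAut ↥(D.group F) | D.IsDiagonalAut φ},
      f * d * f⁻¹ ∈ {φ : MulAut ↥(D.group F) | D.IsDiagonalAut φ} :=
    fun f hf d hd => hDNF F D hD f d hf hd
  have h4 : ∀ g ∈ {φ : MulAut ↥(D.group F) | D.IsGraphAut φ},
      ∀ d ∈ {φ : MulAut ↥(D.group F) | D.IsDiagonalAut φ},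
      g * d * g⁻¹ ∈ {φ : MulAut ↥(D.group F) | D.IsDiagonalAut φ} :=
    fun g hg d hd => hDNG F D hD g d hg hd
  have h5 : ∀ g ∈ {φ : MulAut ↥(D.group F) | D.IsGraphAut φ},
      ∀ f ∈ {φ : MulAut ↥(D.group F) | D.IsFieldAut φ}, g * f = f * g := by
    intro g hg f hf
    apply MulEquiv.ext
    intro y
    exact (Cfsg.Agent.S2160.result D hD f g hf hg y).symm
  have h6 : ∀ θ : MulAut ↥(D.group F), ∃ i ∈ Cfsg.Inn ↥(D.group F),
      ∃ d ∈ {φ : MulAut ↥(D.group F) | D.IsDiagonalAut φ},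
      ∃ g ∈ {φ : MulAut ↥(D.group F) | D.IsGraphAut φ},
      ∃ f ∈ {φ : MulAut ↥(D.group F) | D.IsFieldAut φ}, θ = i * d * g * f := by
    intro θ
    obtain ⟨x, d, g, f, hd, hg, hf, h⟩ := hDec F D hD θ
    refine ⟨MulAut.conj x, ⟨x, rfl⟩, d, hd, g, hg, f, hf, ?_⟩
    apply MulEquiv.ext
    intro y
    rw [h y]
    rfl
  obtain ⟨hn, hc, hcy, hn2, hq⟩ := hAN (MulAut ↥(D.group F)) (Cfsg.Inn ↥(D.group F)) _ _ _
    h1 h2 h3 h4 h5 h6 Dbar Fbar hDbar hFbar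
  refine ⟨hn, hc, hcy, hn2, ?_⟩
  haveI := hn2
  have hFle : ∀ f : MulAut ↥(D.group F), D.IsFieldAut f →
      (QuotientGroup.mk' (Cfsg.Inn ↥(D.group F)) f) ∈ Dbar ⊔ Fbar := by
    intro f hf
    apply (le_sup_right : Fbar ≤ Dbar ⊔ Fbar)
    rw [hFbar]
    exact Subgroup.mem_map_of_mem _ (Subgroup.subset_closure hf)
  apply hAI (Cfsg.Out ↥(D.group F)) (Dbar ⊔ Fbar)
    ((QuotientGroup.mk' (Cfsg.Inn ↥(D.group F))) '' {φ : MulAut ↥(D.group F) | D.IsGraphAut φ})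
  · intro q
    obtain ⟨g, hg, h⟩ := hq q
    exact ⟨_, ⟨g, hg, rfl⟩, h⟩
  · by_cases h4 : D = chevD4
    · subst h4
      right
      obtain ⟨a, b, ha, hb, hab, hall⟩ := hG6 F
      refine ⟨QuotientGroup.mk' _ a, QuotientGroup.mk' _ b, ?_, ?_, ?_, ?_⟩
      · rw [← map_mul, ha, map_one]
      · rw [← map_mul, hb, map_one]
      · rw [← map_mul, ← map_pow, hab, map_one]
      · rintro _ ⟨g, hg, rfl⟩
        rcases hall g hg with h | h | h | h | h | h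
        · left; rw [h, map_one]
        · right; left; rw [h]
        · right; right; left; rw [h]
        · right; right; right; left; rw [h, map_mul]
        · right; right; right; right; left; rw [h, map_mul]
        · right; right; right; right; right; rw [h, map_mul, map_mul]
    · left
      obtain ⟨a, ha, hall⟩ := hG2 F D hD (hSym D hD h4)
      refine ⟨QuotientGroup.mk' _ a, ?_, ?_⟩
      · rw [← map_mul]
        exact hFle _ ha
      · rintro _ ⟨g, hg, rfl⟩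
        rcases hall g hg with h | h
        · left; rw [h, map_one]
        · right; rw [h]

end Cfsg.Agent.H46.OS
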