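import Cfsg.Agent.H46.OSDefs
import Cfsg.Agent.H46.OSChain
import Cfsg.Agent.H46.OSChain2
import Cfsg.Agent.H56.StbCoordG2
import Cfsg.Agent.H56.StbCoordB2
import Cfsg.Agent.H56.StbCoordD4
import Cfsg.Agent.H56.StbCoordF4
import Cfsg.Agent.H56.StbCoordE6
import Cfsg.Agent.H56.StbCoordE7
import Cfsg.Agent.H56.StbCoordE8
import Cfsg.Agent.H27.OSSym

/-!
# S2159: the table facts for the seven types, collected (helper46)
-/

set_option autoImplicit false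

namespace Cfsg.Agent.H46.OS

open Cfsg Cfsg.Lie Cfsg.Agent.H23 Cfsg.Agent.H23.Stb

theorem coordChain_all (D : ChevalleyDatum) (hD : D ∈ Seven) : ∃ m : ℕ → ℕ → ℤ, Coord D m ∧ ChainF D := by
  simp only [Seven, List.mem_cons, List.not_mem_nil, or_false] at hD
  rcases hD with rfl | rfl | rfl | rfl | rfl | rfl | rfl
  · exact ⟨_, Cfsg.Agent.H56.StbG.g2_coord, chain_G2⟩
  · exact ⟨_, Cfsg.Agent.H56.StbG.b2_coord, chain_B2⟩
  · exact ⟨_, Cfsg.Agent.H56.StbG.d4_coord, chain_D4⟩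
  · exact ⟨_, Cfsg.Agent.H56.StbG.f4_coord, chain_F4⟩
  · exact ⟨_, Cfsg.Agent.H56.StbG.e6_coord, chain_E6⟩
  · exact ⟨_, Cfsg.Agent.H56.StbG.e7_coord, chain_E7⟩
  · exact ⟨_, Cfsg.Agent.H56.StbG.e8_coord, chain_E8⟩

theorem d4_ne : chevG2 ≠ chevD4 ∧ chevB2 ≠ chevD4 ∧ chevF4 ≠ chevD4 ∧ chevE6 ≠ chevD4 ∧
    chevE7 ≠ chevD4 ∧ chevE8 ≠ chevD4 := by
  refine ⟨?_, ?_, ?_, ?_, ?_, ?_⟩ <;> intro h <;>
    · have := congrArg ChevalleyDatum.nroots h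
      revert this
      decide

theorem sym_all (D : ChevalleyDatum) (hD : D ∈ Seven) (hne : D ≠ chevD4) : StSym2 D := by
  simp only [Seven, List.mem_cons, List.not_mem_nil, or_false] at hD
  rcases hD with rfl | rfl | rfl | rfl | rfl | rfl | rfl
  · exact Cfsg.Agent.H27.OS.sym2_G2
  · exact Cfsg.Agent.H27.OS.sym2_B2
  · exact absurd rfl hne
  · exact Cfsg.Agent.H27.OS.sym2_F4
  · exact Cfsg.Agent.H27.OS.sym2_E6
  · exact Cfsg.Agent.H27.OS.sym2_E7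
  · exact Cfsg.Agent.H27.OS.sym2_E8

end Cfsg.Agent.H46.OS
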