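import Cfsg.Agent.H78.OdDefs

/-!
# OD-ABS (helper46, for helper78's S2608 `m = 4` half)

Pure group theory: the structure of `A ⧸ I` from a decomposition `A = I · Dg · Φ(S₃) · Ψ(C)`.
In `Q = A ⧸ I`: `V` = image of `Dg` (a four-group), `S` = image of `Φ` (of order 6, faithful on `V`),
`Z` = image of `Ψ` (cyclic of order `f`, centralising `V ⊔ S = V · S` and meeting it trivially).
-/

set_option autoImplicit false

namespace Cfsg.Agent.H46.Od

open Cfsg.Agent.H78.Od

universe u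

theorem abs (h : StS4.{u}) : StAbs.{u} := by
  intro A _ _ I _ C _ f Dg Φ Ψ hC hcard hf h1 hmul hinv hcomm hsq hfour hGN hFaith hFD hFG hNI hdec
  obtain ⟨a, ha, b, hb, haI, hbI, habI, hcases⟩ := hfour
  let π : A →* A ⧸ I := QuotientGroup.mk' I
  have key : ∀ x : A, π x = 1 ↔ x ∈ I := fun x => QuotientGroup.eq_one_iff x
  have hπs : Function.Surjective π := QuotientGroup.mk'_surjective I
  let DgS : Subgroup A :=
    { carrier := Dg
      mul_mem' := fun {x y} hx hy => hmul x hx y hy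
      one_mem' := h1
      inv_mem' := fun {x} hx => hinv x hx }
  let V : Subgroup (A ⧸ I) := DgS.map π
  let S : Subgroup (A ⧸ I) := (π.comp Φ).range
  let Z : Subgroup (A ⧸ I) := (π.comp Ψ).range
  have hΦinj : Function.Injective (π.comp Φ) := by
    rw [injective_iff_map_eq_one]
    intro ρ hρ
    have : (1 : A) * Φ ρ * Ψ 1 ∈ I := by
      rw [map_one, one_mul, mul_one]; exact (key _).1 hρ
    exact (hNI 1 h1 ρ 1 this).1
  have hVmem : ∀ d ∈ Dg, π d ∈ V := fun d hd => Subgroup.mem_map_of_mem π (show d ∈ DgS from hd)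
  have hVel : ∀ x ∈ V, ∃ d ∈ Dg, π d = x := by
    intro x hx
    obtain ⟨d, hd, rfl⟩ := Subgroup.mem_map.1 hx
    exact ⟨d, hd, rfl⟩
  have hab' : a * b ∉ I := by
    intro hab
    apply habI
    have : a * b⁻¹ = (a * b) * (b * b)⁻¹ := by group
    rw [this]
    exact I.mul_mem hab (I.inv_mem (hsq b hb))
  have hVset : (V : Set (A ⧸ I)) = {1, π a, π b, π a * π b} := by
    ext x
    constructor
    · intro hx
      obtain ⟨d, hd, rfl⟩ := hVel x hx
      rcases hcases d hd with hc | hc | hc | hc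
      · left; exact (key d).2 hc
      · right; left
        have := (key _).2 hc
        rw [map_mul, map_inv, mul_inv_eq_one] at this
        exact this
      · right; right; left
        have := (key _).2 hc
        rw [map_mul, map_inv, mul_inv_eq_one] at this
        exact this
      · right; right; right
        have := (key _).2 hc
        rw [map_mul, map_inv, mul_inv_eq_one, map_mul] at this
        exact this
    · rintro (rfl | rfl | rfl | rfl)
      · exact V.one_mem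
      · exact hVmem a ha
      · exact hVmem b hb
      · exact V.mul_mem (hVmem a ha) (hVmem b hb)
  have hVcard : Nat.card ↥V = 4 := by
    have e1 : (1 : A ⧸ I) ≠ π a := fun e => haI ((key a).1 e.symm)
    have e2 : (1 : A ⧸ I) ≠ π b := fun e => hbI ((key b).1 e.symm)
    have e3 : (1 : A ⧸ I) ≠ π a * π b := fun e => hab' ((key _).1 (by rw [map_mul]; exact e.symm))
    have e4 : π a ≠ π b := by
      intro e
      apply habI
      apply (key _).1
      rw [map_mul, map_inv, e, mul_inv_cancel]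
    have e5 : π a ≠ π a * π b := by
      intro e
      apply e2
      exact mul_left_cancel (a := π a) (by rw [mul_one]; exact e)
    have e6 : π b ≠ π a * π b := by
      intro e
      apply e1
      exact mul_right_cancel (b := π b) (by rw [one_mul]; exact e)
    show Nat.card (V : Set (A ⧸ I)) = 4
    rw [Nat.card_coe_set_eq, hVset]
    rw [Set.ncard_insert_of_notMem, Set.ncard_insert_of_notMem, Set.ncard_insert_of_notMem,
      Set.ncard_singleton]
    · simp only [Set.mem_singleton_iff]; exact e6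
    · simp only [Set.mem_insert_iff, Set.mem_singleton_iff, not_or]; exact ⟨e4, e5⟩
    · simp only [Set.mem_insert_iff, Set.mem_singleton_iff, not_or]; exact ⟨e1, e2, e3⟩
  have hScard : Nat.card ↥S = 6 := by
    have : Nat.card ↥S = Nat.card (Equiv.Perm (Fin 3)) :=
      (Nat.card_congr (MonoidHom.ofInjective hΦinj).toEquiv).symm
    rw [this, Nat.card_eq_fintype_card, Fintype.card_perm, Fintype.card_fin]
    rfl
  have hnorm : ∀ s ∈ S, ∀ v ∈ V, s * v * s⁻¹ ∈ V := by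
    rintro s ⟨ρ, rfl⟩ v hv
    obtain ⟨d, hd, rfl⟩ := hVel v hv
    show π (Φ ρ) * π d * (π (Φ ρ))⁻¹ ∈ V
    rw [← map_inv, ← map_mul, ← map_mul]
    exact hVmem _ (hGN ρ d hd)
  have hVS : V ⊓ S = ⊥ := by
    rw [eq_bot_iff]
    rintro x ⟨hxV, hxS⟩
    obtain ⟨d, hd, rfl⟩ := hVel x hxV
    obtain ⟨ρ, hρ⟩ := hxS
    have hρ' : π (Φ ρ) = π d := hρ
    have h1' : d⁻¹ * Φ ρ * Ψ 1 ∈ I := by
      rw [map_one, mul_one]
      apply (key _).1
      rw [map_mul, map_inv, hρ', inv_mul_cancel]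
    have hρ1 := (hNI d⁻¹ (hinv d hd) ρ 1 h1').1
    rw [Subgroup.mem_bot, ← hρ', hρ1, map_one, map_one]
  have hfaith : ∀ s ∈ S, (∀ v ∈ V, s * v = v * s) → s = 1 := by
    rintro s ⟨ρ, rfl⟩ hs
    by_contra hne
    have hρ : ρ ≠ 1 := by
      rintro rfl
      exact hne (map_one _)
    obtain ⟨d, hd, hdI⟩ := hFaith ρ hρ
    apply hdI
    apply (key _).1
    have this' : π (Φ ρ) * π d = π d * π (Φ ρ) := hs (π d) (hVmem d hd)
    rw [map_mul, map_mul, map_mul, map_inv, map_inv, this', mul_inv_cancel_right, mul_inv_cancel]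
  obtain ⟨e1⟩ := h (A ⧸ I) V S hVcard hScard hnorm hVS hfaith
  have hZV : ∀ z ∈ Z, ∀ v ∈ V, z * v = v * z := by
    rintro z ⟨σ, rfl⟩ v hv
    obtain ⟨d, hd, rfl⟩ := hVel v hv
    have := (key _).2 (hFD σ d hd)
    rw [map_mul, map_mul, map_mul, map_inv, map_inv] at this
    have h3 := mul_inv_eq_one.1 this
    exact mul_inv_eq_iff_eq_mul.1 h3
  have hZS : ∀ z ∈ Z, ∀ s ∈ S, z * s = s * z := by
    rintro z ⟨σ, rfl⟩ s ⟨ρ, rfl⟩
    show π (Ψ σ) * π (Φ ρ) = π (Φ ρ) * π (Ψ σ)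
    rw [← map_mul, ← map_mul, hFG]
  have hVSel : ∀ x ∈ V ⊔ S, ∃ d ∈ Dg, ∃ ρ, x = π d * π (Φ ρ) := by
    let W : Subgroup (A ⧸ I) :=
      { carrier := {x | ∃ d ∈ Dg, ∃ ρ, x = π d * π (Φ ρ)}
        one_mem' := ⟨1, h1, 1, by simp⟩
        mul_mem' := by
          rintro _ _ ⟨d, hd, ρ, rfl⟩ ⟨d', hd', ρ', rfl⟩
          refine ⟨d * (Φ ρ * d' * (Φ ρ)⁻¹), hmul _ hd _ (hGN ρ d' hd'), ρ * ρ', ?_⟩
          simp only [map_mul, map_inv]
          group
        inv_mem' := by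
          rintro _ ⟨d, hd, ρ, rfl⟩
          refine ⟨Φ ρ⁻¹ * d⁻¹ * (Φ ρ⁻¹)⁻¹, hGN ρ⁻¹ _ (hinv d hd), ρ⁻¹, ?_⟩
          simp only [map_mul, map_inv]
          group }
    have hle : V ⊔ S ≤ W := by
      apply sup_le
      · intro x hx
        obtain ⟨d, hd, rfl⟩ := hVel x hx
        exact ⟨d, hd, 1, by simp⟩
      · rintro x ⟨ρ, rfl⟩
        exact ⟨1, h1, ρ, by simp⟩
    intro x hx
    exact hle hx
  subst hcard
  let e2 : Multiplicative (ZMod (Nat.card C)) ≃* C := zmodCyclicMulEquiv hC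
  let φ1 : Equiv.Perm (Fin 4) →* A ⧸ I := (V ⊔ S).subtype.comp e1.symm.toMonoidHom
  let φ2 : Multiplicative (ZMod (Nat.card C)) →* A ⧸ I := π.comp (Ψ.comp e2.toMonoidHom)
  have hφ1 : ∀ x, φ1 x ∈ V ⊔ S := fun x => (e1.symm x).2
  have hφ2 : ∀ z, φ2 z ∈ Z := fun z => ⟨e2 z, rfl⟩
  have hZVS : ∀ z ∈ Z, ∀ x ∈ V ⊔ S, x * z = z * x := by
    intro z hz x hx
    obtain ⟨d, hd, ρ, rfl⟩ := hVSel x hx
    have hs1 : z * π (Φ ρ) = π (Φ ρ) * z := hZS z hz _ ⟨ρ, rfl⟩
    have hv1 : z * π d = π d * z := hZV z hz _ (hVmem d hd)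
    rw [mul_assoc, ← hs1, ← mul_assoc, ← hv1, mul_assoc]
  let φ : Equiv.Perm (Fin 4) × Multiplicative (ZMod (Nat.card C)) →* A ⧸ I :=
    MonoidHom.noncommCoprod φ1 φ2 (fun x z => hZVS _ (hφ2 z) _ (hφ1 x))
  have hφinj : Function.Injective φ := by
    rw [injective_iff_map_eq_one]
    rintro ⟨x, z⟩ hxz
    have hxz' : φ1 x * φ2 z = 1 := hxz
    obtain ⟨d, hd, ρ, hx⟩ := hVSel _ (hφ1 x)
    have hz : φ2 z = π (Ψ (e2 z)) := rfl
    have hI : d * Φ ρ * Ψ (e2 z) ∈ I := by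
      apply (key _).1
      rw [map_mul, map_mul, ← hx, ← hz]; exact hxz'
    obtain ⟨hρ, hσ⟩ := hNI d hd ρ (e2 z) hI
    have hz1 : z = 1 := by
      have : e2 z = e2 1 := by rw [hσ, map_one]
      exact e2.injective this
    have hx1 : φ1 x = 1 := by
      rw [hz1, map_one, mul_one] at hxz'
      exact hxz'
    have hx1' : x = 1 := by
      have h4 : (e1.symm x : A ⧸ I) = 1 := hx1
      have h5 : e1.symm x = 1 := Subtype.ext h4
      have : e1.symm x = e1.symm 1 := by rw [h5, map_one]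
      exact e1.symm.injective this
    rw [hx1', hz1]; rfl
  have hφsurj : Function.Surjective φ := by
    intro q
    obtain ⟨θ, rfl⟩ := hπs q
    obtain ⟨i, hi, d, hd, ρ, σ, rfl⟩ := hdec θ
    have hmem : π d * π (Φ ρ) ∈ V ⊔ S :=
      mul_mem (Subgroup.mem_sup_left (hVmem d hd)) (Subgroup.mem_sup_right ⟨ρ, rfl⟩)
    refine ⟨(e1 ⟨_, hmem⟩, e2.symm σ), ?_⟩
    show φ1 (e1 ⟨_, hmem⟩) * φ2 (e2.symm σ) = _
    have hφ1v : φ1 (e1 ⟨_, hmem⟩) = π d * π (Φ ρ) := by
      show ((e1.symm (e1 ⟨_, hmem⟩) : ↥(V ⊔ S)) : A ⧸ I) = _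
      rw [MulEquiv.symm_apply_apply]
    have hφ2v : φ2 (e2.symm σ) = π (Ψ σ) := by
      show π (Ψ (e2 (e2.symm σ))) = _
      rw [MulEquiv.apply_symm_apply]
    rw [hφ1v, hφ2v, map_mul, map_mul, map_mul, (key i).2 hi, one_mul]
  exact ⟨(MulEquiv.ofBijective φ ⟨hφinj, hφsurj⟩).symm⟩


example (h : StS4.{u}) : StAbs.{u} := abs h

end Cfsg.Agent.H46.Od
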