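import Cfsg.Agent.H23.StbDefs
import Cfsg.Prelude.Def_KGroupFacts

/-!
# S2124 (outer automorphisms of `E₇(q)`): definitions and exact statements of the team-project pieces (helper46)

Built on helper23's S2125 project (`Cfsg/Agent/H23/StbDefs.lean`).  New ingredients: diagonal automorphisms
(obtained by descent from the torus over the algebraic closure), the subgroup `autT` of the automorphisms
mapping every fundamental root subgroup and its opposite to itself, and a count.
-/

set_option autoImplicit false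

namespace Cfsg.Agent.H46.OutE

open Cfsg.Lie Cfsg.Agent.H23 Cfsg.Agent.H23.Stb

universe u

variable {D : ChevalleyDatum} {F : Type u} [Field F] {z η : ℕ → ℕ → ℤ}

/-- Root elements are injective in the parameter. -/
theorem xU_inj (hP : PackB D F z η) (r : ℕ) (hr : r < D.nroots) (a b : F)
    (h : xU hP.sem r a = xU hP.sem r b) : a = b := by
  have h1 : xU hP.sem r (a + -b) = 1 := by
    rw [← xU_mul, ← xU_inv, h, mul_inv_cancel]
  have h2 := xU_eq_one_imp hP.sem hP.tab hP.tab2 r hr _ h1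
  linear_combination h2

theorem xG_inj (hP : PackB D F z η) (r : ℕ) (hr : r < D.nroots) (a b : F)
    (h : xG hP.sem r a = xG hP.sem r b) : a = b :=
  xU_inj hP r hr a b (congrArg Subtype.val h)

/-- `θ` maps the root subgroup of every fundamental root and of its negative to itself, through additive
bijections of the field. -/
def FixFund (hS : Sem D F z) (θ : ↥(D.group F) ≃* ↥(D.group F)) : Prop :=
  ∀ i < D.rank, ∃ φ ψ : F ≃+ F,
    (∀ t : F, θ (xG hS (D.simple i) t) = xG hS (D.simple i) (φ t)) ∧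
    (∀ t : F, θ (xG hS (D.neg (D.simple i)) t) = xG hS (D.neg (D.simple i)) (ψ t))

/-- The same, normalised: `θ` fixes every `x_{α_i}(1)`. -/
def NormFund (hS : Sem D F z) (θ : ↥(D.group F) ≃* ↥(D.group F)) : Prop :=
  ∀ i < D.rank, ∃ φ ψ : F ≃+ F,
    (∀ t : F, θ (xG hS (D.simple i) t) = xG hS (D.simple i) (φ t)) ∧
    (∀ t : F, θ (xG hS (D.neg (D.simple i)) t) = xG hS (D.neg (D.simple i)) (ψ t)) ∧ φ 1 = 1

/-- The subgroup of the automorphisms satisfying `FixFund`. -/
def autT (hS : Sem D F z) : Subgroup (MulAut ↥(D.group F)) where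
  carrier := {θ | FixFund hS θ}
  one_mem' := fun i _ => ⟨AddEquiv.refl F, AddEquiv.refl F, fun _ => rfl, fun _ => rfl⟩
  mul_mem' := by
    intro a b ha hb i hi
    obtain ⟨φ₁, ψ₁, h1, h2⟩ := ha i hi
    obtain ⟨φ₂, ψ₂, h3, h4⟩ := hb i hi
    refine ⟨φ₂.trans φ₁, ψ₂.trans ψ₁, fun t => ?_, fun t => ?_⟩
    · show a (b _) = _
      rw [h3, h1]; rfl
    · show a (b _) = _
      rw [h4, h2]; rfl
  inv_mem' := by
    intro a ha i hi
    obtain ⟨φ, ψ, h1, h2⟩ := ha i hi
    refine ⟨φ.symm, ψ.symm, fun t => ?_, fun t => ?_⟩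
    · show a.symm _ = _
      rw [MulEquiv.symm_apply_eq, h1, AddEquiv.apply_symm_apply]
    · show a.symm _ = _
      rw [MulEquiv.symm_apply_eq, h2, AddEquiv.apply_symm_apply]

theorem mem_autT (hS : Sem D F z) (θ : MulAut ↥(D.group F)) : θ ∈ autT hS ↔ FixFund hS θ := Iff.rfl

/-- Every family of non-zero scalars on the fundamental roots is realised by an automorphism acting on every
root subgroup through a scalar. -/
def HasDAut (hS : Sem D F z) : Prop :=
  ∀ c : ℕ → F, (∀ i < D.rank, c i ≠ 0) →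
    ∃ (χ : ℕ → F) (δ : ↥(D.group F) ≃* ↥(D.group F)), (∀ r < D.nroots, χ r ≠ 0) ∧
      (∀ r < D.nroots, ∀ u : F, δ (xG hS r u) = xG hS r (χ r * u)) ∧
      ∀ i < D.rank, χ (D.simple i) = c i ∧ χ (D.neg (D.simple i)) = (c i)⁻¹

/-- A normalised automorphism is the entrywise action of a field automorphism. -/
def HasAsm2N (hS : Sem D F z) : Prop :=
  ∀ θ : ↥(D.group F) ≃* ↥(D.group F), NormFund hS θ →
    ∃ σ : F ≃+* F, ∀ y : ↥(D.group F),
      ((θ y : ↥(D.group F)) : GL D.Idx F) = glMap D (σ : F →+* F) (y : GL D.Idx F)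

/-- Every automorphism in `autT` acts on every root subgroup by a scalar times a field automorphism. -/
def HasDecomp (hS : Sem D F z) : Prop :=
  ∀ θ : ↥(D.group F) ≃* ↥(D.group F), FixFund hS θ →
    ∃ (χ : ℕ → F) (σ : F ≃+* F), (∀ r < D.nroots, χ r ≠ 0) ∧
      (∀ i < D.rank, χ (D.neg (D.simple i)) = (χ (D.simple i))⁻¹) ∧
      ∀ r < D.nroots, ∀ t : F, θ (xG hS r t) = xG hS r (χ r * σ t)

/-- Field automorphisms act entrywise on the group. -/
def HasField (D : ChevalleyDatum) (F : Type u) [Field F] : Prop :=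
  ∀ σ : F ≃+* F, ∃ φ : ↥(D.group F) ≃* ↥(D.group F), ∀ g : ↥(D.group F),
    ((φ g : ↥(D.group F)) : GL D.Idx F) = glMap D (σ : F →+* F) (g : GL D.Idx F)

/-- Two endomorphisms agreeing on the fundamental root elements and their opposites are equal. -/
def HomExt (hS : Sem D F z) : Prop :=
  ∀ a b : ↥(D.group F) →* ↥(D.group F),
    (∀ i < D.rank, ∀ t : F, a (xG hS (D.simple i) t) = b (xG hS (D.simple i) t) ∧
      a (xG hS (D.neg (D.simple i)) t) = b (xG hS (D.neg (D.simple i)) t)) → a = b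

/-- A matrix commuting with the fundamental root elements and their opposites commutes with all root elements. -/
def CommExt (hS : Sem D F z) : Prop :=
  ∀ m : GL D.Idx F,
    (∀ i < D.rank, ∀ t : F, m * xU hS (D.simple i) t = xU hS (D.simple i) t * m ∧
      m * xU hS (D.neg (D.simple i)) t = xU hS (D.neg (D.simple i)) t * m) →
    ∀ r < D.nroots, ∀ t : F, m * xU hS r t = xU hS r t * m

/-- An element of the group normalising every root subgroup (in both directions) lies in `H`. -/
def HasInn2 (hS : Sem D F z) : Prop :=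
  ∀ g : GL D.Idx F, g ∈ D.group F →
    (∀ r < D.nroots, ∀ t : F, ∃ t' : F, g * xU hS r t * g⁻¹ = xU hS r t') →
    (∀ r < D.nroots, ∀ t : F, ∃ t' : F, g⁻¹ * xU hS r t * g = xU hS r t') →
    g ∈ D.diagonalSubgroup F

/-! ## The pieces -/

/-- **S2124-DIAGN**: if `A * Ai = Ai * A = N` for the Cartan matrix `A`, then `H` realises every family of
scalars that are `N`-th powers. -/
def StDiagN : Prop :=
  ∀ (D : ChevalleyDatum) (K : Type u) [Field K] (z η : ℕ → ℕ → ℤ)
    (hP : PackB D K z η) (N : ℕ) (Ai : Fin D.rank → Fin D.rank → ℤ),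
    (∀ i j, mulZ (fun i j : Fin D.rank => z (D.simple j) (D.simple i)) Ai i j = (N : ℤ) * idZ i j) →
    (∀ i j, mulZ Ai (fun i j : Fin D.rank => z (D.simple j) (D.simple i)) i j = (N : ℤ) * idZ i j) →
    (∀ i < D.rank, ∀ j < D.rank, z (D.simple j) (D.neg (D.simple i)) = - z (D.simple j) (D.simple i)) →
    ∀ c : ℕ → K, (∀ i < D.rank, ∃ d : K, d ≠ 0 ∧ d ^ N = c i) →
    ∃ h ∈ D.diagonalSubgroup K, ∀ i < D.rank, ∀ t : K,
      h * xU hP.sem (D.simple i) t * h⁻¹ = xU hP.sem (D.simple i) (c i * t) ∧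
      h * xU hP.sem (D.neg (D.simple i)) t * h⁻¹ = xU hP.sem (D.neg (D.simple i)) ((c i)⁻¹ * t)

/-- **S2124-FIX**: the fixed points of the `|F|`-th power map on an extension field of a finite field `F`. -/
def StFix : Prop :=
  ∀ (F K : Type u) [Field F] [Finite F] [Field K] [Algebra F K] (x : K),
    x ^ Nat.card F = x → ∃ a : F, algebraMap F K a = x

/-- **S2124-DESC**: descent of a torus element: an element of `H` over an extension field `K` acting on the
fundamental root subgroups through scalars of `F` is, as a matrix, defined over `F` (when `F` is the fixed field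
of an endomorphism `τ` of `K`), and acts on every root subgroup over `F` by a scalar. -/
def StDesc : Prop :=
  ∀ (D : ChevalleyDatum) (F K : Type u) [Field F] [Field K] (ι : F →+* K) (τ : K →+* K)
    (z η : ℕ → ℕ → ℤ) (hPF : PackB D F z η) (hPK : PackB D K z η),
    (∀ x : K, τ x = x → ∃ a : F, ι a = x) → (∀ a : F, τ (ι a) = ι a) →
    CommExt hPK.sem →
    ∀ (c : ℕ → F) (h : GL D.Idx K), h ∈ D.diagonalSubgroup K →
    (∀ i < D.rank, ∀ t : K,
      h * xU hPK.sem (D.simple i) t * h⁻¹ = xU hPK.sem (D.simple i) (ι (c i) * t) ∧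
      h * xU hPK.sem (D.neg (D.simple i)) t * h⁻¹ = xU hPK.sem (D.neg (D.simple i)) ((ι (c i))⁻¹ * t)) →
    ∃ (χ : ℕ → F) (g₀ : GL D.Idx F), (∀ r < D.nroots, χ r ≠ 0) ∧
      (∀ r < D.nroots, ∀ u : F, g₀ * xU hPF.sem r u * g₀⁻¹ = xU hPF.sem r (χ r * u)) ∧
      ∀ i < D.rank, χ (D.simple i) = c i ∧ χ (D.neg (D.simple i)) = (c i)⁻¹

/-- **S2124-DAUT**: diagonal automorphisms of the group over a finite field, from the torus over the algebraic
closure. -/
def StDAut : Prop :=
  ∀ (D : ChevalleyDatum) (F : Type u) [Field F] [Finite F] (z η : ℕ → ℕ → ℤ)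
    (hPF : PackB D F z η) (hPK : PackB D (AlgebraicClosure F) z η) (N : ℕ)
    (Ai : Fin D.rank → Fin D.rank → ℤ), 0 < N →
    (∀ i j, mulZ (fun i j : Fin D.rank => z (D.simple j) (D.simple i)) Ai i j = (N : ℤ) * idZ i j) →
    (∀ i j, mulZ Ai (fun i j : Fin D.rank => z (D.simple j) (D.simple i)) i j = (N : ℤ) * idZ i j) →
    (∀ i < D.rank, ∀ j < D.rank, z (D.simple j) (D.neg (D.simple i)) = - z (D.simple j) (D.simple i)) →
    CommExt hPK.sem → HasDAut hPF.sem

/-- **S2124-ASM2N**: a normalised automorphism is a field automorphism (the second half of S2125-ASM2). -/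
def StAsm2N : Prop :=
  ∀ (D : ChevalleyDatum) (F : Type u) [Field F] (z η : ℕ → ℕ → ℤ) (rT w0 : List ℕ)
    (hC : PackS D F z η rT w0),
    0 < D.rank →
    (∀ i < D.rank, ∃ j < D.rank, z (D.simple j) (D.simple i) = -1) →
    (∀ P : ℕ → Prop, P 0 →
      (∀ i < D.rank, ∀ j < D.rank, z (D.simple j) (D.simple i) = -1 → P i → P j) → ∀ i < D.rank, P i) →
    HomExt hC.hP.sem → HasAsm2N hC.hP.sem

/-- **S2124-INN2**: an element of the group normalising every root subgroup lies in `H`. -/
def StInn2 : Prop :=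
  ∀ (D : ChevalleyDatum) (F : Type u) [Field F] (z η : ℕ → ℕ → ℤ) (rT w0 : List ℕ)
    (hC : PackS D F z η rT w0), HasInn2 hC.hP.sem

/-- **S2124-CNT**: the second isomorphism theorem, as a count. -/
def StCnt : Prop :=
  ∀ (A : Type u) [Group A] (I T : Subgroup A) [I.Normal],
    (∀ a : A, ∃ i ∈ I, ∃ t ∈ T, a = i * t) →
    Nat.card (A ⧸ I) * Nat.card ↥(T ⊓ I) = Nat.card ↥T

/-- **S2124-DECOMP**: every automorphism in `autT` is a diagonal automorphism times a field automorphism. -/
def StDecomp : Prop :=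
  ∀ (D : ChevalleyDatum) (F : Type u) [Field F] (z η : ℕ → ℕ → ℤ) (hP : PackB D F z η),
    HasDAut hP.sem → HasAsm2N hP.sem → HasDecomp hP.sem

/-- **S2124-CARDT**: the order of `autT`. -/
def StCardT : Prop :=
  ∀ (D : ChevalleyDatum) (F : Type u) [Field F] [Finite F] (z η : ℕ → ℕ → ℤ) (hP : PackB D F z η),
    0 < D.rank → HasDAut hP.sem → HasDecomp hP.sem → HasField D F → HomExt hP.sem →
    Nat.card ↥(autT hP.sem) = (Nat.card F - 1) ^ D.rank * Nat.card (F ≃+* F)

/-- **S2124-TINN**: the inner automorphisms in `autT` are the conjugations by `H`. -/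
def StTInn : Prop :=
  ∀ (D : ChevalleyDatum) (F : Type u) [Field F] (z η : ℕ → ℕ → ℤ) (hP : PackB D F z η),
    HasDecomp hP.sem → HasInn2 hP.sem →
    Nat.card ↥(autT hP.sem ⊓ Cfsg.Inn ↥(D.group F)) = Nat.card ↥(D.diagonalSubgroup F)

end Cfsg.Agent.H46.OutE
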