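import Cfsg.Agent.H46.OutDefs
import Cfsg.Agent.H23.OrdH
import Cfsg.Agent.H23.CommAllE6
import Cfsg.Agent.H23.CanonTab
import Cfsg.Agent.H23.SylowU
import Cfsg.Agent.H23.Gens

/-!
# The table facts of type `E₆` for S2123, helper78's project (helper46)
-/

set_option autoImplicit false

namespace Cfsg.Agent.H46.OutE

open Cfsg.Lie Cfsg.Agent.H23 Cfsg.Agent.H23.Stb

universe u

/-- The edges of the Dynkin diagram of type `E₆` (nodes numbered from 0, as in the tables). -/
def adjL6 : List (ℕ × ℕ) :=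
  [(0, 2), (2, 0), (1, 3), (3, 1), (2, 3), (3, 2), (3, 4), (4, 3), (4, 5), (5, 4)]

/-- Adjacency in the Dynkin diagram of type `E₆`. -/
abbrev adj6 (i j : ℕ) : Prop := (i, j) ∈ adjL6

/-- The nontrivial symmetry of the Dynkin diagram of type `E₆` (identity outside the nodes). -/
def sig6 (i : ℕ) : ℕ := [5, 1, 4, 3, 2, 0].getD i i

theorem e6_sig_lt : ∀ i < chevE6.rank, sig6 i < chevE6.rank := by decide

theorem e6_sig_sig : ∀ i < chevE6.rank, sig6 (sig6 i) = i := by decide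

theorem e6_sig_ne : ∃ i < chevE6.rank, sig6 i ≠ i := ⟨0, by decide, by decide⟩

theorem e6_w0 : ∀ i < chevE6.rank,
    reflW chevE6 w0E6 (chevE6.neg (chevE6.simple i)) = chevE6.simple (sig6 i) := by
  decide +kernel

set_option synthInstance.maxSize 4096 in
set_option synthInstance.maxHeartbeats 400000 in
theorem e6_c2T : ∀ i < chevE6.rank, ∀ j < chevE6.rank, i ≠ j →
    chevE6.commTerms (chevE6.simple j) (chevE6.neg (chevE6.simple i)) = [] ∧
    chevE6.neg (chevE6.simple i) < chevE6.nroots ∧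
    chevE6.neg (chevE6.simple i) ≠ chevE6.simple j ∧
    chevE6.neg (chevE6.simple i) ≠ chevE6.neg (chevE6.simple j) ∧
    chevE6.simple j ≠ chevE6.simple i ∧ chevE6.simple j ≠ chevE6.neg (chevE6.simple i) := by
  decide +kernel

set_option synthInstance.maxSize 4096 in
set_option synthInstance.maxHeartbeats 400000 in
theorem e6_nadjT : ∀ i < chevE6.rank, ∀ j < chevE6.rank, i ≠ j → ¬ adj6 i j →
    chevE6.commTerms (chevE6.simple i) (chevE6.simple j) = [] := by
  decide +kernel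

set_option synthInstance.maxSize 4096 in
set_option synthInstance.maxHeartbeats 400000 in
theorem e6_adjT : ∀ i < chevE6.rank, ∀ j < chevE6.rank, adj6 i j →
    (chevE6.commTerms (chevE6.simple i) (chevE6.simple j)).length = 1 ∧
    ∀ c ∈ chevE6.commTerms (chevE6.simple i) (chevE6.simple j),
      c.1 < chevE6.nroots ∧ (c.2.1 = 1 ∨ c.2.1 = -1) ∧ c.2.2.1 = 1 ∧ c.2.2.2 = 1 := by
  decide +kernel

/-- Three times the inverse of the Cartan matrix of type `E₆`. -/
def aiL6 : List (List ℤ) :=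
  [[4, 3, 5, 6, 4, 2], [3, 6, 6, 9, 6, 3], [5, 6, 10, 12, 8, 4], [6, 9, 12, 18, 12, 6],
    [4, 6, 8, 12, 10, 5], [2, 3, 4, 6, 5, 4]]

theorem e6_A1 : ∀ i j : Fin chevE6.rank,
    mulZ (fun i j : Fin chevE6.rank => zR chevE6 ctblE6 (chevE6.simple j) (chevE6.simple i))
      (matL aiL6) i j = ((3 : ℕ) : ℤ) * idZ i j := by
  decide +kernel

theorem e6_A2 : ∀ i j : Fin chevE6.rank,
    mulZ (matL aiL6)
      (fun i j : Fin chevE6.rank => zR chevE6 ctblE6 (chevE6.simple j) (chevE6.simple i)) i j =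
        ((3 : ℕ) : ℤ) * idZ i j := by
  decide +kernel

theorem e6_zneg : ∀ i < chevE6.rank, ∀ j < chevE6.rank,
    zR chevE6 ctblE6 (chevE6.simple j) (chevE6.neg (chevE6.simple i)) =
      - zR chevE6 ctblE6 (chevE6.simple j) (chevE6.simple i) := by
  decide +kernel

theorem e6_conn1 : ∀ i < chevE6.rank, ∃ j < chevE6.rank,
    zR chevE6 ctblE6 (chevE6.simple j) (chevE6.simple i) = -1 := by
  decide +kernel

theorem e6_edges : zR chevE6 ctblE6 (chevE6.simple 2) (chevE6.simple 0) = -1 ∧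
    zR chevE6 ctblE6 (chevE6.simple 3) (chevE6.simple 2) = -1 ∧
    zR chevE6 ctblE6 (chevE6.simple 1) (chevE6.simple 3) = -1 ∧
    zR chevE6 ctblE6 (chevE6.simple 4) (chevE6.simple 3) = -1 ∧
    zR chevE6 ctblE6 (chevE6.simple 5) (chevE6.simple 4) = -1 := by
  decide +kernel

theorem e6_conn2 : ∀ P : ℕ → Prop, P 0 →
    (∀ i < chevE6.rank, ∀ j < chevE6.rank,
      zR chevE6 ctblE6 (chevE6.simple j) (chevE6.simple i) = -1 → P i → P j) → ∀ i < chevE6.rank, P i := by
  intro P h0 hstep i hi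
  obtain ⟨e1, e2, e3, e4, e5⟩ := e6_edges
  have hr : chevE6.rank = 6 := rfl
  have h2 : P 2 := hstep 0 (by omega) 2 (by omega) e1 h0
  have h3 : P 3 := hstep 2 (by omega) 3 (by omega) e2 h2
  have h1 : P 1 := hstep 3 (by omega) 1 (by omega) e3 h3
  have h4 : P 4 := hstep 3 (by omega) 4 (by omega) e4 h3
  have h5 : P 5 := hstep 4 (by omega) 5 (by omega) e5 h4
  have hi' : i < 6 := hi
  interval_cases i <;> assumption

set_option synthInstance.maxSize 4096 in
set_option synthInstance.maxHeartbeats 400000 in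
theorem e6_symFin : ∀ p3 : Fin 6, ∀ p1 : Fin 6, adj6 p3.1 p1.1 → ∀ p2 : Fin 6, adj6 p3.1 p2.1 → p1 ≠ p2 →
    ∀ p4 : Fin 6, adj6 p3.1 p4.1 → p1 ≠ p4 → p2 ≠ p4 → ∀ p0 : Fin 6, adj6 p2.1 p0.1 → p0 ≠ p3 →
    ∀ p5 : Fin 6, adj6 p4.1 p5.1 → p5 ≠ p3 →
    (p3.1 = 3 ∧ p1.1 = 1 ∧ p2.1 = 2 ∧ p4.1 = 4 ∧ p0.1 = 0 ∧ p5.1 = 5) ∨
      (p3.1 = 3 ∧ p1.1 = 1 ∧ p2.1 = 4 ∧ p4.1 = 2 ∧ p0.1 = 5 ∧ p5.1 = 0) := by
  decide +kernel

/-- The diagram of type `E₆` has exactly the symmetries `id` and `sig6`. -/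
theorem e6_sym : ∀ π : ℕ → ℕ, (∀ i < chevE6.rank, π i < chevE6.rank) →
    (∀ i < chevE6.rank, ∀ j < chevE6.rank, π i = π j → i = j) →
    (∀ i < chevE6.rank, ∀ j < chevE6.rank, i ≠ j → (adj6 (π i) (π j) ↔ adj6 i j)) →
    (∀ i < chevE6.rank, π i = i) ∨ (∀ i < chevE6.rank, π i = sig6 i) := by
  intro π hlt hinj hadj
  have hr : chevE6.rank = 6 := rfl
  have b : ∀ i, i < 6 → π i < 6 := fun i hi => hlt i (by omega)
  have ne : ∀ i j, ∀ (hi : i < 6) (hj : j < 6), i ≠ j → (⟨π i, b i hi⟩ : Fin 6) ≠ ⟨π j, b j hj⟩ := by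
    intro i j hi hj hij h
    exact hij (hinj i (by omega) j (by omega) (congrArg Fin.val h))
  have ad : ∀ i j, i < 6 → j < 6 → i ≠ j → adj6 i j → adj6 (π i) (π j) := by
    intro i j hi hj hij h
    exact (hadj i (by omega) j (by omega) hij).mpr h
  have key := e6_symFin ⟨π 3, b 3 (by omega)⟩ ⟨π 1, b 1 (by omega)⟩
    (ad 3 1 (by omega) (by omega) (by omega) (by decide)) ⟨π 2, b 2 (by omega)⟩
    (ad 3 2 (by omega) (by omega) (by omega) (by decide)) (ne 1 2 (by omega) (by omega) (by omega))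
    ⟨π 4, b 4 (by omega)⟩ (ad 3 4 (by omega) (by omega) (by omega) (by decide))
    (ne 1 4 (by omega) (by omega) (by omega)) (ne 2 4 (by omega) (by omega) (by omega))
    ⟨π 0, b 0 (by omega)⟩ (ad 2 0 (by omega) (by omega) (by omega) (by decide))
    (ne 0 3 (by omega) (by omega) (by omega))
    ⟨π 5, b 5 (by omega)⟩ (ad 4 5 (by omega) (by omega) (by omega) (by decide))
    (ne 5 3 (by omega) (by omega) (by omega))
  rcases key with ⟨k3, k1, k2, k4, k0, k5⟩ | ⟨k3, k1, k2, k4, k0, k5⟩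
  · left
    simp only at k3 k1 k2 k4 k0 k5
    intro i hi
    have hi' : i < 6 := hi
    interval_cases i <;> assumption
  · right
    simp only at k3 k1 k2 k4 k0 k5
    intro i hi
    have hi' : i < 6 := hi
    interval_cases i <;> simpa [sig6] using ‹_›

/-- The signs of the `n_i`-conjugation of type `E₆`. -/
abbrev eta6 : ℕ → ℕ → ℤ := fun i s => etaBit (etaE6.getD i 0) s

theorem e6_packB (F : Type u) [Field F] : PackB chevE6 F (zR chevE6 ctblE6) eta6 :=
  ⟨chk_E6.sem F, nconj_E6.semN chk_E6.tblOK F, comm_E6.semC chk_E6.tblOK F, tab_E6, tabC_E6, etaNeg_E6,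
    tab2_E6⟩

theorem e6_packS (F : Type u) [Field F] : PackS chevE6 F (zR chevE6 ctblE6) eta6 rTE6 w0E6 :=
  ⟨e6_packB F, trin_E6.semV chk_E6.tblOK F, tabT_E6, tabL_E6, tabW_E6⟩

section

variable (F : Type u) [Field F]

theorem e6_c2 : ∀ i < chevE6.rank, ∀ j < chevE6.rank, i ≠ j → ∀ t u : F,
    xU (e6_packS F).hP.sem (chevE6.simple j) u * xU (e6_packS F).hP.sem (chevE6.neg (chevE6.simple i)) t =
      xU (e6_packS F).hP.sem (chevE6.neg (chevE6.simple i)) t * xU (e6_packS F).hP.sem (chevE6.simple j) u := by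
  intro i hi j hj hij t u
  obtain ⟨hterms, hlt, hne1, hne2, -, -⟩ := e6_c2T i hi j hj hij
  have hPc : Pc chevE6 F (chevE6.simple j) (chevE6.neg (chevE6.simple i)) :=
    commAll_E6 _ _ (tab_E6.simple_lt j hj) hlt hne1 hne2
  have h1 := (Pc_iff (e6_packS F).hP.sem _ _).mp hPc u t
  simp only [ChevalleyDatum.commWord, hterms, List.map_nil, wordU_nil, mul_one] at h1
  exact h1.symm

theorem e6_adj : ∀ i < chevE6.rank, ∀ j < chevE6.rank, i ≠ j →
    ((∀ t u : F, xU (e6_packS F).hP.sem (chevE6.simple i) t * xU (e6_packS F).hP.sem (chevE6.simple j) u =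
      xU (e6_packS F).hP.sem (chevE6.simple j) u * xU (e6_packS F).hP.sem (chevE6.simple i) t) ↔
        ¬ adj6 i j) := by
  intro i hi j hj hij
  obtain ⟨-, -, -, -, hne3, hne4⟩ := e6_c2T i hi j hj hij
  have hPc : Pc chevE6 F (chevE6.simple i) (chevE6.simple j) :=
    commAll_E6 _ _ (tab_E6.simple_lt i hi) (tab_E6.simple_lt j hj) hne3 hne4
  constructor
  · intro hcomm hadj
    obtain ⟨hlen, hc⟩ := e6_adjT i hi j hj hadj
    obtain ⟨c, hceq⟩ := List.length_eq_one_iff.mp hlen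
    obtain ⟨hc1, hc2, hc3, hc4⟩ := hc c (by rw [hceq]; exact List.mem_singleton_self c)
    have h1 := (Pc_iff (e6_packS F).hP.sem _ _).mp hPc 1 1
    simp only [ChevalleyDatum.commWord, hceq, List.map_cons, List.map_nil, wordU_cons, wordU_nil, mul_one,
      hc3, hc4, pow_one] at h1
    rw [← hcomm 1 1] at h1
    have h2 : xU (e6_packS F).hP.sem c.1 ((c.2.1 : F) * -1) = 1 := by
      have := h1.symm
      rwa [mul_eq_left] at this
    have h3 := xU_eq_one_imp (e6_packS F).hP.sem tab_E6 tab2_E6 c.1 hc1 _ h2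
    rcases hc2 with h | h
    · rw [h] at h3; simp at h3
    · rw [h] at h3; simp at h3
  · intro hadj t u
    have hterms := e6_nadjT i hi j hj hij hadj
    have h1 := (Pc_iff (e6_packS F).hP.sem _ _).mp hPc t u
    simp only [ChevalleyDatum.commWord, hterms, List.map_nil, wordU_nil, mul_one] at h1
    exact h1.symm

theorem e6_homExt : HomExt (e6_packS F).hP.sem := by
  intro a b h
  apply hom_ext_fund (e6_packS F).hP.sem (e6_packS F).hP.semN tab_E6 a b
  intro g i t hi hg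
  rcases hg with hg | hg
  · have : g = xG (e6_packS F).hP.sem (chevE6.simple i) t :=
      Subtype.ext (eq_xU (e6_packS F).hP.sem g.1 _ t hg)
    rw [this]; exact (h i hi t).1
  · have : g = xG (e6_packS F).hP.sem (chevE6.neg (chevE6.simple i)) t :=
      Subtype.ext (eq_xU (e6_packS F).hP.sem g.1 _ t hg)
    rw [this]; exact (h i hi t).2

theorem e6_commExt : CommExt (e6_packB F).sem := by
  intro m hm r hr t
  have hmem : xU (e6_packB F).sem r t ∈ fundGen chevE6 F :=
    xU_mem_fundGen (e6_packB F).sem (e6_packB F).semN tab_E6 r hr t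
  have hle : fundGen chevE6 F ≤ Subgroup.centralizer {m} := by
    unfold fundGen
    rw [Subgroup.closure_le]
    rintro g ⟨i, u, hi, hg | hg⟩
    · rw [SetLike.mem_coe, Subgroup.mem_centralizer_iff]
      intro x hx
      rw [Set.mem_singleton_iff] at hx
      rw [hx, eq_xU (e6_packB F).sem g _ u hg]
      exact (hm i hi u).1
    · rw [SetLike.mem_coe, Subgroup.mem_centralizer_iff]
      intro x hx
      rw [Set.mem_singleton_iff] at hx
      rw [hx, eq_xU (e6_packB F).sem g _ u hg]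
      exact (hm i hi u).2
  have := hle hmem
  rw [Subgroup.mem_centralizer_iff] at this
  exact this m rfl

end

end Cfsg.Agent.H46.OutE
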