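import Cfsg.Agent.H46.OutMain
import Cfsg.Agent.H23.OrdH
import Cfsg.Agent.H23.CommAllE7
import Cfsg.Agent.H23.CanonTab
import Cfsg.Agent.H23.SylowU
import Cfsg.Agent.H23.Gens

/-!
# S2124: the table facts of type `E₇` (helper46)
-/

set_option autoImplicit false

namespace Cfsg.Agent.H46.OutE

open Cfsg.Lie Cfsg.Agent.H23 Cfsg.Agent.H23.Stb

universe u

/-- The edges of the Dynkin diagram of type `E₇` (nodes numbered from 0, as in the tables). -/
def adjL7 : List (ℕ × ℕ) :=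
  [(0, 2), (2, 0), (1, 3), (3, 1), (2, 3), (3, 2), (3, 4), (4, 3), (4, 5), (5, 4), (5, 6), (6, 5)]

/-- Adjacency in the Dynkin diagram of type `E₇`. -/
abbrev adj7 (i j : ℕ) : Prop := (i, j) ∈ adjL7

theorem e7_w0 : ∀ i < chevE7.rank, reflW chevE7 w0E7 (chevE7.neg (chevE7.simple i)) = chevE7.simple i := by
  decide +kernel

set_option synthInstance.maxSize 4096 in
set_option synthInstance.maxHeartbeats 400000 in
theorem e7_c2T : ∀ i < chevE7.rank, ∀ j < chevE7.rank, i ≠ j →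
    chevE7.commTerms (chevE7.simple j) (chevE7.neg (chevE7.simple i)) = [] ∧
    chevE7.neg (chevE7.simple i) < chevE7.nroots ∧
    chevE7.neg (chevE7.simple i) ≠ chevE7.simple j ∧
    chevE7.neg (chevE7.simple i) ≠ chevE7.neg (chevE7.simple j) ∧
    chevE7.simple j ≠ chevE7.simple i ∧ chevE7.simple j ≠ chevE7.neg (chevE7.simple i) := by
  decide +kernel

set_option synthInstance.maxSize 4096 in
set_option synthInstance.maxHeartbeats 400000 in
theorem e7_nadjT : ∀ i < chevE7.rank, ∀ j < chevE7.rank, i ≠ j → ¬ adj7 i j →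
    chevE7.commTerms (chevE7.simple i) (chevE7.simple j) = [] := by
  decide +kernel

set_option synthInstance.maxSize 4096 in
set_option synthInstance.maxHeartbeats 400000 in
theorem e7_adjT : ∀ i < chevE7.rank, ∀ j < chevE7.rank, adj7 i j →
    (chevE7.commTerms (chevE7.simple i) (chevE7.simple j)).length = 1 ∧
    ∀ c ∈ chevE7.commTerms (chevE7.simple i) (chevE7.simple j),
      c.1 < chevE7.nroots ∧ (c.2.1 = 1 ∨ c.2.1 = -1) ∧ c.2.2.1 = 1 ∧ c.2.2.2 = 1 := by
  decide +kernel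

/-- Twice the inverse of the Cartan matrix of type `E₇`. -/
def aiL7 : List (List ℤ) :=
  [[4, 4, 6, 8, 6, 4, 2], [4, 7, 8, 12, 9, 6, 3], [6, 8, 12, 16, 12, 8, 4], [8, 12, 16, 24, 18, 12, 6],
    [6, 9, 12, 18, 15, 10, 5], [4, 6, 8, 12, 10, 8, 4], [2, 3, 4, 6, 5, 4, 3]]

theorem e7_A1 : ∀ i j : Fin chevE7.rank,
    mulZ (fun i j : Fin chevE7.rank => zR chevE7 ctblE7 (chevE7.simple j) (chevE7.simple i))
      (matL aiL7) i j = ((2 : ℕ) : ℤ) * idZ i j := by
  decide +kernel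

theorem e7_A2 : ∀ i j : Fin chevE7.rank,
    mulZ (matL aiL7)
      (fun i j : Fin chevE7.rank => zR chevE7 ctblE7 (chevE7.simple j) (chevE7.simple i)) i j =
        ((2 : ℕ) : ℤ) * idZ i j := by
  decide +kernel

theorem e7_zneg : ∀ i < chevE7.rank, ∀ j < chevE7.rank,
    zR chevE7 ctblE7 (chevE7.simple j) (chevE7.neg (chevE7.simple i)) =
      - zR chevE7 ctblE7 (chevE7.simple j) (chevE7.simple i) := by
  decide +kernel

theorem e7_conn1 : ∀ i < chevE7.rank, ∃ j < chevE7.rank,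
    zR chevE7 ctblE7 (chevE7.simple j) (chevE7.simple i) = -1 := by
  decide +kernel

theorem e7_edges : zR chevE7 ctblE7 (chevE7.simple 2) (chevE7.simple 0) = -1 ∧
    zR chevE7 ctblE7 (chevE7.simple 3) (chevE7.simple 2) = -1 ∧
    zR chevE7 ctblE7 (chevE7.simple 1) (chevE7.simple 3) = -1 ∧
    zR chevE7 ctblE7 (chevE7.simple 4) (chevE7.simple 3) = -1 ∧
    zR chevE7 ctblE7 (chevE7.simple 5) (chevE7.simple 4) = -1 ∧
    zR chevE7 ctblE7 (chevE7.simple 6) (chevE7.simple 5) = -1 := by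
  decide +kernel

theorem e7_conn2 : ∀ P : ℕ → Prop, P 0 →
    (∀ i < chevE7.rank, ∀ j < chevE7.rank,
      zR chevE7 ctblE7 (chevE7.simple j) (chevE7.simple i) = -1 → P i → P j) → ∀ i < chevE7.rank, P i := by
  intro P h0 hstep i hi
  obtain ⟨e1, e2, e3, e4, e5, e6⟩ := e7_edges
  have hr : chevE7.rank = 7 := rfl
  have h2 : P 2 := hstep 0 (by omega) 2 (by omega) e1 h0
  have h3 : P 3 := hstep 2 (by omega) 3 (by omega) e2 h2
  have h1 : P 1 := hstep 3 (by omega) 1 (by omega) e3 h3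
  have h4 : P 4 := hstep 3 (by omega) 4 (by omega) e4 h3
  have h5 : P 5 := hstep 4 (by omega) 5 (by omega) e5 h4
  have h6 : P 6 := hstep 5 (by omega) 6 (by omega) e6 h5
  have hi' : i < 7 := hi
  interval_cases i <;> assumption

set_option synthInstance.maxSize 4096 in
set_option synthInstance.maxHeartbeats 400000 in
theorem e7_rigFin : ∀ p3 : Fin 7, ∀ p1 : Fin 7, adj7 p3.1 p1.1 → ∀ p2 : Fin 7, adj7 p3.1 p2.1 → p1 ≠ p2 →
    ∀ p4 : Fin 7, adj7 p3.1 p4.1 → p1 ≠ p4 → p2 ≠ p4 → ∀ p0 : Fin 7, adj7 p2.1 p0.1 → p0 ≠ p3 →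
    ∀ p5 : Fin 7, adj7 p4.1 p5.1 → p5 ≠ p3 → ∀ p6 : Fin 7, adj7 p5.1 p6.1 → p6 ≠ p4 →
    p3.1 = 3 ∧ p1.1 = 1 ∧ p2.1 = 2 ∧ p4.1 = 4 ∧ p0.1 = 0 ∧ p5.1 = 5 ∧ p6.1 = 6 := by
  decide +kernel

theorem e7_rig : ∀ π : ℕ → ℕ, (∀ i < chevE7.rank, π i < chevE7.rank) →
    (∀ i < chevE7.rank, ∀ j < chevE7.rank, π i = π j → i = j) →
    (∀ i < chevE7.rank, ∀ j < chevE7.rank, i ≠ j → (adj7 (π i) (π j) ↔ adj7 i j)) →
    ∀ i < chevE7.rank, π i = i := by
  intro π hlt hinj hadj i hi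
  have hr : chevE7.rank = 7 := rfl
  have b : ∀ i, i < 7 → π i < 7 := fun i hi => hlt i (by omega)
  have ne : ∀ i j, ∀ (hi : i < 7) (hj : j < 7), i ≠ j → (⟨π i, b i hi⟩ : Fin 7) ≠ ⟨π j, b j hj⟩ := by
    intro i j hi hj hij h
    exact hij (hinj i (by omega) j (by omega) (congrArg Fin.val h))
  have ad : ∀ i j, i < 7 → j < 7 → i ≠ j → adj7 i j → adj7 (π i) (π j) := by
    intro i j hi hj hij h
    exact (hadj i (by omega) j (by omega) hij).mpr h
  have key := e7_rigFin ⟨π 3, b 3 (by omega)⟩ ⟨π 1, b 1 (by omega)⟩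
    (ad 3 1 (by omega) (by omega) (by omega) (by decide)) ⟨π 2, b 2 (by omega)⟩
    (ad 3 2 (by omega) (by omega) (by omega) (by decide)) (ne 1 2 (by omega) (by omega) (by omega))
    ⟨π 4, b 4 (by omega)⟩ (ad 3 4 (by omega) (by omega) (by omega) (by decide))
    (ne 1 4 (by omega) (by omega) (by omega)) (ne 2 4 (by omega) (by omega) (by omega))
    ⟨π 0, b 0 (by omega)⟩ (ad 2 0 (by omega) (by omega) (by omega) (by decide))
    (ne 0 3 (by omega) (by omega) (by omega))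
    ⟨π 5, b 5 (by omega)⟩ (ad 4 5 (by omega) (by omega) (by omega) (by decide))
    (ne 5 3 (by omega) (by omega) (by omega))
    ⟨π 6, b 6 (by omega)⟩ (ad 5 6 (by omega) (by omega) (by omega) (by decide))
    (ne 6 4 (by omega) (by omega) (by omega))
  obtain ⟨k3, k1, k2, k4, k0, k5, k6⟩ := key
  simp only at k3 k1 k2 k4 k0 k5 k6
  have hi' : i < 7 := hi
  interval_cases i <;> assumption

/-- The signs of the `n_i`-conjugation of type `E₇`. -/
abbrev eta7 : ℕ → ℕ → ℤ := fun i s => etaBit (etaE7.getD i 0) s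

theorem e7_packB (F : Type u) [Field F] : PackB chevE7 F (zR chevE7 ctblE7) eta7 :=
  ⟨chk_E7.sem F, nconj_E7.semN chk_E7.tblOK F, comm_E7.semC chk_E7.tblOK F, tab_E7, tabC_E7, etaNeg_E7,
    tab2_E7⟩

theorem e7_packS (F : Type u) [Field F] : PackS chevE7 F (zR chevE7 ctblE7) eta7 rTE7 w0E7 :=
  ⟨e7_packB F, trin_E7.semV chk_E7.tblOK F, tabT_E7, tabL_E7, tabW_E7⟩

section

variable (F : Type u) [Field F]

theorem e7_c2 : ∀ i < chevE7.rank, ∀ j < chevE7.rank, i ≠ j → ∀ t u : F,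
    xU (e7_packS F).hP.sem (chevE7.simple j) u * xU (e7_packS F).hP.sem (chevE7.neg (chevE7.simple i)) t =
      xU (e7_packS F).hP.sem (chevE7.neg (chevE7.simple i)) t * xU (e7_packS F).hP.sem (chevE7.simple j) u := by
  intro i hi j hj hij t u
  obtain ⟨hterms, hlt, hne1, hne2, -, -⟩ := e7_c2T i hi j hj hij
  have hPc : Pc chevE7 F (chevE7.simple j) (chevE7.neg (chevE7.simple i)) :=
    commAll_E7 _ _ (tab_E7.simple_lt j hj) hlt hne1 hne2
  have h1 := (Pc_iff (e7_packS F).hP.sem _ _).mp hPc u t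
  simp only [ChevalleyDatum.commWord, hterms, List.map_nil, wordU_nil, mul_one] at h1
  exact h1.symm

theorem e7_adj : ∀ i < chevE7.rank, ∀ j < chevE7.rank, i ≠ j →
    ((∀ t u : F, xU (e7_packS F).hP.sem (chevE7.simple i) t * xU (e7_packS F).hP.sem (chevE7.simple j) u =
      xU (e7_packS F).hP.sem (chevE7.simple j) u * xU (e7_packS F).hP.sem (chevE7.simple i) t) ↔
        ¬ adj7 i j) := by
  intro i hi j hj hij
  obtain ⟨-, -, -, -, hne3, hne4⟩ := e7_c2T i hi j hj hij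
  have hPc : Pc chevE7 F (chevE7.simple i) (chevE7.simple j) :=
    commAll_E7 _ _ (tab_E7.simple_lt i hi) (tab_E7.simple_lt j hj) hne3 hne4
  constructor
  · intro hcomm hadj
    obtain ⟨hlen, hc⟩ := e7_adjT i hi j hj hadj
    obtain ⟨c, hceq⟩ := List.length_eq_one_iff.mp hlen
    obtain ⟨hc1, hc2, hc3, hc4⟩ := hc c (by rw [hceq]; exact List.mem_singleton_self c)
    have h1 := (Pc_iff (e7_packS F).hP.sem _ _).mp hPc 1 1
    simp only [ChevalleyDatum.commWord, hceq, List.map_cons, List.map_nil, wordU_cons, wordU_nil, mul_one,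
      hc3, hc4, pow_one] at h1
    rw [← hcomm 1 1] at h1
    have h2 : xU (e7_packS F).hP.sem c.1 ((c.2.1 : F) * -1) = 1 := by
      have := h1.symm
      rwa [mul_eq_left] at this
    have h3 := xU_eq_one_imp (e7_packS F).hP.sem tab_E7 tab2_E7 c.1 hc1 _ h2
    rcases hc2 with h | h
    · rw [h] at h3; simp at h3
    · rw [h] at h3; simp at h3
  · intro hadj t u
    have hterms := e7_nadjT i hi j hj hij hadj
    have h1 := (Pc_iff (e7_packS F).hP.sem _ _).mp hPc t u
    simp only [ChevalleyDatum.commWord, hterms, List.map_nil, wordU_nil, mul_one] at h1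
    exact h1.symm

theorem e7_homExt : HomExt (e7_packS F).hP.sem := by
  intro a b h
  apply hom_ext_fund (e7_packS F).hP.sem (e7_packS F).hP.semN tab_E7 a b
  intro g i t hi hg
  rcases hg with hg | hg
  · have : g = xG (e7_packS F).hP.sem (chevE7.simple i) t :=
      Subtype.ext (eq_xU (e7_packS F).hP.sem g.1 _ t hg)
    rw [this]; exact (h i hi t).1
  · have : g = xG (e7_packS F).hP.sem (chevE7.neg (chevE7.simple i)) t :=
      Subtype.ext (eq_xU (e7_packS F).hP.sem g.1 _ t hg)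
    rw [this]; exact (h i hi t).2

theorem e7_commExt : CommExt (e7_packB F).sem := by
  intro m hm r hr t
  have hmem : xU (e7_packB F).sem r t ∈ fundGen chevE7 F :=
    xU_mem_fundGen (e7_packB F).sem (e7_packB F).semN tab_E7 r hr t
  have hle : fundGen chevE7 F ≤ Subgroup.centralizer {m} := by
    unfold fundGen
    rw [Subgroup.closure_le]
    rintro g ⟨i, u, hi, hg | hg⟩
    · rw [SetLike.mem_coe, Subgroup.mem_centralizer_iff]
      intro x hx
      rw [Set.mem_singleton_iff] at hx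
      rw [hx, eq_xU (e7_packB F).sem g _ u hg]
      exact (hm i hi u).1
    · rw [SetLike.mem_coe, Subgroup.mem_centralizer_iff]
      intro x hx
      rw [Set.mem_singleton_iff] at hx
      rw [hx, eq_xU (e7_packB F).sem g _ u hg]
      exact (hm i hi u).2
  have := hle hmem
  rw [Subgroup.mem_centralizer_iff] at this
  exact this m rfl

end

/-- **Outer automorphisms of `E₇(q)`**, from the pieces. -/
theorem out_E7 (asm1 : StAsm1.{u}) (dAut : StDAut.{u}) (asm2N : StAsm2N.{u}) (inn2 : StInn2.{u})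
    (cnt : StCnt.{u}) (decomp : StDecomp.{u}) (cardT : StCardT.{u}) (tInn : StTInn.{u})
    (field : StField.{u}) (gal : StGal.{u})
    {F : Type u} [Field F] [Fintype F] (p f : ℕ) [Fact p.Prime] [CharP F p]
    (hF : Fintype.card F = p ^ f) :
    Nat.card (Cfsg.Out ↥(chevE7.group F)) = Nat.gcd 2 (p ^ f - 1) * f := by
  have hF' : Nat.card F = p ^ f := by rw [Nat.card_eq_fintype_card, hF]
  refine out_card asm1 dAut asm2N inn2 cnt decomp cardT tInn field gal chevE7 F p f hF'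
    (zR chevE7 ctblE7) eta7 rTE7 w0E7 (e7_packS F) (e7_packB (AlgebraicClosure F)) adj7
    (exists_sylow_posUnipotent p chevE7 (by simp)) e7_w0 (e7_c2 F) (e7_adj F) e7_rig 2 (matL aiL7)
    (by norm_num) e7_A1 e7_A2 e7_zneg (by decide) e7_conn1 e7_conn2 (e7_homExt F)
    (e7_commExt (AlgebraicClosure F)) (Nat.gcd 2 (p ^ f - 1)) ?_
  rw [hF']
  exact cardH_E7 hF

end Cfsg.Agent.H46.OutE
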