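import Cfsg.Agent.H46.OutGDefs
import Cfsg.Agent.H23.OrdF4
import Cfsg.Agent.H23.CommAllF4

/-!
# S2121 / S2122: the pack of table facts of type `F4` and the statement of the piece OG-NOFLIP-F4 (helper46)

Closure: the generic engine `Cfsg/Agent/H23` + the `F4` tables only.
-/

set_option autoImplicit false

namespace Cfsg.Agent.H46.OutG

open Cfsg.Lie Cfsg.Agent.H23 Cfsg.Agent.H23.Stb Cfsg.Agent.H46.OutE

universe u

/-- The exponent function of type `F4`. -/
abbrev zF4 : ℕ → ℕ → ℤ := zR chevF4 ctblF4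

/-- The signs of type `F4`. -/
abbrev ηF4 : ℕ → ℕ → ℤ := fun i s => etaBit (etaF4.getD i 0) s

theorem tabL_F4' : TabL chevF4 rTF4 where
  one := by decide +kernel
  lin := by decide +kernel
  pos := by decide +kernel
  neg := by decide +kernel

theorem packB_F4 (F : Type u) [Field F] : PackB chevF4 F zF4 ηF4 :=
  ⟨chk_F4.sem F, nconj_F4.semN chk_F4.tblOK F, comm_F4.semC chk_F4.tblOK F, tab_F4, tabC_F4,
    etaNeg_F4, tab2_F4⟩

/-- The pack of table facts of type `F4`. -/
theorem packS_F4 (F : Type u) [Field F] : PackS chevF4 F zF4 ηF4 rTF4 w0F4 :=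
  ⟨packB_F4 F, trin_F4.semV chk_F4.tblOK F, tabT_F4, tabL_F4', tabW_F4⟩

/-- The commutator formula for every pair of roots `s ≠ ±r` of type `F4`, in the group. -/
theorem commF4 (F : Type u) [Field F] (r s : ℕ) (hr : r < chevF4.nroots) (hs : s < chevF4.nroots)
    (hne : s ≠ r) (hne' : s ≠ chevF4.neg r) (t u : F) :
    xU (packS_F4 F).hP.sem s u * xU (packS_F4 F).hP.sem r t =
      xU (packS_F4 F).hP.sem r t * xU (packS_F4 F).hP.sem s u *
        wordU (packS_F4 F).hP.sem (chevF4.commWord F r s t u) :=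
  (Pc_iff (packS_F4 F).hP.sem r s).mp (commAll_F4 r s hr hs hne hne') t u

/-- **OG-NOFLIP-F4**: `F₄`, odd characteristic: no automorphism swaps the root subgroups of the short root `α₁` and the long root `α₂` (nodes numbered from 0: `α₀, α₁` short, `α₂, α₃` long). -/
def StNoFlipF4 : Prop :=
  ∀ (F : Type u) [Field F], (2 : F) ≠ 0 →
    ∀ θ : ↥(chevF4.group F) ≃* ↥(chevF4.group F),
    ¬ (RootTo (packS_F4 F).hP.sem θ (chevF4.simple 1) (chevF4.simple 2) ∧
      RootTo (packS_F4 F).hP.sem θ (chevF4.simple 2) (chevF4.simple 1))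

end Cfsg.Agent.H46.OutG
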