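import Cfsg.Agent.H46.StMain
import Cfsg.Agent.H46.StR3

set_option autoImplicit false
set_option linter.unusedSectionVars false

/-!
# Over a finite field the relators (R3) follow from (R1), (R2)
-/

namespace Cfsg.Agent.H46

open Cfsg.Lie Cfsg.Agent.H23

variable {D : ChevalleyDatum} {K : Type*} [Field K] {z η : ℕ → ℕ → ℤ}

theorem lift_of_eq_mk {α : Type*} (rels : Set (FreeGroup α)) :
    FreeGroup.lift (fun p : α => (PresentedGroup.of p : PresentedGroup rels)) = PresentedGroup.mk rels := by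
  ext p
  simp [PresentedGroup.of]

/-- Over a finite field the groups presented by (R1), (R2) and by (R1), (R2), (R3) are isomorphic. -/
theorem cover_equiv [Finite K] {w : List ℕ} (hTab : StTab D w) (hP : PackB D K z η) (hV : SemV D K)
    (hC : CommMat D K) :
    ∃ e : D.SteinbergCover K ≃* D.SteinbergGroup K, ∀ (r : ℕ) (t : K), e (D.scGen K r t) = D.stGen K r t := by
  obtain ⟨θ, -, hθ⟩ := exists_hom hP.sem (D.steinbergRelsAB K) (lift_relsAB hP.sem hC)
  have hA : ∀ (r : ℕ) (t₁ t₂ : K), r < D.nroots →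
      D.stX r t₁ * D.stX r t₂ * (D.stX r (t₁ + t₂))⁻¹ ∈ D.steinbergRelsAB K :=
    fun r t₁ t₂ hr => Or.inl ⟨r, t₁, t₂, hr, rfl⟩
  have hB : ∀ (r s : ℕ) (t u : K), r < D.nroots → s < D.nroots → s ≠ r → s ≠ D.neg r →
      (D.stX s u)⁻¹ * (D.stX r t)⁻¹ * D.stX s u * D.stX r t * (D.stWord (D.commWord K r s t u))⁻¹ ∈
        D.steinbergRelsAB K :=
    fun r s t u hr hs h1 h2 => Or.inr ⟨r, s, t, u, hr, hs, h1, h2, rfl⟩
  have h1 : ∀ g ∈ D.steinbergRelsAB K,
      FreeGroup.lift (fun p : Fin D.nroots × K => (PresentedGroup.of p : D.SteinbergGroup K)) g = 1 := by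
    intro g hg
    rw [lift_of_eq_mk]
    exact PresentedGroup.one_of_mem (Or.inl hg)
  have h2 : ∀ g ∈ D.steinbergRels K,
      FreeGroup.lift (fun p : Fin D.nroots × K => (PresentedGroup.of p : D.SteinbergCover K)) g = 1 := by
    intro g hg
    rw [lift_of_eq_mk]
    rcases hg with hAB | ⟨r, t₁, t₂, hr, h₁, h₂, rfl⟩
    · exact PresentedGroup.one_of_mem hAB
    · rw [map_mul, map_mul, map_inv, mul_inv_eq_one, mk_stH, mk_stH, mk_stH]
      exact R3_root (ctxP (D.steinbergRelsAB K) hA hB hTab hP hV θ hθ) r hr t₁ t₂ h₁ h₂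
  have e1 : (PresentedGroup.toGroup h2).comp (PresentedGroup.toGroup h1) = MonoidHom.id _ := by
    apply PresentedGroup.ext
    intro x
    simp
  have e2 : (PresentedGroup.toGroup h1).comp (PresentedGroup.toGroup h2) = MonoidHom.id _ := by
    apply PresentedGroup.ext
    intro x
    simp
  refine ⟨MonoidHom.toMulEquiv (PresentedGroup.toGroup h1) (PresentedGroup.toGroup h2) e1 e2, ?_⟩
  intro r t
  show PresentedGroup.toGroup h1 (D.scGen K r t) = D.stGen K r t
  unfold ChevalleyDatum.scGen ChevalleyDatum.stGen ChevalleyDatum.stX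
  by_cases hr : r < D.nroots
  · rw [dif_pos hr]
    exact PresentedGroup.toGroup.of h1
  · rw [dif_neg hr, map_one, map_one, map_one]

end Cfsg.Agent.H46
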