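import Cfsg.Agent.H46.OutGDefs
import Cfsg.Agent.H46.UnivSplit
import Cfsg.Agent.H46.StMain2
import Cfsg.Agent.H46.StEquiv

/-!
# S2121 / S2122: the exceptional graph automorphisms, from the Steinberg presentation (helper46)

A map of the roots `ρ` and exponents `lam r ∈ {1, p}` such that the assignment `x_r(t) ↦ x_{ρ r}(t ^ lam r)`
respects the commutator relations in characteristic `p` (a table check) extends to an automorphism of the
Chevalley group over a finite field of characteristic `p`, for a unimodular table of Cartan integers.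
-/

set_option autoImplicit false

namespace Cfsg.Agent.H46.OutG

open Cfsg.Lie Cfsg.Agent.H23 Cfsg.Agent.H23.Stb Cfsg.Agent.H46

universe u

/-- The image of a term of the commutator formula of `(r, s)`: root, coefficient mod `p`, exponents of `t`, `u`. -/
def gTermS (p : ℕ) (ρ lam : ℕ → ℕ) (c : ℕ × ℤ × ℕ × ℕ) : ℕ × ℤ × ℕ × ℕ :=
  (ρ c.1, (c.2.1 * (-1) ^ c.2.2.1) % (p : ℤ), c.2.2.1 * lam c.1, c.2.2.2 * lam c.1)

/-- A term of the commutator formula of `(ρ r, ρ s)` evaluated at `t ^ lr`, `u ^ ls`. -/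
def gTermT (p : ℕ) (lr ls : ℕ) (c : ℕ × ℤ × ℕ × ℕ) : ℕ × ℤ × ℕ × ℕ :=
  (c.1, (c.2.1 * (-1) ^ c.2.2.1) % (p : ℤ), c.2.2.1 * lr, c.2.2.2 * ls)

/-- The coefficient does not vanish. -/
def gNz (c : ℕ × ℤ × ℕ × ℕ) : Bool := decide (c.2.1 ≠ 0)

/-- The root elements of `a` and `b` commute in characteristic `p`, by the commutator formula. -/
def commZero (D : ChevalleyDatum) (p : ℕ) (a b : ℕ) : Bool :=
  decide (a < D.nroots) && (decide (b < D.nroots) && (decide (b ≠ a) && (decide (b ≠ D.neg a) &&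
    (D.commTerms a b).all fun c => decide (c.2.1 % (p : ℤ) = 0))))

/-- The check for the pair `(r, s)`. -/
def graphChkPair (D : ChevalleyDatum) (p : ℕ) (ρ lam : ℕ → ℕ) (r s : ℕ) : Bool :=
  (((D.commTerms (ρ r) (ρ s)).map (gTermT p (lam r) (lam s))).filter gNz).isPerm
      (((D.commTerms r s).map (gTermS p ρ lam)).filter gNz) &&
  ((((D.commTerms (ρ r) (ρ s)).map (gTermT p (lam r) (lam s))).filter gNz).all fun a =>
    (((D.commTerms (ρ r) (ρ s)).map (gTermT p (lam r) (lam s))).filter gNz).all fun b =>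
      decide (a.1 = b.1) || commZero D p a.1 b.1) &&
  ((D.commTerms r s).all fun c => decide (c.1 < D.nroots) && decide (lam c.1 = 1 ∨ lam c.1 = p)) &&
  (decide (ρ s ≠ ρ r) && decide (ρ s ≠ D.neg (ρ r)))

/-- The check of the whole table. -/
def graphChk (D : ChevalleyDatum) (p : ℕ) (ρ lam : ℕ → ℕ) : Bool :=
  ((List.range D.nroots).all fun r =>
    decide (lam r = 1 ∨ lam r = p) && (decide (ρ r < D.nroots) && decide (ρ (ρ r) = r))) &&
  (List.range D.nroots).all fun r => (List.range D.nroots).all fun s =>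
    decide (s = r) || (decide (s = D.neg r) || graphChkPair D p ρ lam r s)


section Sound

variable {D : ChevalleyDatum} {K : Type u} [Field K] {z : ℕ → ℕ → ℤ} (p : ℕ) [Fact p.Prime] [CharP K p]

/-- The evaluation of a normalised term. -/
def gEv (t u : K) (c : ℕ × ℤ × ℕ × ℕ) : ℕ × K := (c.1, (c.2.1 : K) * t ^ c.2.2.1 * u ^ c.2.2.2)

theorem intCast_emod (m : ℤ) : (((m % (p : ℤ) : ℤ)) : K) = (m : K) := by
  rw [CharP.intCast_eq_intCast K p]
  exact Int.mod_modEq m p

theorem intCast_pow_lam (m : ℤ) (l : ℕ) (hl : l = 1 ∨ l = p) : (m : K) ^ l = (m : K) := by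
  rcases hl with rfl | rfl
  · exact pow_one _
  · have h := ZMod.pow_card (m : ZMod l)
    have h2 := congrArg (ZMod.castHom (dvd_refl l) K) h
    rw [map_pow, map_intCast] at h2
    exact h2

theorem add_pow_lam (t u : K) (l : ℕ) (hl : l = 1 ∨ l = p) : (t + u) ^ l = t ^ l + u ^ l := by
  rcases hl with rfl | rfl
  · simp
  · exact add_pow_char t u l

theorem gEv_S (ρ lam : ℕ → ℕ) (t u : K) (c : ℕ × ℤ × ℕ × ℕ) (hl : lam c.1 = 1 ∨ lam c.1 = p) :
    (ρ c.1, ((c.2.1 : K) * (-t) ^ c.2.2.1 * u ^ c.2.2.2) ^ lam c.1) = gEv t u (gTermS p ρ lam c) := by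
  unfold gEv gTermS
  simp only
  congr 1
  rw [intCast_emod p]
  have h1 : (c.2.1 : K) * (-t) ^ c.2.2.1 * u ^ c.2.2.2 =
      ((c.2.1 * (-1) ^ c.2.2.1 : ℤ) : K) * t ^ c.2.2.1 * u ^ c.2.2.2 := by
    push_cast
    rw [neg_pow]
    ring
  rw [h1, mul_pow, mul_pow, intCast_pow_lam p _ _ hl, ← pow_mul, ← pow_mul]

theorem gEv_T (lr ls : ℕ) (t u : K) (c : ℕ × ℤ × ℕ × ℕ) :
    (c.1, (c.2.1 : K) * (-(t ^ lr)) ^ c.2.2.1 * (u ^ ls) ^ c.2.2.2) = gEv t u (gTermT p lr ls c) := by
  unfold gEv gTermT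
  simp only
  congr 1
  rw [intCast_emod p]
  push_cast
  rw [neg_pow, ← pow_mul, ← pow_mul, mul_comm lr, mul_comm ls]
  ring

theorem wordU_filter (hS : Sem D K z) (t u : K) (L : List (ℕ × ℤ × ℕ × ℕ)) :
    wordU hS ((L.filter gNz).map (gEv t u)) = wordU hS (L.map (gEv t u)) := by
  induction L with
  | nil => rfl
  | cons c L ih =>
    by_cases h : gNz c = true
    · rw [List.filter_cons_of_pos h, List.map_cons, List.map_cons, wordU_cons, wordU_cons, ih]
    · rw [List.filter_cons_of_neg h, List.map_cons, wordU_cons, ih]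
      have h0 : c.2.1 = 0 := by simpa [gNz] using h
      have h1 : (gEv t u c).2 = 0 := by simp [gEv, h0]
      rw [h1, xU_zero, one_mul]

theorem wordU_one_of_zero (hS : Sem D K z) (w : List (ℕ × K)) (h : ∀ q ∈ w, q.2 = 0) : wordU hS w = 1 := by
  induction w with
  | nil => rfl
  | cons q w ih =>
    rw [wordU_cons, h q (List.mem_cons_self ..), xU_zero, one_mul]
    exact ih (fun q' hq' => h q' (List.mem_cons_of_mem _ hq'))

theorem commute_of_commZero (hS : Sem D K z) (hC : CommMat D K) (a b : ℕ) (h : commZero D p a b = true)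
    (x y : K) : Commute (xU hS a x) (xU hS b y) := by
  simp only [commZero, Bool.and_eq_true, decide_eq_true_eq, List.all_eq_true] at h
  obtain ⟨ha, hb, hne, hne', hall⟩ := h
  have hg := goodPair_of_mat hS (hC a b ha hb hne hne') x y
  have hw : wordU hS (D.commWord K a b x y) = 1 := by
    apply wordU_one_of_zero
    intro q hq
    unfold ChevalleyDatum.commWord at hq
    obtain ⟨c, hc, rfl⟩ := List.mem_map.mp hq
    have h0 := hall c hc
    have h1 : (c.2.1 : K) = 0 := by
      rw [← intCast_emod (K := K) p c.2.1, h0, Int.cast_zero]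
    simp [h1]
  rw [hw, mul_one] at hg
  show xU hS a x * xU hS b y = xU hS b y * xU hS a x
  calc xU hS a x * xU hS b y = xU hS a x * ((xU hS a x)⁻¹ * xU hS b y * xU hS a x) := by rw [hg]
    _ = xU hS b y * xU hS a x := by group

/-- The commutator relation of the pair `(r, s)` for the images of the root elements. -/
theorem graph_rel (hS : Sem D K z) (hC : CommMat D K) (ρ lam : ℕ → ℕ) (r s : ℕ)
    (hρr : ρ r < D.nroots) (hρs : ρ s < D.nroots)
    (h : graphChkPair D p ρ lam r s = true) (t u : K) :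
    (xU hS (ρ s) (u ^ lam s))⁻¹ * (xU hS (ρ r) (t ^ lam r))⁻¹ * xU hS (ρ s) (u ^ lam s) *
        xU hS (ρ r) (t ^ lam r) =
      wordU hS ((D.commWord K r s t u).map fun q => (ρ q.1, q.2 ^ lam q.1)) := by
  simp only [graphChkPair, Bool.and_eq_true, decide_eq_true_eq, List.all_eq_true, Bool.or_eq_true] at h
  obtain ⟨⟨⟨hperm, hcomm⟩, hterms⟩, hne1, hne2⟩ := h
  have hg := goodPair_of_mat hS (hC (ρ r) (ρ s) hρr hρs hne1 hne2) (t ^ lam r) (u ^ lam s)
  have e1 : (xU hS (ρ s) (u ^ lam s))⁻¹ * (xU hS (ρ r) (t ^ lam r))⁻¹ * xU hS (ρ s) (u ^ lam s) *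
      xU hS (ρ r) (t ^ lam r) = wordU hS (D.commWord K (ρ r) (ρ s) (t ^ lam r) (u ^ lam s)) := by
    rw [mul_assoc, mul_assoc, ← mul_assoc (xU hS (ρ r) _)⁻¹, hg, inv_mul_cancel_left]
  rw [e1]
  have eT : wordU hS (D.commWord K (ρ r) (ρ s) (t ^ lam r) (u ^ lam s)) =
      wordU hS ((((D.commTerms (ρ r) (ρ s)).map (gTermT p (lam r) (lam s))).filter gNz).map (gEv t u)) := by
    rw [wordU_filter]
    unfold ChevalleyDatum.commWord
    rw [List.map_map]
    congr 1
    apply List.map_congr_left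
    intro c _
    exact gEv_T p _ _ t u c
  have eS : wordU hS ((D.commWord K r s t u).map fun q => (ρ q.1, q.2 ^ lam q.1)) =
      wordU hS ((((D.commTerms r s).map (gTermS p ρ lam)).filter gNz).map (gEv t u)) := by
    rw [wordU_filter]
    unfold ChevalleyDatum.commWord
    rw [List.map_map, List.map_map]
    congr 1
    apply List.map_congr_left
    intro c hc
    exact gEv_S p ρ lam t u c (hterms c hc).2
  rw [eT, eS]
  have hP := List.isPerm_iff.mp hperm
  unfold wordU
  apply List.Perm.prod_eq' ((hP.map _).map _)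
  apply List.pairwise_of_forall_mem_list
  intro g hg g' hg'
  obtain ⟨q, hq, rfl⟩ := List.mem_map.mp hg
  obtain ⟨q', hq', rfl⟩ := List.mem_map.mp hg'
  obtain ⟨a, ha, rfl⟩ := List.mem_map.mp hq
  obtain ⟨b, hb, rfl⟩ := List.mem_map.mp hq'
  rcases hcomm a ha b hb with hab | hab
  · show Commute (xU hS a.1 _) (xU hS b.1 _)
    rw [hab]
    show xU hS b.1 _ * xU hS b.1 _ = xU hS b.1 _ * xU hS b.1 _
    rw [xU_mul, xU_mul, add_comm]
  · exact commute_of_commZero p hS hC a.1 b.1 hab _ _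

end Sound

section Aut

variable {D : ChevalleyDatum} {K : Type u} [Field K] {z η : ℕ → ℕ → ℤ} (p : ℕ) [Fact p.Prime] [CharP K p]

/-- The image of the generator `x̄_q(t)`, as a matrix. -/
def gY' (hS : Sem D K z) (ρ lam : ℕ → ℕ) (q : ℕ) (t : K) : GL D.Idx K :=
  if q < D.nroots then xU hS (ρ q) (t ^ lam q) else 1

theorem gY'_mem (hS : Sem D K z) (ρ lam : ℕ → ℕ) (q : ℕ) (t : K) : gY' hS ρ lam q t ∈ D.group K := by
  unfold gY'
  split_ifs
  · exact xU_mem_group hS _ _
  · exact Subgroup.one_mem _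

/-- The image of the generator `x̄_q(t)`, in the group. -/
def gY (hS : Sem D K z) (ρ lam : ℕ → ℕ) (q : ℕ) (t : K) : ↥(D.group K) :=
  ⟨gY' hS ρ lam q t, gY'_mem hS ρ lam q t⟩

theorem coe_wordB_gY (hS : Sem D K z) (ρ lam : ℕ → ℕ) (w : List (ℕ × K)) (hw : ∀ q ∈ w, q.1 < D.nroots) :
    ((wordB (gY hS ρ lam) w : ↥(D.group K)) : GL D.Idx K) =
      wordU hS (w.map fun q => (ρ q.1, q.2 ^ lam q.1)) := by
  induction w with
  | nil => rfl
  | cons q w ih =>
    rw [wordB_cons, Subgroup.coe_mul, ih (fun q' hq' => hw q' (List.mem_cons_of_mem _ hq')), List.map_cons,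
      wordU_cons]
    congr 1
    show gY' hS ρ lam q.1 q.2 = _
    unfold gY'
    rw [if_pos (hw q (List.mem_cons_self ..))]

theorem graphChkPair_terms (ρ lam : ℕ → ℕ) (r s : ℕ) (h : graphChkPair D p ρ lam r s = true) :
    ∀ c ∈ D.commTerms r s, c.1 < D.nroots := by
  simp only [graphChkPair, Bool.and_eq_true, decide_eq_true_eq, List.all_eq_true, Bool.or_eq_true] at h
  intro c hc
  exact (h.1.2 c hc).1

/-- The images of the generators satisfy the relations (R1), (R2). -/
theorem gY_rel (hS : Sem D K z) (hC : CommMat D K) (ρ lam : ℕ → ℕ) (h : graphChk D p ρ lam = true) :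
    StRel D (gY hS ρ lam) := by
  simp only [graphChk, Bool.and_eq_true, List.all_eq_true, List.mem_range, decide_eq_true_eq,
    Bool.or_eq_true] at h
  obtain ⟨h1, h2⟩ := h
  refine ⟨?_, ?_⟩
  · intro r hr t u
    apply Subtype.ext
    show gY' hS ρ lam r t * gY' hS ρ lam r u = gY' hS ρ lam r (t + u)
    unfold gY'
    rw [if_pos hr, if_pos hr, if_pos hr, xU_mul, add_pow_lam p t u _ (h1 r hr).1]
  · intro r hr s hs hne hne' t u
    rcases h2 r hr s hs with e | e | e
    · exact absurd e hne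
    · exact absurd e hne'
    · apply Subtype.ext
      have hterms : ∀ q ∈ D.commWord K r s t u, q.1 < D.nroots := by
        intro q hq
        unfold ChevalleyDatum.commWord at hq
        obtain ⟨c, hc, rfl⟩ := List.mem_map.mp hq
        exact graphChkPair_terms p ρ lam r s e c hc
      rw [coe_wordB_gY hS ρ lam _ hterms]
      show (gY' hS ρ lam s u)⁻¹ * (gY' hS ρ lam r t)⁻¹ * gY' hS ρ lam s u * gY' hS ρ lam r t = _
      unfold gY'
      rw [if_pos hr, if_pos hs]
      exact graph_rel p hS hC ρ lam r s (h1 r hr).2.1 (h1 s hs).2.1 e t u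

/-- The homomorphism from the group presented by (R1), (R2). -/
theorem graph_hom (hS : Sem D K z) (hC : CommMat D K) (ρ lam : ℕ → ℕ) (h : graphChk D p ρ lam = true) :
    ∃ f : D.SteinbergCover K →* ↥(D.group K), ∀ r < D.nroots, ∀ t : K,
      f (D.scGen K r t) = gY hS ρ lam r t := by
  have hrel := gY_rel p hS hC ρ lam h
  have hY1 : ∀ q, D.nroots ≤ q → ∀ t : K, gY hS ρ lam q t = 1 := by
    intro q hq t
    apply Subtype.ext
    show gY' hS ρ lam q t = 1
    unfold gY'
    rw [if_neg (by omega)]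
  refine ⟨PresentedGroup.toGroup (liftE_rels (gY hS ρ lam) hY1 hrel), ?_⟩
  intro r hr t
  have h1 : PresentedGroup.toGroup (liftE_rels (gY hS ρ lam) hY1 hrel) (D.scGen K r t) =
      FreeGroup.lift (fun q : Fin D.nroots × K => gY hS ρ lam q.1 q.2) (D.stX r t) := rfl
  rw [h1, liftE_stX (gY hS ρ lam) hY1]

theorem exists_pow_lam [Finite K] (t : K) (l : ℕ) (hl : l = 1 ∨ l = p) : ∃ s : K, s ^ l = t := by
  rcases hl with rfl | rfl
  · exact ⟨t, pow_one t⟩
  · have hinj : Function.Injective (fun x : K => x ^ l) := by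
      intro a b hab
      have h1 : (a - b) ^ l = 0 := by
        rw [sub_pow_char a b]
        exact sub_eq_zero.mpr hab
      exact sub_eq_zero.mp (pow_eq_zero_iff (Fact.out (p := l.Prime)).ne_zero |>.mp h1)
    exact Finite.injective_iff_surjective.mp hinj t

/-- **The graph automorphism**: over a finite field of characteristic `p`, for a unimodular table of Cartan
integers and a checked table `ρ`, `lam`, there is an automorphism mapping `x_r(t)` to `x_{ρ r}(t ^ lam r)`. -/
theorem graph_aut [Finite K] {w w0 : List ℕ} (hpk : PackSt D K z η w w0) (hC : CommMat D K) (hU : UnimodZ D z)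
    (ρ lam : ℕ → ℕ) (h : graphChk D p ρ lam = true) :
    ∃ γ : ↥(D.group K) ≃* ↥(D.group K), ∀ r < D.nroots, ∀ t : K,
      γ (xG hpk.hP.sem r t) = xG hpk.hP.sem (ρ r) (t ^ lam r) := by
  have hS := hpk.hP.sem
  obtain ⟨θ, hθs, hθk, hθx⟩ := steinberg_ker_center hpk.tab hpk.hP hpk.hV hpk.tabW hC
  have hθi : Function.Injective θ := by
    rw [← MonoidHom.ker_eq_bot_iff, hθk]
    exact steinberg_center_bot hpk.tab hpk.hP hpk.hV hpk.tabW hC hU
  obtain ⟨e, he⟩ := cover_equiv hpk.tab hpk.hP hpk.hV hC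
  obtain ⟨f, hf⟩ := graph_hom p hS hC ρ lam h
  let θE : D.SteinbergGroup K ≃* ↥(D.group K) := MulEquiv.ofBijective θ ⟨hθi, hθs⟩
  have hθE : ∀ r < D.nroots, ∀ t : K, θE (D.stGen K r t) = xG hS r t := by
    intro r hr t
    apply Subtype.ext
    apply Units.ext
    exact hθx r t hr
  let γ₀ : ↥(D.group K) →* ↥(D.group K) :=
    f.comp ((e.symm : D.SteinbergGroup K →* D.SteinbergCover K).comp
      (θE.symm : ↥(D.group K) →* D.SteinbergGroup K))
  have hγ₀ : ∀ r < D.nroots, ∀ t : K, γ₀ (xG hS r t) = xG hS (ρ r) (t ^ lam r) := by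
    intro r hr t
    show f (e.symm (θE.symm (xG hS r t))) = _
    rw [← hθE r hr t, MulEquiv.symm_apply_apply, ← he r t, MulEquiv.symm_apply_apply, hf r hr t]
    apply Subtype.ext
    show gY' hS ρ lam r t = _
    unfold gY'
    rw [if_pos hr]
    rfl
  simp only [graphChk, Bool.and_eq_true, List.all_eq_true, List.mem_range, decide_eq_true_eq,
    Bool.or_eq_true] at h
  obtain ⟨h1, -⟩ := h
  have hsurj : Function.Surjective γ₀ := by
    rw [← MonoidHom.range_eq_top, eq_top_iff]
    rintro ⟨g, hg⟩ -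
    have key : ∀ (x : GL D.Idx K) (hx : x ∈ D.group K), (⟨x, hx⟩ : ↥(D.group K)) ∈ γ₀.range := by
      intro x hx
      unfold ChevalleyDatum.group at hx
      induction hx using Subgroup.closure_induction with
      | mem x hx =>
        obtain ⟨r, t, hx⟩ := hx
        obtain ⟨hl, hlt, hρρ⟩ := h1 r.1 r.2
        obtain ⟨hl', -, -⟩ := h1 (ρ r.1) hlt
        obtain ⟨s, hs⟩ := exists_pow_lam p t (lam (ρ r.1)) hl'
        refine ⟨xG hS (ρ r.1) s, ?_⟩
        rw [hγ₀ _ hlt s, hρρ, hs]
        apply Subtype.ext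
        apply Units.ext
        show D.x K r.val t = _
        rw [hx]
        simp [ChevalleyDatum.x, r.isLt]
      | one => exact Subgroup.one_mem _
      | mul x y hx hy ihx ihy => exact Subgroup.mul_mem _ ihx ihy
      | inv x hx ihx => exact Subgroup.inv_mem _ ihx
    exact key g hg
  have hinj : Function.Injective γ₀ := Finite.injective_iff_surjective.mpr hsurj
  exact ⟨MulEquiv.ofBijective γ₀ ⟨hinj, hsurj⟩, hγ₀⟩

end Aut

end Cfsg.Agent.H46.OutG
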