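import Cfsg.Agent.H46.OutGMain
import Cfsg.Agent.H46.OutGF4Defs
import Cfsg.Agent.H46.OutGGraph
import Cfsg.Agent.H46.StUnimod
import Cfsg.Agent.H23.OrdH
import Cfsg.Agent.H23.SylowU
import Cfsg.Agent.H23.Gens

/-!
# S2122: the table facts of type `F₄` and the count (helper46)
-/

set_option autoImplicit false

namespace Cfsg.Agent.H46.OutG

open Cfsg.Lie Cfsg.Agent.H23 Cfsg.Agent.H23.Stb Cfsg.Agent.H46.OutE Cfsg.Agent.H78.StbG Cfsg.Agent.H46

universe u

/-- The edges of the Dynkin diagram of type `F₄` (nodes `0, 1` short, `2, 3` long). -/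
def adjLF4 : List (ℕ × ℕ) := [(0, 1), (1, 0), (1, 2), (2, 1), (2, 3), (3, 2)]

/-- Adjacency in the Dynkin diagram of type `F₄`. -/
abbrev adjF4 (i j : ℕ) : Prop := (i, j) ∈ adjLF4

theorem f4_w0 : ∀ i < chevF4.rank, reflW chevF4 w0F4 (chevF4.neg (chevF4.simple i)) = chevF4.simple i := by
  decide +kernel

set_option synthInstance.maxSize 4096 in
set_option synthInstance.maxHeartbeats 400000 in
theorem f4_c2T : ∀ i < chevF4.rank, ∀ j < chevF4.rank, i ≠ j →
    chevF4.commTerms (chevF4.neg (chevF4.simple i)) (chevF4.simple j) = [] ∧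
    chevF4.neg (chevF4.simple i) < chevF4.nroots ∧ chevF4.simple j < chevF4.nroots ∧
    chevF4.simple j ≠ chevF4.neg (chevF4.simple i) ∧
    chevF4.simple j ≠ chevF4.neg (chevF4.neg (chevF4.simple i)) ∧
    chevF4.simple i < chevF4.nroots ∧ chevF4.simple j ≠ chevF4.simple i ∧
    chevF4.simple j ≠ chevF4.neg (chevF4.simple i) := by
  decide +kernel

set_option synthInstance.maxSize 4096 in
set_option synthInstance.maxHeartbeats 400000 in
theorem f4_nadjT : ∀ i < chevF4.rank, ∀ j < chevF4.rank, i ≠ j → ¬ adjF4 i j →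
    chevF4.commTerms (chevF4.simple i) (chevF4.simple j) = [] := by
  decide +kernel

set_option synthInstance.maxSize 4096 in
set_option synthInstance.maxHeartbeats 400000 in
theorem f4_adjT : ∀ i < chevF4.rank, ∀ j < chevF4.rank, adjF4 i j →
    ∃ c ∈ (chevF4.commTerms (chevF4.simple i) (chevF4.simple j)).head?,
      c.1 < chevF4.nroots ∧ (c.2.1 = 1 ∨ c.2.1 = -1) ∧ c.2.2.1 = 1 ∧ c.2.2.2 = 1 ∧
      (chevF4.commTerms (chevF4.simple i) (chevF4.simple j)).length ≤ 2 ∧
      ∀ c' ∈ (chevF4.commTerms (chevF4.simple i) (chevF4.simple j)).tail, c'.1 < chevF4.nroots ∧ c'.1 ≠ c.1 := by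
  decide +kernel

/-- The inverse of the Cartan matrix of type `F₄`. -/
def aiLF4 : List (List ℤ) := [[2, 3, 2, 1], [3, 6, 4, 2], [4, 8, 6, 3], [2, 4, 3, 2]]

theorem f4_A1 : ∀ i j : Fin chevF4.rank,
    mulZ (fun i j : Fin chevF4.rank => zF4 (chevF4.simple j) (chevF4.simple i))
      (matL aiLF4) i j = ((1 : ℕ) : ℤ) * idZ i j := by
  decide +kernel

theorem f4_A2 : ∀ i j : Fin chevF4.rank,
    mulZ (matL aiLF4)
      (fun i j : Fin chevF4.rank => zF4 (chevF4.simple j) (chevF4.simple i)) i j =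
        ((1 : ℕ) : ℤ) * idZ i j := by
  decide +kernel

theorem f4_zneg : ∀ i < chevF4.rank, ∀ j < chevF4.rank,
    zF4 (chevF4.simple j) (chevF4.neg (chevF4.simple i)) = - zF4 (chevF4.simple j) (chevF4.simple i) := by
  decide +kernel

theorem f4_edges : zF4 (chevF4.simple 1) (chevF4.simple 0) = -1 ∧
    (zF4 (chevF4.simple 2) (chevF4.simple 1) = -1 ∨ zF4 (chevF4.simple 1) (chevF4.simple 2) = -1) ∧
    zF4 (chevF4.simple 3) (chevF4.simple 2) = -1 := by
  decide +kernel

theorem f4_connS : ∀ P : ℕ → Prop, P 0 →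
    (∀ i < chevF4.rank, ∀ j < chevF4.rank,
      (zF4 (chevF4.simple j) (chevF4.simple i) = -1 ∨ zF4 (chevF4.simple i) (chevF4.simple j) = -1) →
        P i → P j) → ∀ i < chevF4.rank, P i := by
  intro P h0 hstep i hi
  obtain ⟨e1, e2, e3⟩ := f4_edges
  have hr : chevF4.rank = 4 := rfl
  have h1 : P 1 := hstep 0 (by omega) 1 (by omega) (Or.inl e1) h0
  have h2 : P 2 := hstep 1 (by omega) 2 (by omega) e2 h1
  have h3 : P 3 := hstep 2 (by omega) 3 (by omega) (Or.inl e3) h2
  have hi' : i < 4 := hi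
  interval_cases i <;> assumption

set_option synthInstance.maxSize 4096 in
set_option synthInstance.maxHeartbeats 400000 in
theorem f4_diagFin : ∀ p0 p1 p2 p3 : Fin 4, adjF4 p0.1 p1.1 → adjF4 p1.1 p2.1 → adjF4 p2.1 p3.1 →
    p0 ≠ p2 → p1 ≠ p3 →
    (p0.1 = 0 ∧ p1.1 = 1 ∧ p2.1 = 2 ∧ p3.1 = 3) ∨ (p0.1 = 3 ∧ p1.1 = 2 ∧ p2.1 = 1 ∧ p3.1 = 0) := by
  decide +kernel

theorem f4_diag : ∀ π : ℕ → ℕ, (∀ i < chevF4.rank, π i < chevF4.rank) →
    (∀ i < chevF4.rank, ∀ j < chevF4.rank, π i = π j → i = j) →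
    (∀ i < chevF4.rank, ∀ j < chevF4.rank, i ≠ j → (adjF4 (π i) (π j) ↔ adjF4 i j)) →
    (∀ i < chevF4.rank, π i = i) ∨ (∀ i < chevF4.rank, π i = 3 - i) := by
  intro π hlt hinj hadj
  have hr : chevF4.rank = 4 := rfl
  have b : ∀ i, i < 4 → π i < 4 := fun i hi => hlt i (by omega)
  have ne : ∀ i j, ∀ (hi : i < 4) (hj : j < 4), i ≠ j → (⟨π i, b i hi⟩ : Fin 4) ≠ ⟨π j, b j hj⟩ := by
    intro i j hi hj hij h
    exact hij (hinj i (by omega) j (by omega) (congrArg Fin.val h))
  have ad : ∀ i j, i < 4 → j < 4 → i ≠ j → adjF4 i j → adjF4 (π i) (π j) := by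
    intro i j hi hj hij h
    exact (hadj i (by omega) j (by omega) hij).mpr h
  have key := f4_diagFin ⟨π 0, b 0 (by omega)⟩ ⟨π 1, b 1 (by omega)⟩ ⟨π 2, b 2 (by omega)⟩
    ⟨π 3, b 3 (by omega)⟩ (ad 0 1 (by omega) (by omega) (by omega) (by decide))
    (ad 1 2 (by omega) (by omega) (by omega) (by decide))
    (ad 2 3 (by omega) (by omega) (by omega) (by decide))
    (ne 0 2 (by omega) (by omega) (by omega)) (ne 1 3 (by omega) (by omega) (by omega))
  rcases key with ⟨k0, k1, k2, k3⟩ | ⟨k0, k1, k2, k3⟩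
  · left
    simp only at k0 k1 k2 k3
    intro i hi
    have hi' : i < 4 := hi
    interval_cases i <;> assumption
  · right
    simp only at k0 k1 k2 k3
    intro i hi
    have hi' : i < 4 := hi
    interval_cases i <;> assumption

section

variable (F : Type u) [Field F]

theorem f4_c2 : ∀ i < chevF4.rank, ∀ j < chevF4.rank, i ≠ j → ∀ t u : F,
    xU (packS_F4 F).hP.sem (chevF4.simple j) u * xU (packS_F4 F).hP.sem (chevF4.neg (chevF4.simple i)) t =
      xU (packS_F4 F).hP.sem (chevF4.neg (chevF4.simple i)) t * xU (packS_F4 F).hP.sem (chevF4.simple j) u := by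
  intro i hi j hj hij t u
  obtain ⟨hterms, hlt, hlt', hne1, hne2, -, -, -⟩ := f4_c2T i hi j hj hij
  have h1 := commF4 F _ _ hlt hlt' hne1 hne2 t u
  unfold ChevalleyDatum.commWord at h1
  simp only [hterms, List.map_nil, wordU_nil, mul_one] at h1
  exact h1

theorem f4_adj : ∀ i < chevF4.rank, ∀ j < chevF4.rank, i ≠ j →
    ((∀ t u : F, xU (packS_F4 F).hP.sem (chevF4.simple i) t * xU (packS_F4 F).hP.sem (chevF4.simple j) u =
      xU (packS_F4 F).hP.sem (chevF4.simple j) u * xU (packS_F4 F).hP.sem (chevF4.simple i) t) ↔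
        ¬ adjF4 i j) := by
  intro i hi j hj hij
  obtain ⟨-, -, hlt', -, -, hlt, hne3, hne4⟩ := f4_c2T i hi j hj hij
  have hPc := commF4 F _ _ hlt hlt' hne3 hne4
  constructor
  · intro hcomm hadj
    obtain ⟨c, hc, hc1, hc2, hc3, hc4, hlen, htail⟩ := f4_adjT i hi j hj hadj
    have h1 := hPc 1 1
    rw [← hcomm 1 1] at h1
    have h2 : wordU (packS_F4 F).hP.sem (chevF4.commWord F (chevF4.simple i) (chevF4.simple j) 1 1) = 1 := by
      have := h1.symm
      rwa [mul_eq_left] at this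
    unfold ChevalleyDatum.commWord at h2
    cases hL : chevF4.commTerms (chevF4.simple i) (chevF4.simple j) with
    | nil => rw [hL] at hc; simp at hc
    | cons c0 L =>
      rw [hL] at hc hlen htail h2
      simp only [List.head?_cons, Option.mem_def, Option.some.injEq] at hc
      subst hc
      have hv : ((c0.2.1 : F) * (-1) ^ c0.2.2.1 * 1 ^ c0.2.2.2) ≠ 0 := by
        rw [hc3, hc4]
        rcases hc2 with h | h <;> rw [h] <;> simp
      cases L with
      | nil =>
        simp only [List.map_cons, List.map_nil, wordU_cons, wordU_nil, mul_one] at h2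
        exact hv (xU_eq_one_imp (packS_F4 F).hP.sem tab_F4 tab2_F4 c0.1 hc1 _ h2)
      | cons c1 L' =>
        cases L' with
        | nil =>
          simp only [List.map_cons, List.map_nil, wordU_cons, wordU_nil, mul_one] at h2
          have h3 := htail c1 (by simp)
          have h4 : xU (packS_F4 F).hP.sem c0.1 ((c0.2.1 : F) * (-1) ^ c0.2.2.1 * 1 ^ c0.2.2.2) =
              xU (packS_F4 F).hP.sem c1.1 (-((c1.2.1 : F) * (-1) ^ c1.2.2.1 * 1 ^ c1.2.2.2)) := by
            rw [← xU_inv, eq_inv_iff_mul_eq_one]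
            exact h2
          exact h3.2 (xU_eq_imp (packS_F4 F).hP c0.1 c1.1 hc1 h3.1 _ _ h4 hv).symm
        | cons c2 L'' => simp at hlen
  · intro hadj t u
    have hterms := f4_nadjT i hi j hj hij hadj
    have h1 := hPc t u
    unfold ChevalleyDatum.commWord at h1
    simp only [hterms, List.map_nil, wordU_nil, mul_one] at h1
    exact h1.symm

theorem f4_homExt : HomExt (packS_F4 F).hP.sem := by
  intro a b h
  apply hom_ext_fund (packS_F4 F).hP.sem (packS_F4 F).hP.semN tab_F4 a b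
  intro g i t hi hg
  rcases hg with hg | hg
  · have : g = xG (packS_F4 F).hP.sem (chevF4.simple i) t :=
      Subtype.ext (eq_xU (packS_F4 F).hP.sem g.1 _ t hg)
    rw [this]; exact (h i hi t).1
  · have : g = xG (packS_F4 F).hP.sem (chevF4.neg (chevF4.simple i)) t :=
      Subtype.ext (eq_xU (packS_F4 F).hP.sem g.1 _ t hg)
    rw [this]; exact (h i hi t).2

theorem f4_commExt : CommExt (packB_F4 F).sem := by
  intro m hm r hr t
  have hmem : xU (packB_F4 F).sem r t ∈ fundGen chevF4 F :=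
    xU_mem_fundGen (packB_F4 F).sem (packB_F4 F).semN tab_F4 r hr t
  have hle : fundGen chevF4 F ≤ Subgroup.centralizer {m} := by
    unfold fundGen
    rw [Subgroup.closure_le]
    rintro g ⟨i, u, hi, hg | hg⟩
    · rw [SetLike.mem_coe, Subgroup.mem_centralizer_iff]
      intro x hx
      rw [Set.mem_singleton_iff] at hx
      rw [hx, eq_xU (packB_F4 F).sem g _ u hg]
      exact (hm i hi u).1
    · rw [SetLike.mem_coe, Subgroup.mem_centralizer_iff]
      intro x hx
      rw [Set.mem_singleton_iff] at hx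
      rw [hx, eq_xU (packB_F4 F).sem g _ u hg]
      exact (hm i hi u).2
  have := hle hmem
  rw [Subgroup.mem_centralizer_iff] at this
  exact this m rfl

end

/-! ## The graph automorphism in characteristic 2 -/

/-- The map of the roots of type `F₄` interchanging long and short roots. -/
def rhoLF4 : List ℕ := [3, 7, 8, 0, 9, 11, 18, 1, 2, 4, 15, 5, 16, 21, 23, 10, 12, 19, 6, 17, 22, 13, 20, 14, 33,
  27, 34, 25, 30, 41, 28, 35, 37, 24, 26, 31, 42, 32, 43, 45, 46, 29, 36, 38, 47, 39, 40, 44]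

/-- The exponents: `2` on the short roots, `1` on the long roots. -/
def lamLF4 : List ℕ := [1, 1, 1, 2, 1, 1, 1, 2, 2, 2, 2, 2, 2, 2, 2, 1, 1, 1, 2, 2, 2, 1, 1, 1, 1, 1, 1, 2, 2, 2, 1,
  1, 1, 2, 2, 2, 2, 2, 2, 2, 2, 1, 1, 1, 2, 1, 1, 1]

abbrev rhoF4 (r : ℕ) : ℕ := rhoLF4.getD r 0

abbrev lamF4 (r : ℕ) : ℕ := lamLF4.getD r 1

set_option maxRecDepth 100000 in
theorem f4_graphChk : graphChk chevF4 2 rhoF4 lamF4 = true := by decide +kernel

theorem f4_rho_simple : ∀ i < chevF4.rank,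
    rhoF4 (chevF4.simple i) = chevF4.simple (3 - i) ∧
    rhoF4 (chevF4.neg (chevF4.simple i)) = chevF4.neg (chevF4.simple (3 - i)) ∧
    (lamF4 (chevF4.simple i) = 1 ∨ lamF4 (chevF4.simple i) = 2) ∧
    (lamF4 (chevF4.neg (chevF4.simple i)) = 1 ∨ lamF4 (chevF4.neg (chevF4.simple i)) = 2) := by
  decide +kernel

theorem f4_rho_pos : ∀ r < chevF4.nroots, (chevF4.IsPosRoot r → chevF4.IsPosRoot (rhoF4 r)) ∧
    (chevF4.IsNegRoot r → chevF4.IsNegRoot (rhoF4 r)) := by
  decide +kernel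

theorem f4_commMat (F : Type u) [Field F] : CommMat chevF4 F :=
  fun r s hr hs h1 h2 => commAll_F4 r s hr hs h1 h2

/-- The exceptional graph automorphism of `F₄(q)`, `q` even. -/
theorem f4_graph (F : Type u) [Field F] [Finite F] [CharP F 2] :
    ∃ γ : ↥(chevF4.group F) ≃* ↥(chevF4.group F), ∀ r < chevF4.nroots, ∀ t : F,
      γ (xG (packS_F4 F).hP.sem r t) = xG (packS_F4 F).hP.sem (rhoF4 r) (t ^ lamF4 r) := by
  haveI : Fact (Nat.Prime 2) := ⟨Nat.prime_two⟩
  exact graph_aut 2 (packSt_F4 F) (f4_commMat F) unimod_F4 rhoF4 lamF4 f4_graphChk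

/-- An automorphism preserving `U` and `V` fixes or flips the diagram. -/
theorem f4_cases (neg : StNeg.{u}) (pos : StPos.{u}) (matchG : StMatchG.{u}) (rootMap : StRootMap.{u})
    (F : Type u) [Field F] (θ : ↥(chevF4.group F) ≃* ↥(chevF4.group F)) (hθ : θ ∈ autS chevF4 F) :
    FixFund (packS_F4 F).hP.sem θ ∨
      ∀ i < chevF4.rank, RootTo (packS_F4 F).hP.sem θ (chevF4.simple i) (chevF4.simple (3 - i)) ∧
        RootTo (packS_F4 F).hP.sem θ (chevF4.neg (chevF4.simple i)) (chevF4.neg (chevF4.simple (3 - i))) := by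
  obtain ⟨π, hlt, hinj, hadj, hroot⟩ := autS_perm neg pos matchG rTF4 w0F4 (packS_F4 F) adjF4 f4_w0
    (f4_c2 F) (f4_adj F) θ hθ
  rcases f4_diag π hlt hinj hadj with h | h
  · left
    apply fixFund_of_rootTo rootMap (packS_F4 F).hP θ
    intro i hi
    have h1 := hroot i hi
    rw [h i hi] at h1
    exact h1
  · right
    intro i hi
    have h1 := hroot i hi
    rw [h i hi] at h1
    exact h1

/-- **Outer automorphisms of `F₄(q)`**, from the pieces. -/
theorem out_F4 (syl : StSyl.{u}) (opp : StOpp.{u}) (sInn : StSInn.{u}) (cnt : StCnt.{u})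
    (dAut : StDAut.{u}) (decomp : StDecomp.{u}) (cardT : StCardT.{u}) (field : StField.{u})
    (gal : StGal.{u}) (neg : StNeg.{u}) (pos : StPos.{u}) (matchG : StMatchG.{u})
    (rootMap : StRootMap.{u}) (rootPres : StRootPres.{u}) (asm2S : StAsm2S.{u}) (cnt2 : StCnt2.{u})
    (flip : StFlip.{u}) (notFix : StNotFix.{u}) (noFlip : StNoFlipF4.{u})
    {F : Type u} [Field F] [Fintype F] (p f : ℕ) [Fact p.Prime] [CharP F p]
    (hF : Fintype.card F = p ^ f) :
    Nat.card (Cfsg.Out ↥(chevF4.group F)) = Nat.gcd 2 p * f := by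
  have hF' : Nat.card F = p ^ f := by rw [Nat.card_eq_fintype_card, hF]
  have hA2N : HasAsm2N (packS_F4 F).hP.sem :=
    asm2S chevF4 F zF4 ηF4 rTF4 w0F4 (packS_F4 F) (by decide) ⟨0, by decide, 1, by decide, f4_edges.1⟩
      f4_connS (f4_homExt F)
  have key : ∀ e : ℕ, (HasDecomp (packS_F4 F).hP.sem →
      Nat.card ↥(autS chevF4 F) = e * Nat.card ↥(autT (packS_F4 F).hP.sem)) →
      Nat.card (Cfsg.Out ↥(chevF4.group F)) = 1 * e * f := by
    intro e he
    refine outG_card syl opp sInn cnt dAut decomp cardT field gal chevF4 F p f hF' zF4 ηF4 rTF4 w0F4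
      (packS_F4 F) (packB_F4 (AlgebraicClosure F)) (exists_sylow_posUnipotent p chevF4 (by simp)) 1
      (matL aiLF4) (by norm_num) f4_A1 f4_A2 f4_zneg (by decide) hA2N (f4_homExt F)
      (f4_commExt (AlgebraicClosure F)) 1 ?_ e he
    rw [hF']
    exact cardH_F4 hF
  have hr : chevF4.rank = 4 := rfl
  by_cases hp : p = 2
  · subst hp
    rw [key 2 ?_]
    · norm_num
    · intro hDec
      obtain ⟨γ, hγ⟩ := f4_graph F
      have hTS := autT_le_autS rootPres (packS_F4 F).hP.sem hDec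
      have hγS : γ ∈ autS chevF4 F :=
        rootPres chevF4 F zF4 (packS_F4 F).hP.sem γ rhoF4 (fun r hr => (f4_rho_pos r hr.1).1 hr)
          (fun r hr => (f4_rho_pos r hr.1).2 hr) (fun r hr t => ⟨_, hγ r hr t⟩)
      have hγR : ∀ i < chevF4.rank,
          RootTo (packS_F4 F).hP.sem γ (chevF4.simple i) (chevF4.simple (3 - i)) ∧
          RootTo (packS_F4 F).hP.sem γ (chevF4.neg (chevF4.simple i))
            (chevF4.neg (chevF4.simple (3 - i))) := by
        intro i hi
        obtain ⟨e1, e2, l1, l2⟩ := f4_rho_simple i hi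
        have h1 := tab_F4.simple_lt i hi
        have h2 := tab_F4.neg_lt _ h1
        refine ⟨⟨fun t => ⟨_, by rw [hγ _ h1 t, e1]⟩, fun t' => ?_⟩,
          ⟨fun t => ⟨_, by rw [hγ _ h2 t, e2]⟩, fun t' => ?_⟩⟩
        · obtain ⟨s, hs⟩ := exists_pow_lam 2 t' _ l1
          exact ⟨s, by rw [hγ _ h1 s, e1, hs]⟩
        · obtain ⟨s, hs⟩ := exists_pow_lam 2 t' _ l2
          exact ⟨s, by rw [hγ _ h2 s, e2, hs]⟩
      exact card_autS_flip cnt2 flip notFix rootMap rTF4 w0F4 (packS_F4 F) (f4_c2 F) (fun i => 3 - i)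
        (by intro i hi; omega) (by intro i hi; omega) 0 (by decide) (by decide) γ hγS hγR hTS
        (fun θ hθ => f4_cases neg pos matchG rootMap F θ hθ)
  · have h2 : (2 : F) ≠ 0 := by
      intro h0
      have h1 : ((2 : ℕ) : F) = 0 := by exact_mod_cast h0
      rw [CharP.cast_eq_zero_iff F p 2] at h1
      rcases (Nat.dvd_prime Nat.prime_two).mp h1 with h | h
      · exact (Fact.out (p := p.Prime)).one_lt.ne' h
      · exact hp h
    rw [key 1 ?_]
    · have hg : Nat.gcd 2 p = 1 :=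
        (Nat.coprime_primes Nat.prime_two (Fact.out (p := p.Prime))).mpr (Ne.symm hp)
      rw [hg]
    · intro hDec
      apply card_autS_noflip (packS_F4 F).hP.sem (autT_le_autS rootPres _ hDec)
      intro θ hθ
      rcases f4_cases neg pos matchG rootMap F θ hθ with h | h
      · exact h
      · exfalso
        exact noFlip F h2 θ ⟨(h 1 (by decide)).1, (h 2 (by decide)).1⟩

end Cfsg.Agent.H46.OutG
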