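import Cfsg.Agent.H46.OutGDefs
import Cfsg.Agent.H23.OrdG2
import Cfsg.Agent.H23.CommAllG2

/-!
# S2121 / S2122: the pack of table facts of type `G2` and the statement of the piece OG-NOFLIP-G2 (helper46)

Closure: the generic engine `Cfsg/Agent/H23` + the `G2` tables only.
-/

set_option autoImplicit false

namespace Cfsg.Agent.H46.OutG

open Cfsg.Lie Cfsg.Agent.H23 Cfsg.Agent.H23.Stb Cfsg.Agent.H46.OutE

universe u

/-- The exponent function of type `G2`. -/
abbrev zG2 : ℕ → ℕ → ℤ := zR chevG2 ctblG2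

/-- The signs of type `G2`. -/
abbrev ηG2 : ℕ → ℕ → ℤ := fun i s => etaBit (etaG2.getD i 0) s

theorem tabL_G2' : TabL chevG2 rTG2 where
  one := by decide +kernel
  lin := by decide +kernel
  pos := by decide +kernel
  neg := by decide +kernel

theorem packB_G2 (F : Type u) [Field F] : PackB chevG2 F zG2 ηG2 :=
  ⟨chk_G2.sem F, nconj_G2.semN chk_G2.tblOK F, comm_G2.semC chk_G2.tblOK F, tab_G2, tabC_G2,
    etaNeg_G2, tab2_G2⟩

/-- The pack of table facts of type `G2`. -/
theorem packS_G2 (F : Type u) [Field F] : PackS chevG2 F zG2 ηG2 rTG2 w0G2 :=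
  ⟨packB_G2 F, trin_G2.semV chk_G2.tblOK F, tabT_G2, tabL_G2', tabW_G2⟩

/-- The commutator formula for every pair of roots `s ≠ ±r` of type `G2`, in the group. -/
theorem commG2 (F : Type u) [Field F] (r s : ℕ) (hr : r < chevG2.nroots) (hs : s < chevG2.nroots)
    (hne : s ≠ r) (hne' : s ≠ chevG2.neg r) (t u : F) :
    xU (packS_G2 F).hP.sem s u * xU (packS_G2 F).hP.sem r t =
      xU (packS_G2 F).hP.sem r t * xU (packS_G2 F).hP.sem s u *
        wordU (packS_G2 F).hP.sem (chevG2.commWord F r s t u) :=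
  (Pc_iff (packS_G2 F).hP.sem r s).mp (commAll_G2 r s hr hs hne hne') t u

/-- **OG-NOFLIP-G2**: `G₂`, characteristic not 3, at least 3 elements: no automorphism swaps the root subgroups of the short root `α₀` and the long root `α₁`. -/
def StNoFlipG2 : Prop :=
  ∀ (F : Type u) [Field F], (3 : F) ≠ 0 → (∃ ζ : F, ζ ≠ 0 ∧ ζ + 1 ≠ 0) →
    ∀ θ : ↥(chevG2.group F) ≃* ↥(chevG2.group F),
    ¬ (RootTo (packS_G2 F).hP.sem θ (chevG2.simple 0) (chevG2.simple 1) ∧
      RootTo (packS_G2 F).hP.sem θ (chevG2.simple 1) (chevG2.simple 0))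

end Cfsg.Agent.H46.OutG
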