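import Cfsg.Agent.H46.OutGMain
import Cfsg.Agent.H46.OutGG2Defs
import Cfsg.Agent.H46.OutGGraph
import Cfsg.Agent.H46.StUnimod
import Cfsg.Agent.H23.OrdH
import Cfsg.Agent.H23.SylowU
import Cfsg.Agent.H23.Gens

/-!
# S2121: the table facts of type `G₂` and the count (helper46)
-/

set_option autoImplicit false

namespace Cfsg.Agent.H46.OutG

open Cfsg.Lie Cfsg.Agent.H23 Cfsg.Agent.H23.Stb Cfsg.Agent.H46.OutE Cfsg.Agent.H78.StbG Cfsg.Agent.H46

universe u

theorem g2_w0 : ∀ i < chevG2.rank, reflW chevG2 w0G2 (chevG2.neg (chevG2.simple i)) = chevG2.simple i := by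
  decide +kernel

set_option synthInstance.maxSize 4096 in
set_option synthInstance.maxHeartbeats 400000 in
theorem g2_c2T : ∀ i < chevG2.rank, ∀ j < chevG2.rank, i ≠ j →
    chevG2.commTerms (chevG2.neg (chevG2.simple i)) (chevG2.simple j) = [] ∧
    chevG2.neg (chevG2.simple i) < chevG2.nroots ∧ chevG2.simple j < chevG2.nroots ∧
    chevG2.simple j ≠ chevG2.neg (chevG2.simple i) ∧
    chevG2.simple j ≠ chevG2.neg (chevG2.neg (chevG2.simple i)) := by
  decide +kernel

/-- The inverse of the Cartan matrix of type `G₂`. -/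
def aiLG2 : List (List ℤ) := [[2, 1], [3, 2]]

theorem g2_A1 : ∀ i j : Fin chevG2.rank,
    mulZ (fun i j : Fin chevG2.rank => zG2 (chevG2.simple j) (chevG2.simple i))
      (matL aiLG2) i j = ((1 : ℕ) : ℤ) * idZ i j := by
  decide +kernel

theorem g2_A2 : ∀ i j : Fin chevG2.rank,
    mulZ (matL aiLG2)
      (fun i j : Fin chevG2.rank => zG2 (chevG2.simple j) (chevG2.simple i)) i j =
        ((1 : ℕ) : ℤ) * idZ i j := by
  decide +kernel

theorem g2_zneg : ∀ i < chevG2.rank, ∀ j < chevG2.rank,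
    zG2 (chevG2.simple j) (chevG2.neg (chevG2.simple i)) = - zG2 (chevG2.simple j) (chevG2.simple i) := by
  decide +kernel

theorem g2_edge : ∃ i < chevG2.rank, ∃ j < chevG2.rank, zG2 (chevG2.simple j) (chevG2.simple i) = -1 := by
  decide +kernel

theorem g2_edge' : zG2 (chevG2.simple 1) (chevG2.simple 0) = -1 ∨ zG2 (chevG2.simple 0) (chevG2.simple 1) = -1 := by
  decide +kernel

theorem g2_connS : ∀ P : ℕ → Prop, P 0 →
    (∀ i < chevG2.rank, ∀ j < chevG2.rank,
      (zG2 (chevG2.simple j) (chevG2.simple i) = -1 ∨ zG2 (chevG2.simple i) (chevG2.simple j) = -1) →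
        P i → P j) → ∀ i < chevG2.rank, P i := by
  intro P h0 hstep i hi
  have hr : chevG2.rank = 2 := rfl
  have h1 : P 1 := hstep 0 (by omega) 1 (by omega) g2_edge' h0
  have hi' : i < 2 := hi
  interval_cases i <;> assumption

section

variable (F : Type u) [Field F]

theorem g2_c2 : ∀ i < chevG2.rank, ∀ j < chevG2.rank, i ≠ j → ∀ t u : F,
    xU (packS_G2 F).hP.sem (chevG2.simple j) u * xU (packS_G2 F).hP.sem (chevG2.neg (chevG2.simple i)) t =
      xU (packS_G2 F).hP.sem (chevG2.neg (chevG2.simple i)) t * xU (packS_G2 F).hP.sem (chevG2.simple j) u := by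
  intro i hi j hj hij t u
  obtain ⟨hterms, hlt, hlt', hne1, hne2⟩ := g2_c2T i hi j hj hij
  have h1 := commG2 F _ _ hlt hlt' hne1 hne2 t u
  unfold ChevalleyDatum.commWord at h1
  simp only [hterms, List.map_nil, wordU_nil, mul_one] at h1
  exact h1

theorem g2_homExt : HomExt (packS_G2 F).hP.sem := by
  intro a b h
  apply hom_ext_fund (packS_G2 F).hP.sem (packS_G2 F).hP.semN tab_G2 a b
  intro g i t hi hg
  rcases hg with hg | hg
  · have : g = xG (packS_G2 F).hP.sem (chevG2.simple i) t :=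
      Subtype.ext (eq_xU (packS_G2 F).hP.sem g.1 _ t hg)
    rw [this]; exact (h i hi t).1
  · have : g = xG (packS_G2 F).hP.sem (chevG2.neg (chevG2.simple i)) t :=
      Subtype.ext (eq_xU (packS_G2 F).hP.sem g.1 _ t hg)
    rw [this]; exact (h i hi t).2

theorem g2_commExt : CommExt (packB_G2 F).sem := by
  intro m hm r hr t
  have hmem : xU (packB_G2 F).sem r t ∈ fundGen chevG2 F :=
    xU_mem_fundGen (packB_G2 F).sem (packB_G2 F).semN tab_G2 r hr t
  have hle : fundGen chevG2 F ≤ Subgroup.centralizer {m} := by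
    unfold fundGen
    rw [Subgroup.closure_le]
    rintro g ⟨i, u, hi, hg | hg⟩
    · rw [SetLike.mem_coe, Subgroup.mem_centralizer_iff]
      intro x hx
      rw [Set.mem_singleton_iff] at hx
      rw [hx, eq_xU (packB_G2 F).sem g _ u hg]
      exact (hm i hi u).1
    · rw [SetLike.mem_coe, Subgroup.mem_centralizer_iff]
      intro x hx
      rw [Set.mem_singleton_iff] at hx
      rw [hx, eq_xU (packB_G2 F).sem g _ u hg]
      exact (hm i hi u).2
  have := hle hmem
  rw [Subgroup.mem_centralizer_iff] at this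
  exact this m rfl

end

/-! ## The graph automorphism in characteristic 3 -/

/-- The map of the roots of type `G₂` interchanging long and short roots. -/
def rhoLG2 : List ℕ := [2, 3, 0, 1, 5, 4, 7, 6, 10, 11, 8, 9]

/-- The exponents: `3` on the short roots, `1` on the long roots. -/
def lamLG2 : List ℕ := [1, 1, 3, 3, 3, 1, 1, 3, 3, 3, 1, 1]

abbrev rhoG2 (r : ℕ) : ℕ := rhoLG2.getD r 0

abbrev lamG2 (r : ℕ) : ℕ := lamLG2.getD r 1

set_option maxRecDepth 100000 in
theorem g2_graphChk : graphChk chevG2 3 rhoG2 lamG2 = true := by decide +kernel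

theorem g2_rho_simple : ∀ i < chevG2.rank,
    rhoG2 (chevG2.simple i) = chevG2.simple (1 - i) ∧
    rhoG2 (chevG2.neg (chevG2.simple i)) = chevG2.neg (chevG2.simple (1 - i)) ∧
    (lamG2 (chevG2.simple i) = 1 ∨ lamG2 (chevG2.simple i) = 3) ∧
    (lamG2 (chevG2.neg (chevG2.simple i)) = 1 ∨ lamG2 (chevG2.neg (chevG2.simple i)) = 3) := by
  decide +kernel

theorem g2_rho_pos : ∀ r < chevG2.nroots, (chevG2.IsPosRoot r → chevG2.IsPosRoot (rhoG2 r)) ∧
    (chevG2.IsNegRoot r → chevG2.IsNegRoot (rhoG2 r)) := by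
  decide +kernel

theorem g2_commMat (F : Type u) [Field F] : CommMat chevG2 F :=
  fun r s hr hs h1 h2 => commAll_G2 r s hr hs h1 h2

/-- The exceptional graph automorphism of `G₂(q)`, `q` a power of `3`. -/
theorem g2_graph (F : Type u) [Field F] [Finite F] [CharP F 3] :
    ∃ γ : ↥(chevG2.group F) ≃* ↥(chevG2.group F), ∀ r < chevG2.nroots, ∀ t : F,
      γ (xG (packS_G2 F).hP.sem r t) = xG (packS_G2 F).hP.sem (rhoG2 r) (t ^ lamG2 r) := by
  haveI : Fact (Nat.Prime 3) := ⟨Nat.prime_three⟩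
  exact graph_aut 3 (packSt_G2 F) (g2_commMat F) unimod_G2 rhoG2 lamG2 g2_graphChk

/-- An automorphism preserving `U` and `V` fixes or flips the diagram. -/
theorem g2_cases (neg : StNeg.{u}) (pos : StPos.{u}) (matchG : StMatchG.{u}) (rootMap : StRootMap.{u})
    (F : Type u) [Field F] (θ : ↥(chevG2.group F) ≃* ↥(chevG2.group F)) (hθ : θ ∈ autS chevG2 F) :
    FixFund (packS_G2 F).hP.sem θ ∨
      ∀ i < chevG2.rank, RootTo (packS_G2 F).hP.sem θ (chevG2.simple i) (chevG2.simple (1 - i)) ∧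
        RootTo (packS_G2 F).hP.sem θ (chevG2.neg (chevG2.simple i)) (chevG2.neg (chevG2.simple (1 - i))) := by
  obtain ⟨π, hlt, hinj, -, hroot⟩ := autS_perm neg pos matchG rTG2 w0G2 (packS_G2 F)
    (fun i j => ¬ ∀ t u : F, xU (packS_G2 F).hP.sem (chevG2.simple i) t *
      xU (packS_G2 F).hP.sem (chevG2.simple j) u =
        xU (packS_G2 F).hP.sem (chevG2.simple j) u * xU (packS_G2 F).hP.sem (chevG2.simple i) t)
    g2_w0 (g2_c2 F) (fun i _ j _ _ => not_not.symm) θ hθ
  have hr : chevG2.rank = 2 := rfl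
  have h0 := hlt 0 (by omega)
  have h1 := hlt 1 (by omega)
  have hne : π 0 ≠ π 1 := fun e => absurd (hinj 0 (by omega) 1 (by omega) e) (by omega)
  have hcase : (π 0 = 0 ∧ π 1 = 1) ∨ (π 0 = 1 ∧ π 1 = 0) := by omega
  rcases hcase with ⟨e0, e1⟩ | ⟨e0, e1⟩
  · left
    apply fixFund_of_rootTo rootMap (packS_G2 F).hP θ
    intro i hi
    have h2 := hroot i hi
    have hi' : i < 2 := hi
    interval_cases i
    · rw [e0] at h2; exact h2
    · rw [e1] at h2; exact h2
  · right
    intro i hi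
    have h2 := hroot i hi
    have hi' : i < 2 := hi
    interval_cases i
    · rw [e0] at h2; exact h2
    · rw [e1] at h2; exact h2

/-- **Outer automorphisms of `G₂(q)`**, from the pieces. -/
theorem out_G2 (syl : StSyl.{u}) (opp : StOpp.{u}) (sInn : StSInn.{u}) (cnt : StCnt.{u})
    (dAut : StDAut.{u}) (decomp : StDecomp.{u}) (cardT : StCardT.{u}) (field : StField.{u})
    (gal : StGal.{u}) (neg : StNeg.{u}) (pos : StPos.{u}) (matchG : StMatchG.{u})
    (rootMap : StRootMap.{u}) (rootPres : StRootPres.{u}) (asm2S : StAsm2S.{u}) (cnt2 : StCnt2.{u})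
    (flip : StFlip.{u}) (notFix : StNotFix.{u}) (noFlip : StNoFlipG2.{u})
    {F : Type u} [Field F] [Fintype F] (p f : ℕ) [Fact p.Prime] [CharP F p]
    (hF : Fintype.card F = p ^ f) (hq : 3 ≤ p ^ f) :
    Nat.card (Cfsg.Out ↥(chevG2.group F)) = (if p = 3 then 2 * f else f) := by
  have hF' : Nat.card F = p ^ f := by rw [Nat.card_eq_fintype_card, hF]
  have hA2N : HasAsm2N (packS_G2 F).hP.sem :=
    asm2S chevG2 F zG2 ηG2 rTG2 w0G2 (packS_G2 F) (by decide) g2_edge g2_connS (g2_homExt F)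
  have key : ∀ e : ℕ, (HasDecomp (packS_G2 F).hP.sem →
      Nat.card ↥(autS chevG2 F) = e * Nat.card ↥(autT (packS_G2 F).hP.sem)) →
      Nat.card (Cfsg.Out ↥(chevG2.group F)) = 1 * e * f := by
    intro e he
    refine outG_card syl opp sInn cnt dAut decomp cardT field gal chevG2 F p f hF' zG2 ηG2 rTG2 w0G2
      (packS_G2 F) (packB_G2 (AlgebraicClosure F)) (exists_sylow_posUnipotent p chevG2 (by simp)) 1
      (matL aiLG2) (by norm_num) g2_A1 g2_A2 g2_zneg (by decide) hA2N (g2_homExt F)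
      (g2_commExt (AlgebraicClosure F)) 1 ?_ e he
    rw [hF']
    exact cardH_G2 hF
  have hr : chevG2.rank = 2 := rfl
  by_cases hp : p = 3
  · subst hp
    have hk := key 2 (by
      intro hDec
      obtain ⟨γ, hγ⟩ := g2_graph F
      have hTS := autT_le_autS rootPres (packS_G2 F).hP.sem hDec
      have hγS : γ ∈ autS chevG2 F :=
        rootPres chevG2 F zG2 (packS_G2 F).hP.sem γ rhoG2 (fun r hr => (g2_rho_pos r hr.1).1 hr)
          (fun r hr => (g2_rho_pos r hr.1).2 hr) (fun r hr t => ⟨_, hγ r hr t⟩)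
      have hγR : ∀ i < chevG2.rank,
          RootTo (packS_G2 F).hP.sem γ (chevG2.simple i) (chevG2.simple (1 - i)) ∧
          RootTo (packS_G2 F).hP.sem γ (chevG2.neg (chevG2.simple i))
            (chevG2.neg (chevG2.simple (1 - i))) := by
        intro i hi
        obtain ⟨e1, e2, l1, l2⟩ := g2_rho_simple i hi
        have h1 := tab_G2.simple_lt i hi
        have h2 := tab_G2.neg_lt _ h1
        refine ⟨⟨fun t => ⟨_, by rw [hγ _ h1 t, e1]⟩, fun t' => ?_⟩,
          ⟨fun t => ⟨_, by rw [hγ _ h2 t, e2]⟩, fun t' => ?_⟩⟩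
        · obtain ⟨s, hs⟩ := exists_pow_lam 3 t' _ l1
          exact ⟨s, by rw [hγ _ h1 s, e1, hs]⟩
        · obtain ⟨s, hs⟩ := exists_pow_lam 3 t' _ l2
          exact ⟨s, by rw [hγ _ h2 s, e2, hs]⟩
      exact card_autS_flip cnt2 flip notFix rootMap rTG2 w0G2 (packS_G2 F) (g2_c2 F) (fun i => 1 - i)
        (by intro i hi; omega) (by intro i hi; omega) 0 (by decide) (by decide) γ hγS hγR hTS
        (fun θ hθ => g2_cases neg pos matchG rootMap F θ hθ))
    rw [hk]
    simp
  · have h3 : (3 : F) ≠ 0 := by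
      intro h0
      have h1 : ((3 : ℕ) : F) = 0 := by exact_mod_cast h0
      rw [CharP.cast_eq_zero_iff F p 3] at h1
      rcases (Nat.dvd_prime Nat.prime_three).mp h1 with h | h
      · exact (Fact.out (p := p.Prime)).one_lt.ne' h
      · exact hp h
    have hζ : ∃ ζ : F, ζ ≠ 0 ∧ ζ + 1 ≠ 0 := by
      classical
      by_contra hcon
      push_neg at hcon
      have hsub : (Finset.univ : Finset F) ⊆ {0, -1} := by
        intro x _
        by_cases hx : x = 0
        · simp [hx]
        · have := hcon x hx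
          simp only [Finset.mem_insert, Finset.mem_singleton]
          right
          exact eq_neg_of_add_eq_zero_left this
      have h1 := Finset.card_le_card hsub
      rw [Finset.card_univ, hF] at h1
      have h2 : ({0, -1} : Finset F).card ≤ 2 := Finset.card_le_two
      omega
    have hk := key 1 (by
      intro hDec
      apply card_autS_noflip (packS_G2 F).hP.sem (autT_le_autS rootPres _ hDec)
      intro θ hθ
      rcases g2_cases neg pos matchG rootMap F θ hθ with h | h
      · exact h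
      · exfalso
        exact noFlip F h3 hζ θ ⟨(h 0 (by decide)).1, (h 1 (by decide)).1⟩)
    rw [hk]
    simp [hp]

end Cfsg.Agent.H46.OutG
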