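import Cfsg.Agent.H46.OutGDefs

/-!
# S2121 / S2122: the generic assembly (helper46)
-/

set_option autoImplicit false

namespace Cfsg.Agent.H46.OutG

open Cfsg.Lie Cfsg.Agent.H23 Cfsg.Agent.H23.Stb Cfsg.Agent.H46.OutE Cfsg.Agent.H78.StbG

universe u

variable {D : ChevalleyDatum} {F : Type u} [Field F] {z η : ℕ → ℕ → ℤ}

/-- An automorphism mapping the root subgroup of every `±α_i` onto itself lies in `autT`. -/
theorem fixFund_of_rootTo (rootMap : StRootMap.{u}) (hP : PackB D F z η)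
    (θ : ↥(D.group F) ≃* ↥(D.group F))
    (h : ∀ i < D.rank, RootTo hP.sem θ (D.simple i) (D.simple i) ∧
      RootTo hP.sem θ (D.neg (D.simple i)) (D.neg (D.simple i))) : FixFund hP.sem θ := by
  intro i hi
  have h1 := hP.tab.simple_lt i hi
  have h2 := hP.tab.neg_lt _ h1
  obtain ⟨φ, hφ⟩ := rootMap D F z η hP θ _ h1 (h i hi).1
  obtain ⟨ψ, hψ⟩ := rootMap D F z η hP θ _ h2 (h i hi).2
  exact ⟨φ, ψ, hφ, hψ⟩

/-- An automorphism in `autT` maps the root subgroup of every `α_i` onto itself. -/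
theorem rootTo_of_fixFund (hS : Sem D F z) (θ : ↥(D.group F) ≃* ↥(D.group F)) (h : FixFund hS θ) (i : ℕ)
    (hi : i < D.rank) : RootTo hS θ (D.simple i) (D.simple i) := by
  obtain ⟨φ, -, hφ, -⟩ := h i hi
  refine ⟨fun t => ⟨φ t, hφ t⟩, fun t' => ⟨φ.symm t', ?_⟩⟩
  rw [hφ, AddEquiv.apply_symm_apply]

/-- `autT ≤ autS`, over a finite field. -/
theorem autT_le_autS [Finite F] (rootPres : StRootPres.{u}) (hS : Sem D F z) (hDec : HasDecomp hS) :
    autT hS ≤ autS D F := by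
  intro θ hθ
  obtain ⟨χ, σ, -, -, h⟩ := hDec θ hθ
  exact rootPres D F z hS θ id (fun r hr => hr) (fun r hr => hr) (fun r hr t => ⟨χ r * σ t, h r hr t⟩)

/-- The permutation of the fundamental root subgroups induced by an automorphism preserving `U` and `V`. -/
theorem autS_perm (neg : StNeg.{u}) (pos : StPos.{u}) (matchG : StMatchG.{u}) (rT w0 : List ℕ)
    (hC : PackS D F z η rT w0) (adj : ℕ → ℕ → Prop)
    (hw0 : ∀ i < D.rank, reflW D w0 (D.neg (D.simple i)) = D.simple i)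
    (hc2 : ∀ i < D.rank, ∀ j < D.rank, i ≠ j → ∀ t u : F,
      xU hC.hP.sem (D.simple j) u * xU hC.hP.sem (D.neg (D.simple i)) t =
        xU hC.hP.sem (D.neg (D.simple i)) t * xU hC.hP.sem (D.simple j) u)
    (hadj : ∀ i < D.rank, ∀ j < D.rank, i ≠ j →
      ((∀ t u : F, xU hC.hP.sem (D.simple i) t * xU hC.hP.sem (D.simple j) u =
        xU hC.hP.sem (D.simple j) u * xU hC.hP.sem (D.simple i) t) ↔ ¬ adj i j))
    (θ : ↥(D.group F) ≃* ↥(D.group F)) (hθ : θ ∈ autS D F) :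
    ∃ π : ℕ → ℕ, (∀ i < D.rank, π i < D.rank) ∧
      (∀ i < D.rank, ∀ j < D.rank, π i = π j → i = j) ∧
      (∀ i < D.rank, ∀ j < D.rank, i ≠ j → (adj (π i) (π j) ↔ adj i j)) ∧
      ∀ i < D.rank, RootTo hC.hP.sem θ (D.simple i) (D.simple (π i)) ∧
        RootTo hC.hP.sem θ (D.neg (D.simple i)) (D.neg (D.simple (π i))) :=
  matchG D F z η rT w0 hC θ adj (pos D F z η rT w0 hC θ hw0 hθ.1 hθ.2)
    (neg D F z η rT w0 hC θ hθ.1 hθ.2) hc2 hadj

/-- Without a flip: `autS = autT`. -/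
theorem card_autS_noflip (hS : Sem D F z) (hTS : autT hS ≤ autS D F)
    (h : ∀ θ ∈ autS D F, FixFund hS θ) : Nat.card ↥(autS D F) = 1 * Nat.card ↥(autT hS) := by
  have e : autS D F = autT hS := le_antisymm h hTS
  rw [e, one_mul]

/-- With a flip realised by `γ`: `autT` has index `2` in `autS`. -/
theorem card_autS_flip (cnt2 : StCnt2.{u}) (flip : StFlip.{u}) (notFix : StNotFix.{u})
    (rootMap : StRootMap.{u}) (rT w0 : List ℕ) (hC : PackS D F z η rT w0)
    (hc2 : ∀ i < D.rank, ∀ j < D.rank, i ≠ j → ∀ t u : F,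
      xU hC.hP.sem (D.simple j) u * xU hC.hP.sem (D.neg (D.simple i)) t =
        xU hC.hP.sem (D.neg (D.simple i)) t * xU hC.hP.sem (D.simple j) u)
    (sig : ℕ → ℕ) (hsig : ∀ i < D.rank, sig i < D.rank) (hsig2 : ∀ i < D.rank, sig (sig i) = i)
    (i₀ : ℕ) (hi₀ : i₀ < D.rank) (hne : i₀ ≠ sig i₀)
    (γ : ↥(D.group F) ≃* ↥(D.group F)) (hγS : γ ∈ autS D F)
    (hγ : ∀ i < D.rank, RootTo hC.hP.sem γ (D.simple i) (D.simple (sig i)) ∧
      RootTo hC.hP.sem γ (D.neg (D.simple i)) (D.neg (D.simple (sig i))))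
    (hTS : autT hC.hP.sem ≤ autS D F)
    (hcases : ∀ θ ∈ autS D F, FixFund hC.hP.sem θ ∨
      ∀ i < D.rank, RootTo hC.hP.sem θ (D.simple i) (D.simple (sig i)) ∧
        RootTo hC.hP.sem θ (D.neg (D.simple i)) (D.neg (D.simple (sig i)))) :
    Nat.card ↥(autS D F) = 2 * Nat.card ↥(autT hC.hP.sem) := by
  refine cnt2 (MulAut ↥(D.group F)) (autS D F) (autT hC.hP.sem) γ hTS hγS ?_ ?_
  · intro hγT
    exact notFix D F z η rT w0 hC γ i₀ (sig i₀) hi₀ (hsig i₀ hi₀) hne hc2 (hγ i₀ hi₀).1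
      (rootTo_of_fixFund hC.hP.sem γ hγT i₀ hi₀)
  · intro θ hθ
    rcases hcases θ hθ with h | h
    · exact Or.inl h
    · right
      exact fixFund_of_rootTo rootMap hC.hP _ (flip D F z hC.hP.sem θ γ sig hsig hsig2 h hγ)

/-- The count of the outer automorphism group, from the pieces, the table facts and the index of `autT` in
`autS`. -/
theorem outG_card (syl : StSyl.{u}) (opp : StOpp.{u}) (sInn : StSInn.{u}) (cnt : StCnt.{u})
    (dAut : StDAut.{u}) (decomp : StDecomp.{u}) (cardT : StCardT.{u}) (field : StField.{u})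
    (gal : StGal.{u})
    (D : ChevalleyDatum) (F : Type u) [Field F] [Finite F] (p f : ℕ) [Fact p.Prime] [CharP F p]
    (hF : Nat.card F = p ^ f) (z η : ℕ → ℕ → ℤ) (rT w0 : List ℕ)
    (hC : PackS D F z η rT w0) (hPK : PackB D (AlgebraicClosure F) z η)
    (hSyl : ∃ P : Sylow p ↥(D.group F),
      (P : Subgroup ↥(D.group F)) = (D.posUnipotent F).subgroupOf (D.group F))
    (N : ℕ) (Ai : Fin D.rank → Fin D.rank → ℤ) (hN : 0 < N)
    (hA1 : ∀ i j, mulZ (fun i j : Fin D.rank => z (D.simple j) (D.simple i)) Ai i j = (N : ℤ) * idZ i j)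
    (hA2 : ∀ i j, mulZ Ai (fun i j : Fin D.rank => z (D.simple j) (D.simple i)) i j = (N : ℤ) * idZ i j)
    (hzneg : ∀ i < D.rank, ∀ j < D.rank,
      z (D.simple j) (D.neg (D.simple i)) = - z (D.simple j) (D.simple i))
    (hrank : 0 < D.rank) (hA2N : HasAsm2N hC.hP.sem)
    (hHomExt : HomExt hC.hP.sem) (hCommK : CommExt hPK.sem)
    (d : ℕ) (hH : d * Nat.card ↥(D.diagonalSubgroup F) = (Nat.card F - 1) ^ D.rank)
    (e : ℕ) (hS : HasDecomp hC.hP.sem → Nat.card ↥(autS D F) = e * Nat.card ↥(autT hC.hP.sem)) :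
    Nat.card (Cfsg.Out ↥(D.group F)) = d * e * f := by
  have hDA : HasDAut hC.hP.sem := dAut D F z η hC.hP hPK N Ai hN hA1 hA2 hzneg hCommK
  have hDec : HasDecomp hC.hP.sem := decomp D F z η hC.hP hDA hA2N
  have hFld : HasField D F := fun σ => field D F z hC.hP.sem σ
  have h1 := cardT D F z η hC.hP hrank hDA hDec hFld hHomExt
  have h2 := sInn D F z η rT w0 hC
  have h3 := cnt (MulAut ↥(D.group F)) (Cfsg.Inn ↥(D.group F)) (autS D F) (by
    intro a
    obtain ⟨g, hg⟩ := syl D F p a hSyl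
    obtain ⟨u, hu⟩ := opp D F z η rT w0 hC (conjL g a) hg
    refine ⟨(MulAut.conj u * MulAut.conj g)⁻¹,
      Subgroup.inv_mem _ (Subgroup.mul_mem _ ⟨u, rfl⟩ ⟨g, rfl⟩),
      MulAut.conj u * (MulAut.conj g * a), hu, ?_⟩
    group)
  have h4 := gal F p f hF
  rw [h2, hS hDec, h1, h4, ← hH] at h3
  have hpos : 0 < Nat.card ↥(D.diagonalSubgroup F) := by
    rcases Nat.eq_zero_or_pos (Nat.card ↥(D.diagonalSubgroup F)) with h0 | h0
    · exfalso
      rw [h0, mul_zero] at hH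
      have hq : 2 ≤ Nat.card F := by
        have := Finite.one_lt_card (α := F)
        omega
      have : 0 < (Nat.card F - 1) ^ D.rank := Nat.pow_pos (by omega)
      omega
    · exact h0
  show Nat.card (MulAut ↥(D.group F) ⧸ Cfsg.Inn ↥(D.group F)) = d * e * f
  have h5 : Nat.card (MulAut ↥(D.group F) ⧸ Cfsg.Inn ↥(D.group F)) * Nat.card ↥(D.diagonalSubgroup F) =
      d * e * f * Nat.card ↥(D.diagonalSubgroup F) := by
    rw [h3]; ring
  exact Nat.eq_of_mul_eq_mul_right hpos h5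

end Cfsg.Agent.H46.OutG
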