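import Cfsg.Agent.H46.OutDefs

/-!
# S2124: the generic assembly (helper46)
-/

set_option autoImplicit false

namespace Cfsg.Agent.H46.OutE

open Cfsg.Lie Cfsg.Agent.H23 Cfsg.Agent.H23.Stb

universe u

/-- The count of the outer automorphism group, from the pieces and the table facts. -/
theorem out_card (asm1 : StAsm1.{u}) (dAut : StDAut.{u}) (asm2N : StAsm2N.{u}) (inn2 : StInn2.{u})
    (cnt : StCnt.{u}) (decomp : StDecomp.{u}) (cardT : StCardT.{u}) (tInn : StTInn.{u})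
    (field : StField.{u}) (gal : StGal.{u})
    (D : ChevalleyDatum) (F : Type u) [Field F] [Finite F] (p f : ℕ) [Fact p.Prime] [CharP F p]
    (hF : Nat.card F = p ^ f) (z η : ℕ → ℕ → ℤ) (rT w0 : List ℕ)
    (hC : PackS D F z η rT w0) (hPK : PackB D (AlgebraicClosure F) z η)
    (adj : ℕ → ℕ → Prop)
    (hSyl : ∃ P : Sylow p ↥(D.group F),
      (P : Subgroup ↥(D.group F)) = (D.posUnipotent F).subgroupOf (D.group F))
    (hw0 : ∀ i < D.rank, reflW D w0 (D.neg (D.simple i)) = D.simple i)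
    (hc2 : ∀ i < D.rank, ∀ j < D.rank, i ≠ j → ∀ t u : F,
      xU hC.hP.sem (D.simple j) u * xU hC.hP.sem (D.neg (D.simple i)) t =
        xU hC.hP.sem (D.neg (D.simple i)) t * xU hC.hP.sem (D.simple j) u)
    (hadj : ∀ i < D.rank, ∀ j < D.rank, i ≠ j →
      ((∀ t u : F, xU hC.hP.sem (D.simple i) t * xU hC.hP.sem (D.simple j) u =
        xU hC.hP.sem (D.simple j) u * xU hC.hP.sem (D.simple i) t) ↔ ¬ adj i j))
    (hrig : ∀ π : ℕ → ℕ, (∀ i < D.rank, π i < D.rank) →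
      (∀ i < D.rank, ∀ j < D.rank, π i = π j → i = j) →
      (∀ i < D.rank, ∀ j < D.rank, i ≠ j → (adj (π i) (π j) ↔ adj i j)) → ∀ i < D.rank, π i = i)
    (N : ℕ) (Ai : Fin D.rank → Fin D.rank → ℤ) (hN : 0 < N)
    (hA1 : ∀ i j, mulZ (fun i j : Fin D.rank => z (D.simple j) (D.simple i)) Ai i j = (N : ℤ) * idZ i j)
    (hA2 : ∀ i j, mulZ Ai (fun i j : Fin D.rank => z (D.simple j) (D.simple i)) i j = (N : ℤ) * idZ i j)
    (hzneg : ∀ i < D.rank, ∀ j < D.rank,
      z (D.simple j) (D.neg (D.simple i)) = - z (D.simple j) (D.simple i))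
    (hrank : 0 < D.rank)
    (hconn1 : ∀ i < D.rank, ∃ j < D.rank, z (D.simple j) (D.simple i) = -1)
    (hconn2 : ∀ P : ℕ → Prop, P 0 →
      (∀ i < D.rank, ∀ j < D.rank, z (D.simple j) (D.simple i) = -1 → P i → P j) → ∀ i < D.rank, P i)
    (hHomExt : HomExt hC.hP.sem) (hCommK : CommExt hPK.sem)
    (d : ℕ) (hH : d * Nat.card ↥(D.diagonalSubgroup F) = (Nat.card F - 1) ^ D.rank) :
    Nat.card (Cfsg.Out ↥(D.group F)) = d * f := by
  have hDA : HasDAut hC.hP.sem := dAut D F z η hC.hP hPK N Ai hN hA1 hA2 hzneg hCommK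
  have hA2N : HasAsm2N hC.hP.sem := asm2N D F z η rT w0 hC hrank hconn1 hconn2 hHomExt
  have hDec : HasDecomp hC.hP.sem := decomp D F z η hC.hP hDA hA2N
  have hI2 : HasInn2 hC.hP.sem := inn2 D F z η rT w0 hC
  have hFld : HasField D F := fun σ => field D F z hC.hP.sem σ
  have h1 := cardT D F z η hC.hP hrank hDA hDec hFld hHomExt
  have h2 := tInn D F z η hC.hP hDec hI2
  have h3 := cnt (MulAut ↥(D.group F)) (Cfsg.Inn ↥(D.group F)) (autT hC.hP.sem) (by
    intro a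
    obtain ⟨g, hg⟩ := asm1 D F p z η rT w0 hC adj hSyl hw0 hc2 hadj hrig a
    refine ⟨(MulAut.conj g)⁻¹, Subgroup.inv_mem _ ⟨g, rfl⟩, MulAut.conj g * a, hg, ?_⟩
    rw [inv_mul_cancel_left])
  have h4 := gal F p f hF
  rw [h2, h1, h4, ← hH] at h3
  have hpos : 0 < Nat.card ↥(D.diagonalSubgroup F) := by
    rcases Nat.eq_zero_or_pos (Nat.card ↥(D.diagonalSubgroup F)) with h0 | h0
    · exfalso
      rw [h0, mul_zero] at hH
      have hq : 2 ≤ Nat.card F := by
        have := Finite.one_lt_card (α := F)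
        omega
      have : 0 < (Nat.card F - 1) ^ D.rank := Nat.pow_pos (by omega)
      omega
    · exact h0
  show Nat.card (MulAut ↥(D.group F) ⧸ Cfsg.Inn ↥(D.group F)) = d * f
  have h5 : Nat.card (MulAut ↥(D.group F) ⧸ Cfsg.Inn ↥(D.group F)) * Nat.card ↥(D.diagonalSubgroup F) =
      d * f * Nat.card ↥(D.diagonalSubgroup F) := by
    rw [h3]; ring
  exact Nat.eq_of_mul_eq_mul_right hpos h5

end Cfsg.Agent.H46.OutE
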