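import Cfsg.Agent.H23.UProdTab
import Cfsg.Agent.H23.CardU
import Cfsg.Agent.H46.ParaDataA
import Cfsg.Agent.H46.ParaDataE7
import Cfsg.Agent.H46.ParaDataE8

set_option autoImplicit false

/-!
# The generalized Fitting subgroup of a proper parabolic subgroup is a `p`-group: the seven tabulated types
-/

namespace Cfsg.Agent.H46

open Cfsg.Lie Cfsg.Agent.H23

/-- Over a finite field of characteristic `p`, `F*(P_J)` is a `p`-group for every proper standard parabolic subgroup. -/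
theorem genFitting_parabolic_all {F : Type*} [Field F] [Fintype F] (p : ℕ) [Fact p.Prime] [CharP F p]
    (D : ChevalleyDatum) (hD : D ∈ [chevG2, chevB2, chevD4, chevF4, chevE6, chevE7, chevE8]) (J : Set ℕ)
    (hJ : ∃ i, i < D.rank ∧ i ∉ J) :
    IsPGroup p ↥(Cfsg.generalizedFittingSubgroup ↥(D.parabolicSubgroup F J)) := by
  have hU : IsPGroup p ↥(D.posUnipotent F) := by
    obtain ⟨⟨f, hf0⟩, -, hf⟩ := FiniteField.card F p
    simp only [PNat.mk_coe] at hf
    apply IsPGroup.of_card (n := f * (D.nroots / 2))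
    rw [card_posUnipotent_all D hD, hf, pow_mul]
  simp only [List.mem_cons, List.not_mem_nil, or_false] at hD
  rcases hD with rfl | rfl | rfl | rfl | rfl | rfl | rfl
  · have hP : PackB chevG2 F (zR chevG2 ctblG2) _ := ⟨chk_G2.sem F, nconj_G2.semN chk_G2.tblOK F,
      comm_G2.semC chk_G2.tblOK F, tab_G2, tabC_G2, etaNeg_G2, tab2_G2⟩
    have h1 : ∀ j < chevG2.rank, (chevG2.coroot.getD (chevG2.simple j) #[]).getD j 0 ≠ 0 := fun j hj => by
      rw [tabH_G2.simple_one j hj]; exact one_ne_zero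
    exact genFitting_parabolic_isPGroup hP htLex_G2 (bzF chevG2 bzG2) (bez_of bzG2 tabHalf_G2 bez_G2) h1
      tabPF_G2 J hJ p hU
  · have hP : PackB chevB2 F (zR chevB2 ctblB2) _ := ⟨chk_B2.sem F, nconj_B2.semN chk_B2.tblOK F,
      comm_B2.semC chk_B2.tblOK F, tab_B2, tabC_B2, etaNeg_B2, tab2_B2⟩
    have h1 : ∀ j < chevB2.rank, (chevB2.coroot.getD (chevB2.simple j) #[]).getD j 0 ≠ 0 := fun j hj => by
      rw [tabH_B2.simple_one j hj]; exact one_ne_zero
    exact genFitting_parabolic_isPGroup hP htLex_B2 (bzF chevB2 bzB2) (bez_of bzB2 tabHalf_B2 bez_B2) h1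
      tabPF_B2 J hJ p hU
  · have hP : PackB chevD4 F (zR chevD4 ctblD4) _ := ⟨chk_D4.sem F, nconj_D4.semN chk_D4.tblOK F,
      comm_D4.semC chk_D4.tblOK F, tab_D4, tabC_D4, etaNeg_D4, tab2_D4⟩
    have h1 : ∀ j < chevD4.rank, (chevD4.coroot.getD (chevD4.simple j) #[]).getD j 0 ≠ 0 := fun j hj => by
      rw [tabH_D4.simple_one j hj]; exact one_ne_zero
    exact genFitting_parabolic_isPGroup hP htLex_D4 (bzF chevD4 bzD4) (bez_of bzD4 tabHalf_D4 bez_D4) h1
      tabPF_D4 J hJ p hU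
  · have hP : PackB chevF4 F (zR chevF4 ctblF4) _ := ⟨chk_F4.sem F, nconj_F4.semN chk_F4.tblOK F,
      comm_F4.semC chk_F4.tblOK F, tab_F4, tabC_F4, etaNeg_F4, tab2_F4⟩
    have h1 : ∀ j < chevF4.rank, (chevF4.coroot.getD (chevF4.simple j) #[]).getD j 0 ≠ 0 := fun j hj => by
      rw [tabH_F4.simple_one j hj]; exact one_ne_zero
    exact genFitting_parabolic_isPGroup hP htLex_F4 (bzF chevF4 bzF4) (bez_of bzF4 tabHalf_F4 bez_F4) h1
      tabPF_F4 J hJ p hU
  · have hP : PackB chevE6 F (zR chevE6 ctblE6) _ := ⟨chk_E6.sem F, nconj_E6.semN chk_E6.tblOK F,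
      comm_E6.semC chk_E6.tblOK F, tab_E6, tabC_E6, etaNeg_E6, tab2_E6⟩
    have h1 : ∀ j < chevE6.rank, (chevE6.coroot.getD (chevE6.simple j) #[]).getD j 0 ≠ 0 := fun j hj => by
      rw [tabH_E6.simple_one j hj]; exact one_ne_zero
    exact genFitting_parabolic_isPGroup hP htLex_E6 (bzF chevE6 bzE6) (bez_of bzE6 tabHalf_E6 bez_E6) h1
      tabPF_E6 J hJ p hU
  · have hP : PackB chevE7 F (zR chevE7 ctblE7) _ := ⟨chk_E7.sem F, nconj_E7.semN chk_E7.tblOK F,
      comm_E7.semC chk_E7.tblOK F, tab_E7, tabC_E7, etaNeg_E7, tab2_E7⟩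
    have h1 : ∀ j < chevE7.rank, (chevE7.coroot.getD (chevE7.simple j) #[]).getD j 0 ≠ 0 := fun j hj => by
      rw [tabH_E7.simple_one j hj]; exact one_ne_zero
    exact genFitting_parabolic_isPGroup hP htLex_E7 (bzF chevE7 bzE7) (bez_of bzE7 tabHalf_E7 bez_E7) h1
      tabPF_E7 J hJ p hU
  · have hP : PackB chevE8 F (zR chevE8 ctblE8) _ := ⟨chk_E8.sem F, nconj_E8.semN chk_E8.tblOK F,
      comm_E8.semC chk_E8.tblOK F, tab_E8, tabC_E8, etaNeg_E8, tab2_E8⟩
    have h1 : ∀ j < chevE8.rank, (chevE8.coroot.getD (chevE8.simple j) #[]).getD j 0 ≠ 0 := fun j hj => by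
      rw [tabH_E8.simple_one j hj]; exact one_ne_zero
    exact genFitting_parabolic_isPGroup hP htLex_E8 (bzF chevE8 bzE8) (bez_of bzE8 tabHalf_E8 bez_E8) h1
      tabPF_E8 J hJ p hU

end Cfsg.Agent.H46
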