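import Cfsg.Agent.H46.ParaFit

set_option autoImplicit false

/-!
# Boolean checkers for the table facts `TabPF`
-/

namespace Cfsg.Agent.H46

open Cfsg.Lie Cfsg.Agent.H23

/-- Checker for `TabPF.refl`, with a table of witnesses. -/
def pfReflChk (D : ChevalleyDatum) (W : List (List ℕ)) : Bool :=
  (List.range D.rank).all fun i => (List.range D.rank).all fun k =>
    decide (D.IsPosRoot ((W.getD i []).getD k 0)) &&
      (decide ((D.coroot.getD ((W.getD i []).getD k 0) #[]).getD k 0 ≠ 0) &&
        decide (D.reflectRoot i ((W.getD i []).getD k 0) ≠ (W.getD i []).getD k 0))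

/-- Checker for `TabPF.sum`, with a table of witnesses. -/
def pfSumChk (D : ChevalleyDatum) (W : List (List ℕ)) : Bool :=
  (List.range D.rank).all fun k => (List.range D.nroots).all fun s =>
    decide ((D.coroot.getD s #[]).getD k 0 ≠ 0) ||
      (decide (D.IsPosRoot ((W.getD k []).getD s 0)) &&
        (decide ((D.coroot.getD ((W.getD k []).getD s 0) #[]).getD k 0 ≠ 0) &&
          (xEntries D s ((W.getD k []).getD s 0)).any fun x =>
            decide (x.2.2 = 1) && (decide (D.IsPosRoot x.1) && decide ((D.coroot.getD x.1 #[]).getD k 0 ≠ 0))))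

theorem tabPF_of_chk {D : ChevalleyDatum} {W1 W2 : List (List ℕ)} (h1 : pfReflChk D W1 = true)
    (h2 : pfSumChk D W2 = true) : TabPF D where
  refl := by
    intro i hi k hk
    unfold pfReflChk at h1
    rw [List.all_eq_true] at h1
    have h3 := h1 i (List.mem_range.mpr hi)
    rw [List.all_eq_true] at h3
    have h4 := h3 k (List.mem_range.mpr hk)
    simp only [Bool.and_eq_true, decide_eq_true_eq] at h4
    exact ⟨_, h4.1, h4.2.1, h4.2.2⟩
  sum := by
    intro k hk s hs h0
    unfold pfSumChk at h2
    rw [List.all_eq_true] at h2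
    have h3 := h2 k (List.mem_range.mpr hk)
    rw [List.all_eq_true] at h3
    have h4 := h3 s (List.mem_range.mpr hs)
    rw [Bool.or_eq_true] at h4
    rcases h4 with h4 | h4
    · rw [decide_eq_true_eq] at h4
      exact absurd h0 h4
    · rw [Bool.and_eq_true, Bool.and_eq_true, List.any_eq_true] at h4
      obtain ⟨h5, h6, x, hx, h7⟩ := h4
      simp only [Bool.and_eq_true, decide_eq_true_eq] at h5 h6 h7
      refine ⟨_, x.1, x.2.1, h5, h6, h7.2.1, h7.2.2, ?_⟩
      have e : x = (x.1, x.2.1, 1) := by
        rw [← h7.1]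
      rw [← e]
      exact hx

end Cfsg.Agent.H46
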