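import Cfsg.Agent.H23.Levi2
import Cfsg.Agent.H23.UProd
import Cfsg.Agent.H23.Simple
import Cfsg.Agent.H46.StG
import Cfsg.Agent.H28.Transvection

set_option autoImplicit false
set_option linter.unusedSectionVars false

/-!
# The centralizer of the unipotent radical of a proper parabolic subgroup

For a proper standard parabolic subgroup `P_J` of a Chevalley group, `C_{P_J}(U_J) ≤ U`; over a finite field of
characteristic `p` the generalized Fitting subgroup of `P_J` is therefore a `p`-group.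
-/

namespace Cfsg.Agent.H46

open Cfsg.Lie Cfsg.Agent.H23

/-! ### Commutators in the groups of matrices raising a level -/

section Graded

variable {ι : Type*} [Fintype ι] [DecidableEq ι] {F : Type*} [Field F]

theorem raisM_mono {w : ι → ℤ} {a b : ℤ} (hab : a ≤ b) {M : Matrix ι ι F} (h : RaisM w b M) : RaisM w a M := by
  intro i j hij
  have := h i j hij
  omega

theorem raisM_mul_add {w : ι → ℤ} {a b : ℤ} {M M' : Matrix ι ι F} (h : RaisM w a M) (h' : RaisM w b M') :
    RaisM w (a + b + 1) (M * M') := by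
  intro i j hij
  obtain ⟨l, h1, h2⟩ := exists_of_mul_ne_zero hij
  have e1 := h i l h1
  have e2 := h' l j h2
  omega

theorem raisM_neg {w : ι → ℤ} {a : ℤ} {M : Matrix ι ι F} (h : RaisM w a M) : RaisM w a (-M) := by
  intro i j hij
  apply h i j
  intro h0
  apply hij
  rw [Matrix.neg_apply, h0, neg_zero]

/-- The commutator of matrices raising the level by more than `a` and `b` raises it by more than `a + b + 1`. -/
theorem raisM_comm {w : ι → ℤ} {a b : ℤ} (ha : 0 ≤ a) (hb : 0 ≤ b) {A Ai B Bi : Matrix ι ι F}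
    (hAi : A * Ai = 1) (hBi : B * Bi = 1)
    (hA : RaisM w a (A - 1)) (hA' : RaisM w a (Ai - 1)) (hB : RaisM w b (B - 1)) (hB' : RaisM w b (Bi - 1)) :
    RaisM w (a + b + 1) (A * B * Ai * Bi - 1) := by
  have e : A * B * Ai * Bi - 1 =
      ((A - 1) * (B - 1) + -((B - 1) * (A - 1))) +
        ((A - 1) * (B - 1) + -((B - 1) * (A - 1))) * ((Ai - 1) * (Bi - 1) + (Ai - 1) + (Bi - 1)) := by
    have h1 : B * A * Ai * Bi = 1 := by rw [mul_assoc B A Ai, hAi, mul_one, hBi]
    have h2 : A * B * Ai * Bi - 1 = (A * B - B * A) * (Ai * Bi) := by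
      rw [sub_mul, ← mul_assoc (A * B), ← mul_assoc (B * A), h1]
    rw [h2]
    noncomm_ring
  rw [e]
  have hX : RaisM w (a + b + 1) ((A - 1) * (B - 1) + -((B - 1) * (A - 1))) := by
    apply RaisM.add (raisM_mul_add hA hB)
    apply raisM_neg
    have := raisM_mul_add hB hA
    have e2 : b + a + 1 = a + b + 1 := by ring
    rw [e2] at this
    exact this
  have hZ : RaisM w 0 ((Ai - 1) * (Bi - 1) + (Ai - 1) + (Bi - 1)) :=
    RaisM.add (RaisM.add (RaisM.mul le_rfl (raisM_mono ha hA') (raisM_mono hb hB')) (raisM_mono ha hA'))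
      (raisM_mono hb hB')
  apply RaisM.add hX
  have := raisM_mul_add hX hZ
  exact raisM_mono (by omega) this

/-- Membership in the group of matrices raising the level by more than `m`, without the proof argument. -/
def InR (w : ι → ℤ) (m : ℤ) (g : GL ι F) : Prop :=
  RaisM w m ((g : Matrix ι ι F) - 1) ∧ RaisM w m (((g⁻¹ : GL ι F) : Matrix ι ι F) - 1)

theorem InR.inv {w : ι → ℤ} {m : ℤ} {g : GL ι F} (h : InR w m g) : InR w m g⁻¹ :=
  ⟨h.2, by rw [inv_inv]; exact h.1⟩

theorem InR.mul {w : ι → ℤ} {m : ℤ} (hm : 0 ≤ m) {g g' : GL ι F} (h : InR w m g) (h' : InR w m g') :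
    InR w m (g * g') := by
  refine ⟨by rw [Units.val_mul]; exact raisM_mul_sub_one hm h.1 h'.1, ?_⟩
  rw [_root_.mul_inv_rev, Units.val_mul]
  exact raisM_mul_sub_one hm h'.2 h.2

theorem InR.mono {w : ι → ℤ} {a b : ℤ} (hab : a ≤ b) {g : GL ι F} (h : InR w b g) : InR w a g :=
  ⟨raisM_mono hab h.1, raisM_mono hab h.2⟩

theorem InR.comm {w : ι → ℤ} {a b : ℤ} (ha : 0 ≤ a) (hb : 0 ≤ b) {A B : GL ι F} (hA : InR w a A)
    (hB : InR w b B) : InR w (a + b + 1) (A * B * A⁻¹ * B⁻¹) := by
  constructor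
  · simp only [Units.val_mul]
    exact raisM_comm ha hb (by rw [← Units.val_mul, mul_inv_cancel, Units.val_one])
      (by rw [← Units.val_mul, mul_inv_cancel, Units.val_one]) hA.1 hA.2 hB.1 hB.2
  · have e : (A * B * A⁻¹ * B⁻¹)⁻¹ = B * A * B⁻¹ * A⁻¹ := by group
    rw [e]
    simp only [Units.val_mul]
    have := raisM_comm hb ha (A := (B : Matrix ι ι F)) (Ai := ((B⁻¹ : GL ι F) : Matrix ι ι F))
      (B := (A : Matrix ι ι F)) (Bi := ((A⁻¹ : GL ι F) : Matrix ι ι F))
      (by rw [← Units.val_mul, mul_inv_cancel, Units.val_one])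
      (by rw [← Units.val_mul, mul_inv_cancel, Units.val_one]) hB.1 hB.2 hA.1 hA.2
    have e2 : b + a + 1 = a + b + 1 := by ring
    rw [e2] at this
    exact this

end Graded

/-! ### The table facts -/

/-- Table facts: reflections move roots outside any proper subsystem, and every root of a proper subsystem is a
difference of two positive roots outside it. -/
structure TabPF (D : ChevalleyDatum) : Prop where
  refl : ∀ i < D.rank, ∀ k < D.rank, ∃ r, D.IsPosRoot r ∧ (D.coroot.getD r #[]).getD k 0 ≠ 0 ∧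
    D.reflectRoot i r ≠ r
  sum : ∀ k < D.rank, ∀ s < D.nroots, (D.coroot.getD s #[]).getD k 0 = 0 →
    ∃ (r q : ℕ) (c : ℤ), D.IsPosRoot r ∧ (D.coroot.getD r #[]).getD k 0 ≠ 0 ∧ D.IsPosRoot q ∧
      (D.coroot.getD q #[]).getD k 0 ≠ 0 ∧ (q, c, 1) ∈ xEntries D s r

section Main

variable {D : ChevalleyDatum} {F : Type*} [Field F] {z η : ℕ → ℕ → ℤ}

variable (hP : PackB D F z η) {wh : ℕ → ℤ} (hH : HtLex D wh)

include hP hH in
theorem xU_inR (r : ℕ) (hr : D.IsPosRoot r) (m : ℤ) (hm0 : 0 ≤ m) (hm : m < wh r) (t : F) :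
    InR (fun k => wh (ix D k)) m (xU hP.sem r t) := by
  refine ⟨?_, ?_⟩
  · rw [xU_val]; exact x_raisM wh hH.adm r hr.1 m hm0 hm t
  · rw [xU_inv, xU_val]; exact x_raisM wh hH.adm r hr.1 m hm0 hm (-t)

include hP hH in
theorem posUnipotent_inR : ∀ u ∈ D.posUnipotent F, InR (fun k => wh (ix D k)) 0 u := by
  have hS := hP.sem
  intro u hu
  have h : D.posUnipotent F ≤ raisGroupM F (fun k => wh (ix D k)) 0 le_rfl := by
    rw [posUnipotent_eq]
    apply rootGen_le hS
    intro r hr t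
    exact xU_inR hP hH r hr 0 le_rfl (hH.pos r hr.1 hr) t
  exact h hu

include hP hH in
/-- Conjugating a root element by an element of `U` changes it by an element raising the level further. -/
theorem conj_inR (u : GL D.Idx F) (hu : u ∈ D.posUnipotent F) (r : ℕ) (hr : D.IsPosRoot r) (a : F) :
    InR (fun k => wh (ix D k)) (wh r) (u * xU hP.sem r a * u⁻¹ * (xU hP.sem r a)⁻¹) := by
  have hpos := hH.pos r hr.1 hr
  have h1 := InR.comm (le_refl (0 : ℤ)) (by omega : (0 : ℤ) ≤ wh r - 1) (posUnipotent_inR hP hH u hu)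
    (xU_inR hP hH r hr (wh r - 1) (by omega) (by omega) a)
  have e : (0 : ℤ) + (wh r - 1) + 1 = wh r := by ring
  rw [e] at h1
  exact h1

variable (bz : ℕ → ℕ → ℤ)
  (hbz : ∀ k < D.nroots, D.IsPosRoot k →
    ∑ i ∈ Finset.range D.rank, bz k i * (D.coroot.getD k #[]).getD i 0 = 1)

include hP hH hbz in
theorem eq_zero_of_inR (r : ℕ) (hr : D.IsPosRoot r) (a : F)
    (h : InR (fun k => wh (ix D k)) (wh r) (xU hP.sem r a)) : a = 0 :=
  eq_zero_of_xU_mem_raisM hP.sem hP.tab hP.tab2 wh hH.adm hH.zero r hr.1 (le_of_lt (hH.pos r hr.1 hr)) (bz r)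
    (hbz r hr.1 hr) a h

variable (h1 : ∀ j < D.rank, (D.coroot.getD (D.simple j) #[]).getD j 0 ≠ 0) (hTab : TabPF D)
  (J : Set ℕ) (hJ : ∃ i, i < D.rank ∧ i ∉ J)

include hP h1 in
theorem borel_le_parabolic : D.borelSubgroup F ≤ D.parabolicSubgroup F J := by
  rw [parabolicSubgroup_eq]; exact le_sup_left

include hP in
theorem unipotentRadical_le_posUnipotent : D.unipotentRadical F J ≤ D.posUnipotent F := by
  rw [unipotentRadical_eq, posUnipotent_eq]
  apply rootGen_le hP.sem
  intro r hr t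
  exact xU_mem_rootGen hP.sem _ r hr.1 t

include hP in
theorem xU_mem_unipotentRadical (r : ℕ) (hr : PosOut D J r) (t : F) : xU hP.sem r t ∈ D.unipotentRadical F J := by
  rw [unipotentRadical_eq]; exact xU_mem_rootGen hP.sem _ r hr t

include hP hH hbz h1 hTab hJ in
/-- A fundamental reflection is not congruent modulo `B` to an element centralizing `U_J`. -/
theorem not_nU_eq (i : ℕ) (hi : i < D.rank) (c b : GL D.Idx F)
    (hc : ∀ y ∈ D.unipotentRadical F J, c * y = y * c) (hb : b ∈ D.borelSubgroup F)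
    (e : nU hP.sem (D.simple i) 1 = c * b) : False := by
  have hS := hP.sem
  have hT := hP.tab
  obtain ⟨k, hk, hkJ⟩ := hJ
  obtain ⟨r, hrp, hrk, hrr⟩ := hTab.refl i hi k hk
  have hrout : PosOut D J r := ⟨hrp, fun hin => hrk (hin.2 k hk hkJ)⟩
  have hr'lt : D.reflectRoot i r < D.nroots := hT.refl_lt i hi r hrp.1
  have hy : b * xU hS r 1 * b⁻¹ ∈ D.unipotentRadical F J :=
    (Subgroup.mem_normalizer_iff.mp (parabolic_le_normalizer hP h1 J (borel_le_parabolic hP h1 J hb)) _).mp
      (xU_mem_unipotentRadical hP J r hrout 1)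
  have h2 := hc _ hy
  have h3 : xU hS (D.reflectRoot i r) (((η i r : ℤ) : F) * 1) = b * xU hS r 1 * b⁻¹ := by
    rw [← nU_conj hS hP.semN i hi r hrp.1 1, e]
    calc c * b * xU hS r 1 * (c * b)⁻¹ = c * (b * xU hS r 1 * b⁻¹) * c⁻¹ := by group
      _ = b * xU hS r 1 * b⁻¹ := by rw [h2, mul_inv_cancel_right]
  have hη : ((η i r : ℤ) : F) * 1 ≠ 0 := by
    rcases hP.semN.eta i r with h | h <;> rw [h] <;> simp
  have hr'pos : D.IsPosRoot (D.reflectRoot i r) := by
    rcases pos_or_neg hT _ hr'lt with h | h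
    · exact h
    · exfalso
      have hmem : xU hS (D.reflectRoot i r) (((η i r : ℤ) : F) * 1) ∈ D.borelSubgroup F := by
        rw [h3]
        exact (le_sup_left : D.posUnipotent F ≤ D.borelSubgroup F) (unipotentRadical_le_posUnipotent hP J hy)
      exact hη (eq_zero_of_xU_neg_mem_tri hS hT hP.tab2 _ h _ (borel_le_tri hS hmem))
  obtain ⟨u, hu, h, hh, rfl⟩ := exists_mul_of_mem_sup _ _
    (diagonal_le_normalizer_rootGen hS D.IsPosRoot (fun _ hr => hr.1)) b hb
  obtain ⟨χ, hχ⟩ := diagonal_le_torus hS hT hh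
  have h4 : xU hS (D.reflectRoot i r) (((η i r : ℤ) : F) * 1) = u * xU hS r (χ r * 1) * u⁻¹ := by
    rw [h3, ← isTorus_conj hS χ h hχ r hrp.1 1]; group
  have hχr : χ r * 1 ≠ 0 := by rw [mul_one]; exact hχ.1 r
  have h5 := conj_inR hP hH u hu r hrp (χ r * 1)
  rw [← h4] at h5
  have hne : wh (D.reflectRoot i r) ≠ wh r := by
    rcases Nat.lt_or_gt_of_ne hrr with hlt | hgt
    · exact ne_of_lt (hH.mono _ hr'lt hr'pos r hrp.1 hrp hlt)
    · exact ne_of_gt (hH.mono r hrp.1 hrp _ hr'lt hr'pos hgt)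
  rcases lt_or_gt_of_ne hne with hlt | hgt
  · have h6 : InR (fun k => wh (ix D k)) (wh (D.reflectRoot i r))
        (xU hS (D.reflectRoot i r) (((η i r : ℤ) : F) * 1)) := by
      have e2 : xU hS (D.reflectRoot i r) (((η i r : ℤ) : F) * 1) =
          (xU hS (D.reflectRoot i r) (((η i r : ℤ) : F) * 1) * (xU hS r (χ r * 1))⁻¹) * xU hS r (χ r * 1) := by
        group
      rw [e2]
      exact InR.mul (le_of_lt (hH.pos _ hr'lt hr'pos)) (h5.mono hlt.le)
        (xU_inR hP hH r hrp _ (le_of_lt (hH.pos _ hr'lt hr'pos)) hlt _)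
    exact hη (eq_zero_of_inR hP hH bz hbz _ hr'pos _ h6)
  · have h6 : InR (fun k => wh (ix D k)) (wh r) (xU hS r (χ r * 1)) := by
      have e2 : xU hS r (χ r * 1) =
          (xU hS (D.reflectRoot i r) (((η i r : ℤ) : F) * 1) * (xU hS r (χ r * 1))⁻¹)⁻¹ *
            xU hS (D.reflectRoot i r) (((η i r : ℤ) : F) * 1) := by
        group
      rw [e2]
      exact InR.mul (le_of_lt (hH.pos _ hrp.1 hrp)) h5.inv
        (xU_inR hP hH _ hr'pos _ (le_of_lt (hH.pos _ hrp.1 hrp)) hgt _)
    exact hχr (eq_zero_of_inR hP hH bz hbz r hrp _ h6)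

include hP hH hbz h1 hTab hJ in
/-- An element of `B` centralizing `U_J` lies in `U`. -/
theorem mem_posUnipotent_of_borel (c : GL D.Idx F) (hcB : c ∈ D.borelSubgroup F)
    (hc : ∀ y ∈ D.unipotentRadical F J, c * y = y * c) : c ∈ D.posUnipotent F := by
  have hS := hP.sem
  have hT := hP.tab
  obtain ⟨k, hk, hkJ⟩ := hJ
  obtain ⟨u, hu, h, hh, rfl⟩ := exists_mul_of_mem_sup _ _
    (diagonal_le_normalizer_rootGen hS D.IsPosRoot (fun _ hr => hr.1)) c hcB
  obtain ⟨χ, hχ⟩ := diagonal_le_torus hS hT hh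
  have key : ∀ r, PosOut D J r → χ r = 1 := by
    intro r hr
    have h2 := hc _ (xU_mem_unipotentRadical hP J r hr 1)
    have h3 : u * xU hS r (χ r * 1) * u⁻¹ = xU hS r 1 := by
      rw [← isTorus_conj hS χ h hχ r hr.1.1 1]
      calc u * (h * xU hS r 1 * h⁻¹) * u⁻¹ = (u * h * xU hS r 1) * (u * h)⁻¹ := by group
        _ = xU hS r 1 := by rw [h2, mul_inv_cancel_right]
    have h4 := conj_inR hP hH u hu r hr.1 (χ r * 1)
    rw [h3, xU_inv, xU_mul] at h4
    have h5 := eq_zero_of_inR hP hH bz hbz r hr.1 _ h4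
    linear_combination -h5
  have hall : ∀ s < D.nroots, χ s = 1 := by
    intro s hs
    by_cases hin : D.InRootSub J s
    · obtain ⟨r, q, c, hrp, hrk, hqp, hqk, hmem⟩ := hTab.sum k hk s hs (hin.2 k hk hkJ)
      have hr1 := key r ⟨hrp, fun hin' => hrk (hin'.2 k hk hkJ)⟩
      have hq1 := key q ⟨hqp, fun hin' => hqk (hin'.2 k hk hkJ)⟩
      have h6 := hχ.2.1 s hs r (q, c, 1) hmem
      simp only [pow_one] at h6
      rw [hr1, hq1, one_mul] at h6
      exact h6.symm
    · rcases pos_or_neg hT s hs with hp | hn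
      · exact key s ⟨hp, hin⟩
      · have hp : D.IsPosRoot (D.neg s) := (hT.pos_neg s hs).2.1 hn
        have hout : ¬ D.InRootSub J (D.neg s) := by
          intro h7
          have h8 := inRootSub_neg hT J _ h7
          rw [hT.neg_neg s hs] at h8
          exact hin h8
        have h9 := key _ ⟨hp, hout⟩
        have h10 := torus_neg hP χ h hχ s hs
        rw [h9, one_mul] at h10
        exact h10
  rw [isTorus_eq_one χ h hχ hall, mul_one]
  exact hu

include hP in
theorem parabolic_le_group : D.parabolicSubgroup F J ≤ D.group F := by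
  have hS := hP.sem
  rw [parabolicSubgroup_eq]
  apply sup_le (borel_le_group hS)
  unfold nGenJ
  rw [Subgroup.closure_le]
  rintro g ⟨j, -, -, hg⟩
  rw [eq_wordU hS g _ hg]
  exact wordU_mem_group hS _

theorem mem_normalizer_centralizer {G : Type*} [Group G] (K : Subgroup G) (b : G)
    (hb : b ∈ Subgroup.normalizer (K : Set G)) :
    b ∈ Subgroup.normalizer ((Subgroup.centralizer (K : Set G) : Subgroup G) : Set G) := by
  have key : ∀ a : G, a ∈ Subgroup.normalizer (K : Set G) → ∀ g ∈ Subgroup.centralizer (K : Set G),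
      a * g * a⁻¹ ∈ Subgroup.centralizer (K : Set G) := by
    intro a ha g hg
    rw [Subgroup.mem_centralizer_iff] at hg ⊢
    intro y hy
    have hy' : a⁻¹ * y * a ∈ (K : Set G) := by
      have := (Subgroup.mem_normalizer_iff.mp (Subgroup.inv_mem _ ha) y).mp hy
      rw [inv_inv] at this
      exact this
    have h2 := hg _ hy'
    calc y * (a * g * a⁻¹) = a * ((a⁻¹ * y * a) * g) * a⁻¹ := by group
      _ = a * (g * (a⁻¹ * y * a)) * a⁻¹ := by rw [h2]
      _ = a * g * a⁻¹ * y := by group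
  rw [Subgroup.mem_normalizer_iff]
  intro g
  constructor
  · exact key b hb g
  · intro hg
    have := key b⁻¹ (Subgroup.inv_mem _ hb) _ hg
    rw [inv_inv] at this
    have e : b⁻¹ * (b * g * b⁻¹) * b = g := by group
    rw [e] at this
    exact this

include hP hH hbz h1 hTab hJ in
/-- `C_{P_J}(U_J) ≤ U` for a proper parabolic subgroup `P_J`. -/
theorem centralizer_le_posUnipotent (c : GL D.Idx F) (hcP : c ∈ D.parabolicSubgroup F J)
    (hc : ∀ y ∈ D.unipotentRadical F J, c * y = y * c) : c ∈ D.posUnipotent F := by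
  have hS := hP.sem
  have hT := hP.tab
  apply mem_posUnipotent_of_borel hP hH bz hbz h1 hTab J hJ c _ hc
  -- the subgroup `C = C_{P_J}(U_J)`
  set Cg : Subgroup (GL D.Idx F) :=
    Subgroup.centralizer (D.unipotentRadical F J : Set (GL D.Idx F)) ⊓ D.parabolicSubgroup F J with hCg
  have hcC : c ∈ Cg :=
    Subgroup.mem_inf.mpr ⟨Subgroup.mem_centralizer_iff.mpr (fun y hy => (hc y hy).symm), hcP⟩
  have hBP := borel_le_parabolic (F := F) hP h1 J
  have hPG := parabolic_le_group (F := F) hP J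
  have hBC : D.borelSubgroup F ≤ Subgroup.normalizer (Cg : Set (GL D.Idx F)) := by
    intro b hb
    have hbP := hBP hb
    have hbN := mem_normalizer_centralizer _ b (parabolic_le_normalizer hP h1 J hbP)
    rw [Subgroup.mem_normalizer_iff] at hbN ⊢
    intro g
    constructor
    · intro hg
      obtain ⟨hg1, hg2⟩ := Subgroup.mem_inf.mp hg
      exact Subgroup.mem_inf.mpr
        ⟨(hbN g).mp hg1, Subgroup.mul_mem _ (Subgroup.mul_mem _ hbP hg2) (Subgroup.inv_mem _ hbP)⟩
    · intro hg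
      obtain ⟨hg1, hg2⟩ := Subgroup.mem_inf.mp hg
      refine Subgroup.mem_inf.mpr ⟨(hbN g).mpr hg1, ?_⟩
      have := Subgroup.mul_mem _ (Subgroup.mul_mem _ (Subgroup.inv_mem _ hbP) hg2) hbP
      have e : b⁻¹ * (b * g * b⁻¹) * b = g := by group
      rw [e] at this
      exact this
  have hMG : Cg ⊔ D.borelSubgroup F ≤ D.group F :=
    sup_le (inf_le_right.trans hPG) (borel_le_group hS)
  have hM' : (bnPair hP).B ≤ (Cg ⊔ D.borelSubgroup F).subgroupOf (D.group F) := by
    intro x hx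
    rw [bnPair_B, Subgroup.mem_subgroupOf] at hx
    exact Subgroup.mem_subgroupOf.mpr (le_sup_right (a := Cg) hx)
  have e := Cfsg.H8BN.eq_parabolic_of_le (bnPair hP) _ hM'
  by_cases hne : ((bnPair hP).S ∩ (((Cg ⊔ D.borelSubgroup F).subgroupOf (D.group F) : Subgroup ↥(D.group F)) :
      Set ↥(D.group F))).Nonempty
  · exfalso
    obtain ⟨s, hsS, hsM⟩ := hne
    obtain ⟨i, hi, rfl⟩ := eq_nG_of_mem_S hP s hsS
    have hmem : nU hS (D.simple i) 1 ∈ Cg ⊔ D.borelSubgroup F := Subgroup.mem_subgroupOf.mp hsM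
    obtain ⟨c', hc', b, hb, e2⟩ := exists_mul_of_mem_sup Cg (D.borelSubgroup F) hBC _ hmem
    refine not_nU_eq hP hH bz hbz h1 hTab J hJ i hi c' b ?_ hb e2
    intro y hy
    exact ((Subgroup.mem_centralizer_iff.mp (Subgroup.mem_inf.mp hc').1) y hy).symm
  · rw [Set.not_nonempty_iff_eq_empty] at hne
    rw [hne] at e
    have hcG : c ∈ D.group F := hPG hcP
    have hcM : (⟨c, hcG⟩ : ↥(D.group F)) ∈ (Cg ⊔ D.borelSubgroup F).subgroupOf (D.group F) :=
      Subgroup.mem_subgroupOf.mpr (le_sup_left (b := D.borelSubgroup F) hcC)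
    rw [e] at hcM
    unfold BNPair.parabolic at hcM
    rw [Subgroup.closure_empty, sup_bot_eq, bnPair_B] at hcM
    exact Subgroup.mem_subgroupOf.mp hcM

include hP hH hbz h1 hTab hJ in
/-- Over a finite field of characteristic `p`, the generalized Fitting subgroup of a proper parabolic subgroup is a
`p`-group. -/
theorem genFitting_parabolic_isPGroup [Finite F] (p : ℕ) [Fact p.Prime]
    (hU : IsPGroup p ↥(D.posUnipotent F)) :
    IsPGroup p ↥(Cfsg.generalizedFittingSubgroup ↥(D.parabolicSubgroup F J)) := by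
  have hS := hP.sem
  have key : ∀ g : ↥(D.parabolicSubgroup F J), (g : GL D.Idx F) ∈ D.posUnipotent F → ∃ k : ℕ, g ^ p ^ k = 1 := by
    intro g hg
    obtain ⟨k, hk⟩ := hU ⟨g.1, hg⟩
    refine ⟨k, Subtype.ext ?_⟩
    have := congrArg Subtype.val hk
    simpa using this
  set Q : Subgroup ↥(D.parabolicSubgroup F J) :=
    (D.unipotentRadical F J).subgroupOf (D.parabolicSubgroup F J) with hQ
  have hQn : Q.Normal := Subgroup.normal_subgroupOf_of_le_normalizer (parabolic_le_normalizer hP h1 J)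
  have hQp : IsPGroup p ↥Q := by
    intro g
    obtain ⟨k, hk⟩ := key g.1 (unipotentRadical_le_posUnipotent hP J (Subgroup.mem_subgroupOf.mp g.2))
    exact ⟨k, Subtype.ext hk⟩
  have hQO : Q ≤ Cfsg.pCore p ↥(D.parabolicSubgroup F J) := H60.le_pCore hQn hQp
  have hOn : (Cfsg.pCore p ↥(D.parabolicSubgroup F J)).Normal :=
    Subgroup.sSup_normal _ (fun _ h => h.1)
  have hOp : IsPGroup p ↥(Cfsg.pCore p ↥(D.parabolicSubgroup F J)) := H60.isPGroup_pCore p
  have hZp : IsPGroup p ↥(Subgroup.centralizer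
      ((Cfsg.pCore p ↥(D.parabolicSubgroup F J) : Subgroup ↥(D.parabolicSubgroup F J)) :
        Set ↥(D.parabolicSubgroup F J))) := by
    intro g
    have hg := Subgroup.mem_centralizer_iff.mp g.2
    have hmem : ((g.1 : ↥(D.parabolicSubgroup F J)) : GL D.Idx F) ∈ D.posUnipotent F := by
      apply centralizer_le_posUnipotent hP hH bz hbz h1 hTab J hJ _ g.1.2
      intro y hy
      have hyP : y ∈ D.parabolicSubgroup F J :=
        borel_le_parabolic hP h1 J
          ((le_sup_left : D.posUnipotent F ≤ D.borelSubgroup F) (unipotentRadical_le_posUnipotent hP J hy))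
      have hyQ : (⟨y, hyP⟩ : ↥(D.parabolicSubgroup F J)) ∈ Q := Subgroup.mem_subgroupOf.mpr hy
      have := hg _ (hQO hyQ)
      exact (congrArg Subtype.val this).symm
    obtain ⟨k, hk⟩ := key g.1 hmem
    exact ⟨k, Subtype.ext hk⟩
  have hC : Subgroup.centralizer
      ((Cfsg.pCore p ↥(D.parabolicSubgroup F J) : Subgroup ↥(D.parabolicSubgroup F J)) :
        Set ↥(D.parabolicSubgroup F J)) ≤ Cfsg.pCore p ↥(D.parabolicSubgroup F J) :=
    H60.le_pCore Subgroup.normal_centralizer hZp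
  rw [H28.genFitting_eq_pCore_of_centralizer_le p _ hOn hOp hC]
  exact hOp

end Main

end Cfsg.Agent.H46
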