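import Cfsg.Agent.H46.PerfSmall

set_option autoImplicit false
set_option maxRecDepth 100000

/-!
# Certificates for the perfectness of the presented group in characteristics 2 and 3, type E7

Each entry `(q, r, s)` says that the commutator formula of the pair `(r, s)` starts with the root `q` (found by an
offline search, checked here by kernel evaluation).
-/

namespace Cfsg.Agent.H46

open Cfsg.Lie Cfsg.Agent.H23

/-- The certificate of type E7. -/
def perfCertE7 : List (ℕ × ℕ × ℕ) :=
  [(1, 0, 93), (2, 0, 94), (3, 0, 95), (4, 0, 96), (5, 0, 97), (6, 0, 98), (7, 0, 99), (8, 0, 100),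
    (9, 0, 101), (10, 0, 102), (11, 0, 103), (12, 0, 104), (13, 0, 105), (14, 0, 106), (15, 0, 107),
    (16, 0, 108), (17, 0, 109), (18, 0, 110), (19, 0, 111), (20, 0, 112), (21, 0, 113), (22, 0, 114),
    (23, 0, 115), (24, 0, 116), (25, 0, 117), (26, 0, 118), (27, 0, 119), (28, 0, 120), (29, 0, 121),
    (30, 0, 122), (31, 0, 123), (32, 0, 124), (0, 1, 32), (33, 1, 109), (34, 1, 110), (35, 1, 111),
    (36, 1, 112), (37, 1, 113), (38, 1, 114), (39, 1, 115), (40, 1, 116), (41, 1, 117), (42, 1, 118),
    (48, 1, 119), (49, 1, 120), (50, 1, 121), (51, 1, 122), (52, 1, 123), (93, 1, 125), (43, 2, 115),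
    (44, 2, 116), (45, 2, 117), (46, 2, 118), (53, 2, 119), (54, 2, 120), (55, 2, 121), (56, 2, 122),
    (73, 2, 124), (94, 2, 125), (47, 3, 118), (57, 3, 119), (58, 3, 120), (59, 3, 121), (69, 3, 123),
    (74, 3, 124), (95, 3, 125), (60, 4, 119), (61, 4, 120), (66, 4, 122), (70, 4, 123), (75, 4, 124),
    (96, 4, 125), (62, 5, 119), (64, 5, 121), (67, 5, 122), (71, 5, 123), (76, 5, 124), (97, 5, 125),
    (63, 6, 120), (65, 6, 121), (68, 6, 122), (72, 6, 123), (77, 6, 124), (98, 6, 125), (78, 7, 122),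
    (79, 7, 123), (83, 7, 124), (99, 7, 125), (80, 8, 123), (84, 8, 124), (100, 8, 125), (81, 9, 123),
    (85, 9, 124), (101, 9, 125), (82, 10, 123), (86, 10, 124), (102, 10, 125), (87, 11, 124), (103, 11, 125),
    (88, 12, 124), (104, 12, 125), (89, 13, 124), (105, 13, 125), (90, 14, 124), (106, 14, 125),
    (91, 15, 124), (107, 15, 125), (92, 16, 124), (108, 16, 125), (109, 17, 125), (110, 18, 125),
    (111, 19, 125), (112, 20, 125), (113, 21, 125), (114, 22, 125), (115, 23, 125), (116, 24, 125),
    (117, 25, 125), (118, 26, 125), (119, 27, 125), (120, 28, 125), (121, 29, 125), (122, 30, 125),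
    (123, 31, 125), (124, 32, 125), (125, 93, 124)]

theorem perfChk_E7_2 : perfChk chevE7 2 perfCertE7 [] = true := by decide +kernel

theorem perfChk_E7_3 : perfChk chevE7 3 perfCertE7 [] = true := by decide +kernel

end Cfsg.Agent.H46
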