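import Cfsg.Agent.H46.PerfDataS
import Cfsg.Agent.H46.PerfDataE7
import Cfsg.Agent.H46.PerfDataE8
import Cfsg.Agent.S1025

set_option autoImplicit false

/-!
# The group presented by (R1), (R2) is perfect (all fields, types B2 and G2 over the field with two elements excepted)
-/

namespace Cfsg.Agent.H46

open Cfsg.Lie Cfsg.Agent.H23

theorem charP_of_prime_eq_zero {K : Type*} [Field K] (p : ℕ) (hp : p.Prime) (h : (p : K) = 0) : CharP K p := by
  have h1 : ringChar K ∣ p := ringChar.dvd h
  have h2 : ringChar K ≠ 1 := CharP.ringChar_ne_one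
  have h3 : ringChar K = p := ((Nat.dvd_prime hp).mp h1).resolve_left h2
  exact h3 ▸ ringChar.charP K

/-- The group presented by (R1), (R2) is perfect. -/
theorem cover_perfect {K : Type*} [Field K] (D : ChevalleyDatum)
    (hD : D ∈ [chevG2, chevB2, chevD4, chevF4, chevE6, chevE7, chevE8])
    (hK : D ∈ [chevB2, chevG2] → ∃ x : K, x ≠ 0 ∧ x ≠ 1) : commutator (D.SteinbergCover K) = ⊤ := by
  by_cases hv : ∃ v : K, v ≠ 0 ∧ v ^ 2 - 1 ≠ 0
  · obtain ⟨v, hv1, hv2⟩ := hv
    obtain ⟨z, η, w, w0, hpk⟩ := packSt_all (K := K) D hD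
    exact cover_perfect_of_elt hpk
      (fun r s hr hs h1 h2 t u => Cfsg.Agent.S1025.result D hD r s hr hs h1 h2 t u) v hv1 hv2
  · have hv' : ∀ v : K, v ≠ 0 → v ^ 2 - 1 = 0 := fun v hv0 => by
      by_contra hne
      exact hv ⟨v, hv0, hne⟩
    by_cases h2 : (2 : K) = 0
    · haveI : CharP K 2 := charP_of_prime_eq_zero 2 Nat.prime_two (by exact_mod_cast h2)
      have hno : ¬ (D ∈ [chevB2, chevG2]) := by
        intro hmem
        obtain ⟨x, hx0, hx1⟩ := hK hmem
        have h4 := hv' x hx0
        have h3 : (x - 1) ^ 2 = 0 := by linear_combination h4 - (x - 1) * h2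
        exact hx1 (sub_eq_zero.mp (sq_eq_zero_iff.mp h3))
      simp only [List.mem_cons, List.not_mem_nil, or_false] at hD hno
      rcases hD with rfl | rfl | rfl | rfl | rfl | rfl | rfl
      · exact absurd (Or.inr rfl) hno
      · exact absurd (Or.inl rfl) hno
      · exact cover_perfect_of_chk 2 perfCertD4 perfChk_D4_2
      · exact cover_perfect_of_chk 2 perfCertF4 perfChk_F4_2
      · exact cover_perfect_of_chk 2 perfCertE6 perfChk_E6_2
      · exact cover_perfect_of_chk 2 perfCertE7 perfChk_E7_2
      · exact cover_perfect_of_chk 2 perfCertE8 perfChk_E8_2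
    · have h3 : (3 : K) = 0 := by
        have h4 := hv' 2 h2
        linear_combination h4
      haveI : CharP K 3 := charP_of_prime_eq_zero 3 Nat.prime_three (by exact_mod_cast h3)
      simp only [List.mem_cons, List.not_mem_nil, or_false] at hD
      rcases hD with rfl | rfl | rfl | rfl | rfl | rfl | rfl
      · exact cover_perfect_of_chk 3 perfCertG2 perfChk_G2_3
      · exact cover_perfect_of_chk 3 perfCertB2 perfChk_B2_3
      · exact cover_perfect_of_chk 3 perfCertD4 perfChk_D4_3
      · exact cover_perfect_of_chk 3 perfCertF4 perfChk_F4_3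
      · exact cover_perfect_of_chk 3 perfCertE6 perfChk_E6_3
      · exact cover_perfect_of_chk 3 perfCertE7 perfChk_E7_3
      · exact cover_perfect_of_chk 3 perfCertE8 perfChk_E8_3

end Cfsg.Agent.H46
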