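import Cfsg.Agent.H46.UnivSplit

set_option autoImplicit false
set_option linter.unusedSectionVars false

/-!
# The group presented by (R1), (R2) is perfect, also over small fields

Two arguments: with an element `v ≠ 0`, `v² ≠ 1` of the field, every `x̄_q(t)` is a commutator with `h̄_q(v)`; in
characteristic `p`, a table certificate expresses every `x̄_q(t)` through commutators of root elements.
-/

namespace Cfsg.Agent.H46

open Cfsg.Lie Cfsg.Agent.H23

variable {D : ChevalleyDatum} {K : Type*} [Field K] {z η : ℕ → ℕ → ℤ}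

/-- The presented group is perfect when the field has an element `v ≠ 0` with `v² ≠ 1`. -/
theorem cover_perfect_of_elt {w w0 : List ℕ} (hpk : PackSt D K z η w w0) (hC : CommMat D K)
    (v2 : K) (hv2 : v2 ≠ 0) (hv2' : v2 ^ 2 - 1 ≠ 0) : commutator (D.SteinbergCover K) = ⊤ := by
  classical
  have hP := hpk.hP
  obtain ⟨θ₀, hθs, hθc, hθ⟩ := cover_central hpk.tab hP hpk.hV hC
  have hA : ∀ (r : ℕ) (t₁ t₂ : K), r < D.nroots →
      D.stX r t₁ * D.stX r t₂ * (D.stX r (t₁ + t₂))⁻¹ ∈ D.steinbergRelsAB K :=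
    fun r t₁ t₂ hr => Or.inl ⟨r, t₁, t₂, hr, rfl⟩
  have hB : ∀ (r s : ℕ) (t u : K), r < D.nroots → s < D.nroots → s ≠ r → s ≠ D.neg r →
      (D.stX s u)⁻¹ * (D.stX r t)⁻¹ * D.stX s u * D.stX r t * (D.stWord (D.commWord K r s t u))⁻¹ ∈
        D.steinbergRelsAB K :=
    fun r s t u hr hs h1 h2 => Or.inr ⟨r, s, t, u, hr, hs, h1, h2, rfl⟩
  obtain ⟨C, hCxb⟩ : ∃ C : StCtx D K (D.SteinbergCover K) z η, C.xb = xbP D (D.steinbergRelsAB K) :=
    ⟨ctxP (D.steinbergRelsAB K) hA hB hpk.tab hP hpk.hV θ₀ hθ, rfl⟩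
  have hSt := fun q (hq : q < D.nroots) => isSteinberg_root C q hq
  have hkey : ∀ q < D.nroots, ∀ s : K,
      H85.stH (C.xb q) (C.xb (D.neg q)) v2 * C.xb q s * (H85.stH (C.xb q) (C.xb (D.neg q)) v2)⁻¹ *
        (C.xb q s)⁻¹ = C.xb q ((v2 ^ 2 - 1) * s) := by
    intro q hq s
    rw [(hSt q hq).h_conj_a hv2 s, xb_inv C.rel q hq, C.rel.add q hq]
    congr 1
    ring
  rw [eq_top_iff, ← closure_xbP (D.steinbergRelsAB K), Subgroup.closure_le]
  rintro g ⟨r, t, hr, rfl⟩
  have h1 := hkey r hr (t / (v2 ^ 2 - 1))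
  have h2 : (v2 ^ 2 - 1) * (t / (v2 ^ 2 - 1)) = t := by field_simp
  rw [h2, hCxb] at h1
  rw [← h1, ← commutatorElement_def, commutator_def]
  exact Subgroup.commutator_mem_commutator (Subgroup.mem_top _) (Subgroup.mem_top _)

/-! ### Certificates through commutators of root elements -/

/-- The leading term of a commutator formula is the root `q` with a coefficient prime to `p` and exponents `1, 1`,
and the other terms vanish modulo `p` or belong to roots already treated. -/
def perfHead (p : ℕ) (done : List ℕ) (q : ℕ) : List (ℕ × ℤ × ℕ × ℕ) → Bool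
  | [] => false
  | c :: rest => Nat.beq c.1 q && (Nat.beq c.2.2.1 1 && (Nat.beq c.2.2.2 1 &&
      (!(decide (c.2.1 % (p : ℤ) = 0)) &&
        rest.all (fun c' => decide (c'.2.1 % (p : ℤ) = 0) || done.contains c'.1))))

/-- One step of a certificate: the pair `(r, s)` treats the root `q`. -/
def perfStep (D : ChevalleyDatum) (p : ℕ) (done : List ℕ) (q r s : ℕ) : Bool :=
  decide (r < D.nroots) && (decide (s < D.nroots) && (!(Nat.beq s r) && (!(Nat.beq s (D.neg r)) &&
    perfHead p done q (D.commTerms r s))))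

/-- A certificate treats all roots. -/
def perfChk (D : ChevalleyDatum) (p : ℕ) : List (ℕ × ℕ × ℕ) → List ℕ → Bool
  | [], done => (List.range D.nroots).all (fun q => done.contains q)
  | c :: rest, done => perfStep D p done c.1 c.2.1 c.2.2 && perfChk D p rest (c.1 :: done)

section Perf

variable {Γ : Type*} [Group Γ] {xb : ℕ → K → Γ} (h : StRel D xb) (hge : ∀ q, D.nroots ≤ q → ∀ t, xb q t = 1)
  (p : ℕ) [CharP K p] (N : Subgroup Γ) (hN : ∀ a b : Γ, a⁻¹ * b⁻¹ * a * b ∈ N)

include h hge hN in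
theorem perfStep_sound (done : List ℕ) (hdone : ∀ c ∈ done, ∀ t : K, xb c t ∈ N) (q r s : ℕ)
    (hstep : perfStep D p done q r s = true) : ∀ t : K, xb q t ∈ N := by
  unfold perfStep at hstep
  simp only [Bool.and_eq_true, decide_eq_true_eq, Bool.not_eq_true'] at hstep
  obtain ⟨hr, hs, h1, h2, hh⟩ := hstep
  have hne : s ≠ r := fun e => by rw [e, Nat.beq_refl] at h1; exact Bool.noConfusion h1
  have hne' : s ≠ D.neg r := fun e => by rw [e, Nat.beq_refl] at h2; exact Bool.noConfusion h2
  have hrel := h.comm r hr s hs hne hne'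
  unfold ChevalleyDatum.commWord at hrel
  cases hct : D.commTerms r s with
  | nil => rw [hct] at hh; exact absurd hh (by simp [perfHead])
  | cons c rest =>
    rw [hct] at hh hrel
    unfold perfHead at hh
    simp only [Bool.and_eq_true, Bool.not_eq_true', decide_eq_false_iff_not, List.all_eq_true,
      Bool.or_eq_true, decide_eq_true_eq] at hh
    obtain ⟨hq, hi, hj, hC, hrest⟩ := hh
    have hq' : c.1 = q := Nat.eq_of_beq_eq_true hq
    have hi' : c.2.2.1 = 1 := Nat.eq_of_beq_eq_true hi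
    have hj' : c.2.2.2 = 1 := Nat.eq_of_beq_eq_true hj
    have hC' : ((c.2.1 : ℤ) : K) ≠ 0 := by
      rw [Ne, CharP.intCast_eq_zero_iff K p]
      exact fun hd => hC (Int.emod_eq_zero_of_dvd hd)
    have hrestN : ∀ t u : K, wordB xb (rest.map fun c => (c.1, (c.2.1 : K) * (-t) ^ c.2.2.1 * u ^ c.2.2.2)) ∈ N := by
      intro t u
      unfold wordB
      apply Subgroup.list_prod_mem
      intro g hg
      simp only [List.mem_map, List.map_map] at hg
      obtain ⟨c', hc', rfl⟩ := hg
      rcases hrest c' hc' with h0 | hd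
      · have h0' : ((c'.2.1 : ℤ) : K) = 0 := by
          rw [CharP.intCast_eq_zero_iff K p]
          exact Int.dvd_of_emod_eq_zero h0
        simp only [Function.comp_apply]
        rw [h0', zero_mul, zero_mul]
        by_cases hlt : c'.1 < D.nroots
        · rw [xb_zero h c'.1 hlt]; exact Subgroup.one_mem _
        · rw [hge c'.1 (by omega)]; exact Subgroup.one_mem _
      · exact hdone c'.1 (by simpa using hd) _
    intro t
    obtain ⟨a, ha⟩ : ∃ a : K, (c.2.1 : K) * (-a) = t := ⟨-(t / (c.2.1 : K)), by field_simp⟩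
    have h3 := hrel a 1
    rw [List.map_cons, wordB_cons] at h3
    have h4 : xb q t = ((xb s 1)⁻¹ * (xb r a)⁻¹ * xb s 1 * xb r a) *
        (wordB xb (rest.map fun c' => (c'.1, (c'.2.1 : K) * (-a) ^ c'.2.2.1 * (1 : K) ^ c'.2.2.2)))⁻¹ := by
      rw [h3]
      simp only
      rw [hq', hi', hj', mul_inv_cancel_right, pow_one, pow_one, mul_one, ha]
    rw [h4]
    exact Subgroup.mul_mem _ (hN _ _) (Subgroup.inv_mem _ (hrestN a 1))

include h hge hN in
theorem perfChk_sound : ∀ (cert : List (ℕ × ℕ × ℕ)) (done : List ℕ),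
    (∀ c ∈ done, ∀ t : K, xb c t ∈ N) → perfChk D p cert done = true → ∀ q < D.nroots, ∀ t : K, xb q t ∈ N
  | [], done, hdone, hchk => by
    intro q hq t
    unfold perfChk at hchk
    rw [List.all_eq_true] at hchk
    have := hchk q (List.mem_range.mpr hq)
    exact hdone q (by simpa using this) t
  | c :: rest, done, hdone, hchk => by
    unfold perfChk at hchk
    rw [Bool.and_eq_true] at hchk
    have h1 := perfStep_sound h hge p N hN done hdone c.1 c.2.1 c.2.2 hchk.1
    refine perfChk_sound rest (c.1 :: done) ?_ hchk.2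
    intro c' hc' t
    rcases List.mem_cons.mp hc' with rfl | hc''
    · exact h1 t
    · exact hdone c' hc'' t

end Perf

/-- The presented group is perfect in characteristic `p` when a certificate exists. -/
theorem cover_perfect_of_chk (p : ℕ) [CharP K p] (cert : List (ℕ × ℕ × ℕ))
    (hchk : perfChk D p cert [] = true) : commutator (D.SteinbergCover K) = ⊤ := by
  have hA : ∀ (r : ℕ) (t₁ t₂ : K), r < D.nroots →
      D.stX r t₁ * D.stX r t₂ * (D.stX r (t₁ + t₂))⁻¹ ∈ D.steinbergRelsAB K :=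
    fun r t₁ t₂ hr => Or.inl ⟨r, t₁, t₂, hr, rfl⟩
  have hB : ∀ (r s : ℕ) (t u : K), r < D.nroots → s < D.nroots → s ≠ r → s ≠ D.neg r →
      (D.stX s u)⁻¹ * (D.stX r t)⁻¹ * D.stX s u * D.stX r t * (D.stWord (D.commWord K r s t u))⁻¹ ∈
        D.steinbergRelsAB K :=
    fun r s t u hr hs h1 h2 => Or.inr ⟨r, s, t, u, hr, hs, h1, h2, rfl⟩
  have hrel := stRel_xbP (D.steinbergRelsAB K) hA hB
  have hN : ∀ a b : D.SteinbergCover K, a⁻¹ * b⁻¹ * a * b ∈ commutator (D.SteinbergCover K) := by
    intro a b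
    have e : a⁻¹ * b⁻¹ * a * b = a⁻¹ * b⁻¹ * a⁻¹⁻¹ * b⁻¹⁻¹ := by rw [inv_inv, inv_inv]
    rw [e, ← commutatorElement_def, commutator_def]
    exact Subgroup.commutator_mem_commutator (Subgroup.mem_top _) (Subgroup.mem_top _)
  have hall := perfChk_sound hrel (fun q hq t => xbP_of_ge (D.steinbergRelsAB K) q hq t) p
    (commutator (D.SteinbergCover K)) hN cert [] (fun c hc => absurd hc (List.not_mem_nil)) hchk
  rw [eq_top_iff, ← closure_xbP (D.steinbergRelsAB K), Subgroup.closure_le]
  rintro g ⟨r, t, hr, rfl⟩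
  exact hall r hr t

end Cfsg.Agent.H46
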