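import Mathlib
import Cfsg.Agent.H73.S2399U
import Cfsg.Agent.H73.S2399Rel
import Cfsg.Agent.H73.S2399Desc
import Cfsg.Agent.H24.GLEnv

set_option autoImplicit false

/-!
# The abstract lemmas of the lifting of projective representations

Proved by helper73 (`H73/S2399U.lean`, `S2399Rel.lean`, `S2399Desc.lean`) and helper24 (`H24/GLEnv.lean`);
re-exported here under one namespace.
-/

namespace Cfsg.Agent.H46.ProjAbs

/-- U: a finite `p`-subgroup of `E / Z(E)` lifts to `E` when `Z(E)` is `p`-divisible without `p`-torsion. -/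
theorem exists_pLift {E : Type*} [Group E] (p : ℕ) [Fact p.Prime]
    (hdiv : ∀ a ∈ Subgroup.center E, ∃ b ∈ Subgroup.center E, b ^ p = a)
    (htor : ∀ a ∈ Subgroup.center E, a ^ p = 1 → a = 1)
    (P : Subgroup (E ⧸ Subgroup.center E)) [Finite P] (hP : IsPGroup p P) :
    ∃ S : Subgroup E, IsPGroup p S ∧ (∀ x ∈ P, ∃ g ∈ S, (g : E ⧸ Subgroup.center E) = x) ∧
      (∀ g ∈ S, (g : E ⧸ Subgroup.center E) = 1 → g = 1) ∧
      (∀ g : E, (g : E ⧸ Subgroup.center E) ∈ P → (∃ k : ℕ, g ^ (p ^ k) = 1) → g ∈ S) := by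
  exact Cfsg.Agent.H73.S2399.exists_pLift p hdiv htor P hP

/-- REL: lifting a homomorphism from a presented group whose relators are supported on `p`-groups. -/
theorem exists_lift_presented {α : Type*} (rels : Set (FreeGroup α)) {E : Type*} [Group E] (p : ℕ) [Fact p.Prime]
    (hU : ∀ P : Subgroup (E ⧸ Subgroup.center E), Finite P → IsPGroup p P →
      ∃ S : Subgroup E, IsPGroup p S ∧ (∀ x ∈ P, ∃ g ∈ S, (g : E ⧸ Subgroup.center E) = x) ∧
        (∀ g ∈ S, (g : E ⧸ Subgroup.center E) = 1 → g = 1) ∧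
        (∀ g : E, (g : E ⧸ Subgroup.center E) ∈ P → (∃ k : ℕ, g ^ (p ^ k) = 1) → g ∈ S))
    (σ : PresentedGroup rels →* E ⧸ Subgroup.center E)
    (hgen : ∀ a : α, ∃ P : Subgroup (E ⧸ Subgroup.center E), Finite P ∧ IsPGroup p P ∧
      σ (PresentedGroup.of a) ∈ P)
    (hrel : ∀ ω ∈ rels, ∃ (P : Subgroup (E ⧸ Subgroup.center E)) (Λ : Set α), Finite P ∧ IsPGroup p P ∧
      (∀ a ∈ Λ, σ (PresentedGroup.of a) ∈ P) ∧ ω ∈ Subgroup.closure (FreeGroup.of '' Λ)) :
    ∃ ψ : PresentedGroup rels →* E, (QuotientGroup.mk' (Subgroup.center E)).comp ψ = σ := by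
  exact Cfsg.Agent.H73.S2399.exists_lift_presented rels p hU σ hgen hrel

/-- DESC: descent of a lift along an injective homomorphism, for a perfect group. -/
theorem lift_descent {Δ G E E' : Type*} [Group Δ] [Group G] [Group E] [Group E'] (hperf : commutator Δ = ⊤)
    (ι : E →* E') (hι : Function.Injective ι)
    (hcen : ∀ g : E, ι g ∈ Subgroup.center E' ↔ g ∈ Subgroup.center E)
    (θ : Δ →* G) (φ : G →* E ⧸ Subgroup.center E)
    (hlift : ∀ φ' : G →* E' ⧸ Subgroup.center E',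
      ∃ ψ' : Δ →* E', (QuotientGroup.mk' (Subgroup.center E')).comp ψ' = φ'.comp θ) :
    ∃ ψ : Δ →* E, (QuotientGroup.mk' (Subgroup.center E)).comp ψ = φ.comp θ := by
  exact Cfsg.Agent.H73.S2399.lift_descent hperf ι hι hcen θ φ hlift

universe u

/-- MAT: `GL_n(L)` embeds in a group whose centre is `p`-divisible without `p`-torsion, compatibly with centres. -/
theorem exists_gl_envelope {L : Type u} [Field L] (p : ℕ) [Fact p.Prime] [CharP L p] (n : ℕ) :
    ∃ (E' : Type u) (_ : Group E') (ι : GL (Fin n) L →* E'), Function.Injective ι ∧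
      (∀ g : GL (Fin n) L, ι g ∈ Subgroup.center E' ↔ g ∈ Subgroup.center (GL (Fin n) L)) ∧
      (∀ a ∈ Subgroup.center E', ∃ b ∈ Subgroup.center E', b ^ p = a) ∧
      (∀ a ∈ Subgroup.center E', a ^ p = 1 → a = 1) := by
  exact Cfsg.Agent.H24.GLEnv.exists_gl_envelope p n

end Cfsg.Agent.H46.ProjAbs
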