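import Cfsg.Agent.H46.UnivG
import Cfsg.Agent.H46.StMain
import Cfsg.Agent.H46.ProjAbs
import Cfsg.Agent.H23.CardU

set_option autoImplicit false
set_option linter.unusedSectionVars false

/-!
# Lifting projective representations in the natural characteristic (finite fields)

Over a finite field of characteristic `p` every relator (R1), (R2) is supported on a conjugate of the unipotent
group `U`, a finite `p`-group; so a homomorphism from the Chevalley group to `E / Z(E)`, the centre of `E`
being `p`-divisible without `p`-torsion, lifts to a homomorphism from the presented group to `E`.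
-/

namespace Cfsg.Agent.H46

open Cfsg.Lie Cfsg.Agent.H23

variable {D : ChevalleyDatum} {K : Type*} [Field K] {z η : ℕ → ℕ → ℤ}

theorem stX_mem_closure (Λ : Set (Fin D.nroots × K)) (r : ℕ) (t : K)
    (h : ∀ hr : r < D.nroots, ((⟨r, hr⟩, t) : Fin D.nroots × K) ∈ Λ) :
    D.stX r t ∈ Subgroup.closure (FreeGroup.of '' Λ) := by
  unfold ChevalleyDatum.stX
  split_ifs with hr
  · exact Subgroup.subset_closure ⟨_, h hr, rfl⟩
  · exact Subgroup.one_mem _

theorem stWord_mem_closure (Λ : Set (Fin D.nroots × K)) (w : List (ℕ × K))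
    (h : ∀ p ∈ w, ∀ hr : p.1 < D.nroots, ((⟨p.1, hr⟩, p.2) : Fin D.nroots × K) ∈ Λ) :
    D.stWord w ∈ Subgroup.closure (FreeGroup.of '' Λ) := by
  induction w with
  | nil =>
    have e : D.stWord ([] : List (ℕ × K)) = 1 := rfl
    rw [e]; exact Subgroup.one_mem _
  | cons p w ih =>
    have e : D.stWord (p :: w) = D.stX p.1 p.2 * D.stWord w := by
      unfold ChevalleyDatum.stWord
      rw [List.map_cons, List.prod_cons]
    rw [e]
    exact Subgroup.mul_mem _ (stX_mem_closure Λ p.1 p.2 (h p (List.mem_cons_self ..)))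
      (ih (fun q hq => h q (List.mem_cons_of_mem _ hq)))

/-- The conjugate of `U` by a representative of a Weyl group element, inside the Chevalley group. -/
def conjU (hS : Sem D K z) (v : List ℕ) : Subgroup ↥(D.group K) :=
  ((D.posUnipotent K).map (MulAut.conj (nWU hS v)⁻¹).toMonoidHom).subgroupOf (D.group K)

theorem mem_conjU_of (hS : Sem D K z) (v : List ℕ) (g : ↥(D.group K))
    (h : nWU hS v * (g : GL D.Idx K) * (nWU hS v)⁻¹ ∈ D.posUnipotent K) : g ∈ conjU hS v := by
  unfold conjU
  rw [Subgroup.mem_subgroupOf, Subgroup.mem_map]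
  refine ⟨_, h, ?_⟩
  simp only [MulEquiv.coe_toMonoidHom, MulAut.conj_apply, inv_inv]
  group

theorem conjU_isPGroup (hS : Sem D K z) (v : List ℕ) (p : ℕ) (hU : IsPGroup p (D.posUnipotent K)) :
    IsPGroup p (conjU hS v) :=
  (hU.map _).comap_of_injective _ (Subgroup.subtype_injective _)

/-- A homomorphism from the Chevalley group over a finite field of characteristic `p` to `E / Z(E)`, where `Z(E)`
is `p`-divisible without `p`-torsion, lifts to the presented group. -/
theorem exists_lift_closure {w w0 : List ℕ} (hpk : PackSt D K z η w w0) [Finite K]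
    (hPos : ∀ r < D.nroots, ∀ s < D.nroots, s ≠ r → s ≠ D.neg r → PosP D r s)
    (p : ℕ) [Fact p.Prime] (hU : IsPGroup p (D.posUnipotent K))
    (θ : D.SteinbergCover K →* ↥(D.group K))
    (hθ : ∀ (r : ℕ) (t : K), r < D.nroots →
      ((θ (D.scGen K r t) : GL D.Idx K) : Matrix D.Idx D.Idx K) = D.x K r t)
    {E : Type*} [Group E]
    (hdiv : ∀ a ∈ Subgroup.center E, ∃ b ∈ Subgroup.center E, b ^ p = a)
    (htor : ∀ a ∈ Subgroup.center E, a ^ p = 1 → a = 1)
    (φ' : ↥(D.group K) →* E ⧸ Subgroup.center E) :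
    ∃ ψ' : D.SteinbergCover K →* E, (QuotientGroup.mk' (Subgroup.center E)).comp ψ' = φ'.comp θ := by
  classical
  have hP := hpk.hP
  have hS := hP.sem
  have hT := hP.tab
  have hfinG : Finite ↥(D.group K) := inferInstance
  have hfin : ∀ v : List ℕ, Finite ↥((conjU hS v).map φ') := fun v =>
    Finite.of_surjective (fun x : conjU hS v => (⟨φ' x, Subgroup.mem_map_of_mem _ x.2⟩ : ↥((conjU hS v).map φ')))
      (by rintro ⟨y, x, hx, rfl⟩; exact ⟨⟨x, hx⟩, rfl⟩)
  have key : ∀ (v : List ℕ), (∀ i ∈ v, i < D.rank) → ∀ (q : ℕ) (hq : q < D.nroots),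
      D.IsPosRoot (reflW D v q) → ∀ t : K,
      (φ'.comp θ) (PresentedGroup.of ((⟨q, hq⟩, t) : Fin D.nroots × K)) ∈ (conjU hS v).map φ' := by
    intro v hv q hq hpos t
    refine Subgroup.mem_map.mpr ⟨θ (PresentedGroup.of ((⟨q, hq⟩, t) : Fin D.nroots × K)), ?_, rfl⟩
    apply mem_conjU_of
    obtain ⟨c, -, hc⟩ := nWU_conj hS hP.semN hT v hv q hq
    have e0 : (PresentedGroup.of ((⟨q, hq⟩, t) : Fin D.nroots × K) : D.SteinbergCover K) = D.scGen K q t := by
      unfold ChevalleyDatum.scGen ChevalleyDatum.stX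
      rw [dif_pos hq]
      rfl
    have e : ((θ (PresentedGroup.of ((⟨q, hq⟩, t) : Fin D.nroots × K)) : ↥(D.group K)) : GL D.Idx K) =
        xU hS q t := by
      apply Units.ext
      rw [e0, hθ q t hq, xU_val]
    rw [e, hc t]
    exact Subgroup.subset_closure ⟨reflW D v q, c * t, hpos, xU_val hS _ _⟩
  refine ProjAbs.exists_lift_presented (D.steinbergRelsAB K) p
    (fun P hPf hPp => by haveI := hPf; exact ProjAbs.exists_pLift p hdiv htor P hPp) (φ'.comp θ) ?_ ?_
  · rintro ⟨⟨q, hq⟩, t⟩
    obtain ⟨v, hv, j, hj, e⟩ := exists_word_to_simple hT q hq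
    exact ⟨(conjU hS v).map φ', hfin v, (conjU_isPGroup hS v p hU).map φ',
      key v hv q hq (e ▸ hT.simple_pos j hj) t⟩
  · rintro ω (⟨r, t₁, t₂, hr, rfl⟩ | ⟨r, s, t, u, hr, hs, h1, h2, rfl⟩)
    · obtain ⟨v, hv, j, hj, e⟩ := exists_word_to_simple hT r hr
      have hpos : D.IsPosRoot (reflW D v r) := e ▸ hT.simple_pos j hj
      refine ⟨(conjU hS v).map φ', {a | D.IsPosRoot (reflW D v a.1.val)}, hfin v,
        (conjU_isPGroup hS v p hU).map φ', fun a ha => key v hv a.1.val a.1.isLt ha a.2, ?_⟩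
      exact Subgroup.mul_mem _ (Subgroup.mul_mem _ (stX_mem_closure _ r t₁ (fun _ => hpos))
        (stX_mem_closure _ r t₂ (fun _ => hpos))) (Subgroup.inv_mem _ (stX_mem_closure _ r _ (fun _ => hpos)))
    · obtain ⟨v, hv, hrp, hsp, hterms⟩ := hPos r hr s hs h1 h2
      refine ⟨(conjU hS v).map φ', {a | D.IsPosRoot (reflW D v a.1.val)}, hfin v,
        (conjU_isPGroup hS v p hU).map φ', fun a ha => key v hv a.1.val a.1.isLt ha a.2, ?_⟩
      have hw : D.stWord (D.commWord K r s t u) ∈
          Subgroup.closure (FreeGroup.of '' {a : Fin D.nroots × K | D.IsPosRoot (reflW D v a.1.val)}) := by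
        apply stWord_mem_closure
        intro p hp hpr
        unfold ChevalleyDatum.commWord at hp
        obtain ⟨c, hc, rfl⟩ := List.mem_map.mp hp
        exact (hterms c hc).2
      exact Subgroup.mul_mem _ (Subgroup.mul_mem _ (Subgroup.mul_mem _ (Subgroup.mul_mem _
        (Subgroup.inv_mem _ (stX_mem_closure _ s u (fun _ => hsp)))
        (Subgroup.inv_mem _ (stX_mem_closure _ r t (fun _ => hrp))))
        (stX_mem_closure _ s u (fun _ => hsp))) (stX_mem_closure _ r t (fun _ => hrp)))
        (Subgroup.inv_mem _ hw)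

end Cfsg.Agent.H46
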