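import Cfsg.Agent.H46.UnivAll
import Cfsg.Agent.H46.PerfAll
import Cfsg.Agent.H46.ProjLift

set_option autoImplicit false

/-!
# Projective representations in the natural characteristic lift to the group presented by (R1), (R2)
-/

namespace Cfsg.Agent.H46

open Cfsg.Lie Cfsg.Agent.H23

/-- Pairs of roots can be moved to positive roots, for the seven tabulated types. -/
theorem posP_all7 (D : ChevalleyDatum) (hD : D ∈ [chevG2, chevB2, chevD4, chevF4, chevE6, chevE7, chevE8]) :
    ∀ r < D.nroots, ∀ s < D.nroots, s ≠ r → s ≠ D.neg r → PosP D r s := by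
  simp only [List.mem_cons, List.not_mem_nil, or_false] at hD
  rcases hD with rfl | rfl | rfl | rfl | rfl | rfl | rfl
  exacts [posP_G2, posP_B2, posP_D4, posP_F4, posP_E6, posP_E7, posP_E8]

/-- Every homomorphism from the Chevalley group to `PGL_n(L)`, `L` of the characteristic of `K`, lifts uniquely to
a homomorphism from the presented group to `GL_n(L)`. -/
theorem proj_lift {K : Type*} [Field K] (D : ChevalleyDatum)
    (hD : D ∈ [chevG2, chevB2, chevD4, chevF4, chevE6, chevE7, chevE8])
    (hK : D ∈ [chevB2, chevG2] → ∃ x : K, x ≠ 0 ∧ x ≠ 1)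
    (θ : D.SteinbergCover K →* ↥(D.group K))
    (hθ : ∀ (r : ℕ) (t : K), r < D.nroots →
      ((θ (D.scGen K r t) : GL D.Idx K) : Matrix D.Idx D.Idx K) = D.x K r t)
    {L : Type*} [Field L] (hL : ringChar L = ringChar K) {n : ℕ}
    (φ : ↥(D.group K) →* GL (Fin n) L ⧸ Subgroup.center (GL (Fin n) L)) :
    ∃! ψ : D.SteinbergCover K →* GL (Fin n) L,
      (QuotientGroup.mk' (Subgroup.center (GL (Fin n) L))).comp ψ = φ.comp θ := by
  have hperf := cover_perfect D hD hK
  have hker : (QuotientGroup.mk' (Subgroup.center (GL (Fin n) L))).ker ≤ Subgroup.center (GL (Fin n) L) := by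
    rw [QuotientGroup.ker_mk']
  suffices hex : ∃ ψ : D.SteinbergCover K →* GL (Fin n) L,
      (QuotientGroup.mk' (Subgroup.center (GL (Fin n) L))).comp ψ = φ.comp θ by
    obtain ⟨ψ, hψ⟩ := hex
    exact ⟨ψ, hψ, fun ψ' hψ' => UnivAbs.lift_unique hperf _ hker ψ' ψ (hψ'.trans hψ.symm)⟩
  by_cases hK5 : ∃ s : Finset K, 4 < s.card
  · exact UnivAbs.lift_of_split (fun E' _ ψ hs hc' => (cover_split_all hK5 D hD ψ hs hc').2)
      (QuotientGroup.mk' _) (QuotientGroup.mk'_surjective _) hker (φ.comp θ)
  · have hfin : Finite K := by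
      by_contra hinf
      rw [not_finite_iff_infinite] at hinf
      obtain ⟨s, hs⟩ := Infinite.exists_subset_card_eq K 5
      exact hK5 ⟨s, by omega⟩
    haveI : CharP K (ringChar K) := ringChar.charP K
    haveI : Fact (ringChar K).Prime := ⟨CharP.char_is_prime K (ringChar K)⟩
    haveI : CharP L (ringChar K) := hL ▸ ringChar.charP L
    obtain ⟨z, η, w, w0, hpk⟩ := packSt_all (K := K) D hD
    have hU : IsPGroup (ringChar K) (D.posUnipotent K) := by
      haveI := Fintype.ofFinite K
      obtain ⟨k, -, hk⟩ := FiniteField.card K (ringChar K)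
      apply IsPGroup.of_card (n := (k : ℕ) * (D.nroots / 2))
      rw [card_posUnipotent_all D hD, hk, ← pow_mul]
    obtain ⟨E', _, ι, hι, hcen, hdiv, htor⟩ := ProjAbs.exists_gl_envelope (L := L) (ringChar K) n
    exact ProjAbs.lift_descent hperf ι hι hcen θ φ
      (fun φ' => exists_lift_closure hpk (posP_all7 D hD) (ringChar K) hU θ hθ hdiv htor φ')

end Cfsg.Agent.H46
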