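import Cfsg.Agent.H23.StbDecDefs2
import Cfsg.Agent.H85.StbDDecomp2
import Cfsg.Agent.H12.StbDNF1
import Cfsg.Agent.H63.StbDNF2
import Cfsg.Agent.H11.StbDPsiG
import Cfsg.Agent.H11.StbDRootMapG
import Cfsg.Agent.H70.StbDEdge
import Cfsg.Agent.H19.StbDAdj
import Cfsg.Agent.H18.StbSyl
import Cfsg.Agent.H18.StbW0
import Cfsg.Agent.H13.StbOpp
import Cfsg.Agent.H13.StbPV
import Cfsg.Agent.H13.StbHatEx
import Cfsg.Agent.H61.StbNormU
import Cfsg.Agent.H61.StbPar
import Cfsg.Agent.H70.StbNeg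
import Cfsg.Agent.H70.StbHatAut
import Cfsg.Agent.H78.StbPsi
import Cfsg.Agent.H73.StbGPosG
import Cfsg.Agent.H73.StbGMatchG

/-!
# S2156: the generic glue `StType D` from the landed SD pieces and the table facts of a type (helper46)

`sdType_of` : for a datum `D` with a `PackS` over every field, a Sylow statement, a coordinate table, the
longest-word facts and the table hypotheses of `StAdj` / `StDecomp2`, every automorphism of `D.group F`
(`F` finite) is inner ∘ diagonal ∘ graph ∘ field.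
-/

set_option autoImplicit false

namespace Cfsg.Agent.H46.SD

open Cfsg Cfsg.Lie Cfsg.Agent.H23 Cfsg.Agent.H23.Stb Cfsg.Agent.H23.StbD

universe u

/-- SD-NF with all its pieces plugged in. -/
theorem nf_closed : StNF.{u} := by
  have hW0 := Cfsg.Agent.H18.Stb.w0
  have hNormU := Cfsg.Agent.H61.Stb.normU
  have hNeg := Cfsg.Agent.H70.Stb.neg hNormU Cfsg.Agent.H61.Stb.par (Cfsg.Agent.H13.Stb.pv hW0)
  exact nf_of_halves
    (Cfsg.Agent.H12.StbD.nf1 Cfsg.Agent.H18.Stb.syl (Cfsg.Agent.H13.Stb.opp hW0) hNeg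
      (Cfsg.Agent.H73.StbG.posG hNeg hW0) Cfsg.Agent.H73.StbG.matchG Cfsg.Agent.H11.StbD.rootMapG)
    (Cfsg.Agent.H63.StbD.nf2 Cfsg.Agent.H13.Stb.hatEx Cfsg.Agent.H70.Stb.hatAut
      (Cfsg.Agent.H11.StbD.psiG Cfsg.Agent.H78.Stb.rank1) Cfsg.Agent.H70.StbD.edge)

/-- The generic glue: `StType D` from a pack and the table facts. -/
theorem sdType_of (D : ChevalleyDatum) (z η : ℕ → ℕ → ℤ) (rT w0 : List ℕ)
    (hC : ∀ (F : Type u) [Field F], PackS D F z η rT w0)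
    (hSyl : ∀ (F : Type u) [Field F] [Finite F] (p : ℕ) [Fact p.Prime] [CharP F p],
      ∃ P : Sylow p ↥(D.group F),
        (P : Subgroup ↥(D.group F)) = (D.posUnipotent F).subgroupOf (D.group F))
    (m : ℕ → ℕ → ℤ) (hm : Coord D m) (τ : ℕ → ℕ)
    (hτ : ∀ i < D.rank, τ i < D.rank) (hττ : ∀ i < D.rank, τ (τ i) = i)
    (hw0 : ∀ i < D.rank, reflW D w0 (D.neg (D.simple i)) = D.simple (τ i))
    (hT1 : ∀ i < D.rank, ∀ j < D.rank, i ≠ j → D.commTerms (D.neg (D.simple i)) (D.simple j) = [])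
    (hT2 : ∀ i < D.rank, ∀ j < D.rank, i ≠ j → z (D.simple j) (D.simple i) = 0 →
      D.commTerms (D.simple i) (D.simple j) = [])
    (hT3 : ∀ i < D.rank, ∀ j < D.rank, i ≠ j → z (D.simple j) (D.simple i) ≠ 0 →
      D.reflectRoot i (D.simple j) ≠ D.simple j)
    (hT4 : ∀ i < D.rank, D.reflectRoot i (D.simple i) = D.neg (D.simple i))
    (c bL bS : ℕ)
    (hcz : ∀ i < D.rank, ∀ j < D.rank, D.cartan i (D.simple j) = z (D.simple i) (D.simple j))
    (hc : c = 2 ∨ c = 3)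
    (hA : ∀ i < D.rank, ∀ j < D.rank, i ≠ j → z (D.simple j) (D.simple i) ≠ 0 →
      z (D.simple j) (D.simple i) =
        if D.isLong (D.simple i) && !D.isLong (D.simple j) then -(c : ℤ) else -1)
    (hbL : bL < D.rank) (hbS : bS < D.rank)
    (hconn : ∀ P : ℕ → Prop, P bS → P bL →
      (∀ i < D.rank, ∀ j < D.rank, i ≠ j → z (D.simple j) (D.simple i) ≠ 0 →
        D.isLong (D.simple i) = D.isLong (D.simple j) → P i → P j) → ∀ i < D.rank, P i)
    (hcase : (D.isLong (D.simple bL) = true ∧ D.isLong (D.simple bS) = false ∧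
        z (D.simple bS) (D.simple bL) ≠ 0 ∧ z (D.simple bL) (D.simple bS) ≠ 0) ∨
      ((∀ i < D.rank, D.isLong (D.simple i) = false) ∧ bL = bS))
    (hex : ∃ i < D.rank, ∃ j < D.rank, i ≠ j ∧ z (D.simple j) (D.simple i) = -1)
    (hπlen : ∀ π : ℕ → ℕ, (∀ i < D.rank, π i < D.rank) →
      (∀ i < D.rank, ∀ j < D.rank, π i = π j → i = j) →
      (∀ i < D.rank, ∀ j < D.rank, i ≠ j →
        (z (D.simple (π j)) (D.simple (π i)) ≠ 0 ↔ z (D.simple j) (D.simple i) ≠ 0)) →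
      ((∀ i < D.rank, D.isLong (D.simple (π i)) = D.isLong (D.simple i)) ∨
        (∀ i < D.rank, D.isLong (D.simple (π i)) = !D.isLong (D.simple i))))
    (hchain : ∀ r < D.nroots, ∀ s < D.nroots, ∀ k, D.chainRoot r s 1 = some k →
      k < D.nroots ∧ s ≠ r ∧ s ≠ D.neg r) :
    StType.{u} D := by
  intro F _ _ θ
  obtain ⟨p, hp⟩ := CharP.exists F
  haveI : Fact p.Prime :=
    ⟨(CharP.char_is_prime_or_zero F p).resolve_right (CharP.char_ne_zero_of_finite F p)⟩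
  obtain ⟨hA1, hA2⟩ := Cfsg.Agent.H19.StbD.adj D F z η rT w0 (hC F) hT1 hT2 hT3 hT4
  have hnf := nf_closed D F p z η rT w0 (hC F) (fun i j => z (D.simple j) (D.simple i) ≠ 0) τ m
    (hSyl F p) hτ hττ hw0 hA1 hA2 hm θ
  exact Cfsg.Agent.H85.StbD.decomp2Closed D F z η rT w0 (hC F) c bL bS hcz hc hA hbL hbS hconn hcase hex
    hπlen hchain θ hnf

end Cfsg.Agent.H46.SD
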