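import Cfsg.Agent.H23.StbDecDefs2
import Cfsg.Agent.H23.OrdH
import Cfsg.Agent.H23.CommAllE7
import Cfsg.Agent.H23.CanonTab
import Cfsg.Agent.H23.SylowU

/-!
# S2156: the pack and the longest-word / connectivity facts of type `E₇`, in a file of their own (helper46)

Same content as the corresponding items of `H46/OutE7.lean` (S2124), under new names, so that the closure of
S2156 does not contain both `OutE7` and `OutE8`.
-/

set_option autoImplicit false

namespace Cfsg.Agent.H46.SD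

open Cfsg.Lie Cfsg.Agent.H23 Cfsg.Agent.H23.Stb

universe u

theorem e7s_w0 : ∀ i < chevE7.rank, reflW chevE7 w0E7 (chevE7.neg (chevE7.simple i)) = chevE7.simple i := by
  decide +kernel

theorem e7s_edges : zR chevE7 ctblE7 (chevE7.simple 2) (chevE7.simple 0) = -1 ∧
    zR chevE7 ctblE7 (chevE7.simple 3) (chevE7.simple 2) = -1 ∧
    zR chevE7 ctblE7 (chevE7.simple 1) (chevE7.simple 3) = -1 ∧
    zR chevE7 ctblE7 (chevE7.simple 4) (chevE7.simple 3) = -1 ∧
    zR chevE7 ctblE7 (chevE7.simple 5) (chevE7.simple 4) = -1 ∧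
    zR chevE7 ctblE7 (chevE7.simple 6) (chevE7.simple 5) = -1 := by
  decide +kernel

theorem e7s_conn2 : ∀ P : ℕ → Prop, P 0 →
    (∀ i < chevE7.rank, ∀ j < chevE7.rank,
      zR chevE7 ctblE7 (chevE7.simple j) (chevE7.simple i) = -1 → P i → P j) → ∀ i < chevE7.rank, P i := by
  intro P h0 hstep i hi
  obtain ⟨e1, e2, e3, e4, e5, e6⟩ := e7s_edges
  have hr : chevE7.rank = 7 := rfl
  have h2 : P 2 := hstep 0 (by omega) 2 (by omega) e1 h0
  have h3 : P 3 := hstep 2 (by omega) 3 (by omega) e2 h2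
  have h1 : P 1 := hstep 3 (by omega) 1 (by omega) e3 h3
  have h4 : P 4 := hstep 3 (by omega) 4 (by omega) e4 h3
  have h5 : P 5 := hstep 4 (by omega) 5 (by omega) e5 h4
  have h6 : P 6 := hstep 5 (by omega) 6 (by omega) e6 h5
  have hi' : i < 7 := hi
  interval_cases i <;> assumption

/-- The signs of the `n_i`-conjugation of type `E₇`. -/
abbrev etaS7 : ℕ → ℕ → ℤ := fun i s => etaBit (etaE7.getD i 0) s

theorem e7s_packB (F : Type u) [Field F] : PackB chevE7 F (zR chevE7 ctblE7) etaS7 :=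
  ⟨chk_E7.sem F, nconj_E7.semN chk_E7.tblOK F, comm_E7.semC chk_E7.tblOK F, tab_E7, tabC_E7, etaNeg_E7,
    tab2_E7⟩

theorem e7s_packS (F : Type u) [Field F] : PackS chevE7 F (zR chevE7 ctblE7) etaS7 rTE7 w0E7 :=
  ⟨e7s_packB F, trin_E7.semV chk_E7.tblOK F, tabT_E7, tabL_E7, tabW_E7⟩

end Cfsg.Agent.H46.SD
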