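import Cfsg.Agent.H46.SDGlue
import Cfsg.Agent.H46.SDPackE7
import Cfsg.Agent.H46.OSChain2
import Cfsg.Agent.H56.StbCoordE7
import Cfsg.Agent.H23.SylowU

/-!
# S2156 for type E₇: `StType chevE7` from the generic glue and table facts (helper46)
-/

set_option autoImplicit false

namespace Cfsg.Agent.H46.SD

open Cfsg Cfsg.Lie Cfsg.Agent.H23 Cfsg.Agent.H23.Stb Cfsg.Agent.H23.StbD

universe u

set_option synthInstance.maxSize 4096 in
set_option synthInstance.maxHeartbeats 400000 in
theorem e7_sd_T1 : ∀ i < chevE7.rank, ∀ j < chevE7.rank, i ≠ j →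
    chevE7.commTerms (chevE7.neg (chevE7.simple i)) (chevE7.simple j) = [] := by
  decide +kernel

set_option synthInstance.maxSize 4096 in
set_option synthInstance.maxHeartbeats 400000 in
theorem e7_sd_T2 : ∀ i < chevE7.rank, ∀ j < chevE7.rank, i ≠ j →
    zR chevE7 ctblE7 (chevE7.simple j) (chevE7.simple i) = 0 →
    chevE7.commTerms (chevE7.simple i) (chevE7.simple j) = [] := by
  decide +kernel

theorem e7_sd_T3 : ∀ i < chevE7.rank, ∀ j < chevE7.rank, i ≠ j →
    zR chevE7 ctblE7 (chevE7.simple j) (chevE7.simple i) ≠ 0 →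
    chevE7.reflectRoot i (chevE7.simple j) ≠ chevE7.simple j := by
  decide +kernel

theorem e7_sd_T4 : ∀ i < chevE7.rank, chevE7.reflectRoot i (chevE7.simple i) = chevE7.neg (chevE7.simple i) := by
  decide +kernel

theorem e7_sd_cz : ∀ i < chevE7.rank, ∀ j < chevE7.rank,
    chevE7.cartan i (chevE7.simple j) = zR chevE7 ctblE7 (chevE7.simple i) (chevE7.simple j) := by
  decide +kernel

theorem e7_sd_short : ∀ i < chevE7.rank, chevE7.isLong (chevE7.simple i) = false := by
  decide +kernel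

theorem e7_sd_A : ∀ i < chevE7.rank, ∀ j < chevE7.rank, i ≠ j →
    zR chevE7 ctblE7 (chevE7.simple j) (chevE7.simple i) ≠ 0 →
    zR chevE7 ctblE7 (chevE7.simple j) (chevE7.simple i) = -1 := by
  decide +kernel

theorem e7_sd_diag : ∀ i < chevE7.rank, zR chevE7 ctblE7 (chevE7.simple i) (chevE7.simple i) ≠ -1 := by
  decide +kernel

/-- **S2156 for `E₇`.** -/
theorem sdType_E7 : StType.{u} chevE7 := by
  refine sdType_of chevE7 (zR chevE7 ctblE7) etaS7 rTE7 w0E7 (fun F _ => e7s_packS F)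
    (fun F _ _ p _ _ => by
      haveI := Fintype.ofFinite F
      exact exists_sylow_posUnipotent p chevE7 (by simp))
    _ Cfsg.Agent.H56.StbG.e7_coord (fun i => i) (fun i hi => hi) (fun i _ => rfl) e7s_w0
    e7_sd_T1 e7_sd_T2 e7_sd_T3 e7_sd_T4 2 0 0 e7_sd_cz (Or.inl rfl) ?_ (by decide) (by decide)
    ?_ (Or.inr ⟨e7_sd_short, rfl⟩) ⟨0, by decide, 2, by decide, by decide, e7s_edges.1⟩ ?_
    Cfsg.Agent.H46.OS.chain_E7
  · intro i hi j hj hij hz
    rw [e7_sd_short i hi, e7_sd_A i hi j hj hij hz]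
    rfl
  · intro P h0 _ hstep
    apply e7s_conn2 P h0
    intro i hi j hj hz hPi
    have hij : i ≠ j := by
      rintro rfl
      exact e7_sd_diag i hi hz
    exact hstep i hi j hj hij (by rw [hz]; decide) (by rw [e7_sd_short i hi, e7_sd_short j hj]) hPi
  · intro π hlt _ _
    left
    intro i hi
    rw [e7_sd_short i hi, e7_sd_short (π i) (hlt i hi)]

end Cfsg.Agent.H46.SD
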