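import Cfsg.Agent.H46.SDGlue
import Cfsg.Agent.H46.OutGF4Defs
import Cfsg.Agent.H46.OSChain
import Cfsg.Agent.H56.StbCoordF4
import Cfsg.Agent.H23.SylowU

/-!
# S2156 for type F₄: `StType chevF4` from the generic glue and table facts (helper46)
-/

set_option autoImplicit false

namespace Cfsg.Agent.H46.SD

open Cfsg Cfsg.Lie Cfsg.Agent.H23 Cfsg.Agent.H23.Stb Cfsg.Agent.H23.StbD Cfsg.Agent.H46.OutG

universe u

theorem f4_sd_w0 : ∀ i < chevF4.rank, reflW chevF4 w0F4 (chevF4.neg (chevF4.simple i)) = chevF4.simple i := by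
  decide +kernel

set_option synthInstance.maxSize 4096 in
set_option synthInstance.maxHeartbeats 400000 in
theorem f4_sd_T1 : ∀ i < chevF4.rank, ∀ j < chevF4.rank, i ≠ j →
    chevF4.commTerms (chevF4.neg (chevF4.simple i)) (chevF4.simple j) = [] := by
  decide +kernel

set_option synthInstance.maxSize 4096 in
set_option synthInstance.maxHeartbeats 400000 in
theorem f4_sd_T2 : ∀ i < chevF4.rank, ∀ j < chevF4.rank, i ≠ j →
    zF4 (chevF4.simple j) (chevF4.simple i) = 0 →
    chevF4.commTerms (chevF4.simple i) (chevF4.simple j) = [] := by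
  decide +kernel

theorem f4_sd_T3 : ∀ i < chevF4.rank, ∀ j < chevF4.rank, i ≠ j →
    zF4 (chevF4.simple j) (chevF4.simple i) ≠ 0 →
    chevF4.reflectRoot i (chevF4.simple j) ≠ chevF4.simple j := by
  decide +kernel

theorem f4_sd_T4 : ∀ i < chevF4.rank, chevF4.reflectRoot i (chevF4.simple i) = chevF4.neg (chevF4.simple i) := by
  decide +kernel

theorem f4_sd_cz : ∀ i < chevF4.rank, ∀ j < chevF4.rank,
    chevF4.cartan i (chevF4.simple j) = zF4 (chevF4.simple i) (chevF4.simple j) := by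
  decide +kernel

theorem f4_sd_A : ∀ i < chevF4.rank, ∀ j < chevF4.rank, i ≠ j →
    zF4 (chevF4.simple j) (chevF4.simple i) ≠ 0 →
    zF4 (chevF4.simple j) (chevF4.simple i) =
      if chevF4.isLong (chevF4.simple i) && !chevF4.isLong (chevF4.simple j) then -((2 : ℕ) : ℤ) else -1 := by
  decide +kernel

theorem f4_sd_case : chevF4.isLong (chevF4.simple 2) = true ∧ chevF4.isLong (chevF4.simple 1) = false ∧
    zF4 (chevF4.simple 1) (chevF4.simple 2) ≠ 0 ∧ zF4 (chevF4.simple 2) (chevF4.simple 1) ≠ 0 := by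
  decide +kernel

theorem f4_sd_e10 : zF4 (chevF4.simple 0) (chevF4.simple 1) ≠ 0 ∧
    chevF4.isLong (chevF4.simple 1) = chevF4.isLong (chevF4.simple 0) := by
  decide +kernel

theorem f4_sd_e23 : zF4 (chevF4.simple 3) (chevF4.simple 2) ≠ 0 ∧
    chevF4.isLong (chevF4.simple 2) = chevF4.isLong (chevF4.simple 3) := by
  decide +kernel

set_option synthInstance.maxSize 8192 in
set_option synthInstance.maxHeartbeats 1000000 in
theorem f4_sd_pi : ∀ a b c d : Fin 4, (a ≠ b ∧ a ≠ c ∧ a ≠ d ∧ b ≠ c ∧ b ≠ d ∧ c ≠ d ∧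
    (∀ i j : Fin 4, i ≠ j →
      (zF4 (chevF4.simple ([a.val, b.val, c.val, d.val].getD j.val 0))
          (chevF4.simple ([a.val, b.val, c.val, d.val].getD i.val 0)) ≠ 0 ↔
        zF4 (chevF4.simple j.val) (chevF4.simple i.val) ≠ 0))) →
    ((∀ i : Fin 4, chevF4.isLong (chevF4.simple ([a.val, b.val, c.val, d.val].getD i.val 0)) =
        chevF4.isLong (chevF4.simple i.val)) ∨
      (∀ i : Fin 4, chevF4.isLong (chevF4.simple ([a.val, b.val, c.val, d.val].getD i.val 0)) =
        !chevF4.isLong (chevF4.simple i.val))) := by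
  decide +kernel

theorem f4_sd_ex : ∃ i < chevF4.rank, ∃ j < chevF4.rank, i ≠ j ∧ zF4 (chevF4.simple j) (chevF4.simple i) = -1 := by
  decide +kernel

/-- **S2156 for `F₄`.** -/
theorem sdType_F4 : StType.{u} chevF4 := by
  have hr : chevF4.rank = 4 := rfl
  refine sdType_of chevF4 zF4 ηF4 rTF4 w0F4 (fun F _ => packS_F4 F)
    (fun F _ _ p _ _ => by
      haveI := Fintype.ofFinite F
      exact exists_sylow_posUnipotent p chevF4 (by simp))
    _ Cfsg.Agent.H56.StbG.f4_coord (fun i => i) (fun i hi => hi) (fun i _ => rfl) f4_sd_w0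
    f4_sd_T1 f4_sd_T2 f4_sd_T3 f4_sd_T4 2 2 1 f4_sd_cz (Or.inl rfl) f4_sd_A (by decide) (by decide)
    ?_ (Or.inl f4_sd_case) f4_sd_ex ?_ Cfsg.Agent.H46.OS.chain_F4
  · intro P hS hL hstep i hi
    rw [hr] at hi
    interval_cases i
    · exact hstep 1 (by decide) 0 (by decide) (by decide) f4_sd_e10.1 f4_sd_e10.2 hS
    · exact hS
    · exact hL
    · exact hstep 2 (by decide) 3 (by decide) (by decide) f4_sd_e23.1 f4_sd_e23.2 hL
  · intro π hlt hinj hadj
    rw [hr] at hlt hinj hadj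
    have hg : ∀ i < 4, [π 0, π 1, π 2, π 3].getD i 0 = π i := by
      intro i hi
      interval_cases i <;> rfl
    have ne : ∀ i < 4, ∀ j < 4, i ≠ j → π i ≠ π j := fun i hi j hj hij e => hij (hinj i hi j hj e)
    have key := f4_sd_pi ⟨π 0, hlt 0 (by decide)⟩ ⟨π 1, hlt 1 (by decide)⟩ ⟨π 2, hlt 2 (by decide)⟩
      ⟨π 3, hlt 3 (by decide)⟩
      ⟨fun e => ne 0 (by decide) 1 (by decide) (by decide) (congrArg Fin.val e),
       fun e => ne 0 (by decide) 2 (by decide) (by decide) (congrArg Fin.val e),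
       fun e => ne 0 (by decide) 3 (by decide) (by decide) (congrArg Fin.val e),
       fun e => ne 1 (by decide) 2 (by decide) (by decide) (congrArg Fin.val e),
       fun e => ne 1 (by decide) 3 (by decide) (by decide) (congrArg Fin.val e),
       fun e => ne 2 (by decide) 3 (by decide) (by decide) (congrArg Fin.val e),
       fun i j hij => by
        show (zF4 (chevF4.simple ([π 0, π 1, π 2, π 3].getD j.val 0))
          (chevF4.simple ([π 0, π 1, π 2, π 3].getD i.val 0)) ≠ 0 ↔ _)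
        rw [hg i.val i.isLt, hg j.val j.isLt]
        exact hadj i.val i.isLt j.val j.isLt (fun e => hij (Fin.ext e))⟩
    rw [hr]
    rcases key with k | k
    · left
      intro i hi
      have := k ⟨i, hi⟩
      rw [show [(⟨π 0, hlt 0 (by decide)⟩ : Fin 4).val, (⟨π 1, hlt 1 (by decide)⟩ : Fin 4).val,
        (⟨π 2, hlt 2 (by decide)⟩ : Fin 4).val, (⟨π 3, hlt 3 (by decide)⟩ : Fin 4).val].getD i 0 = π i
        from hg i hi] at this
      exact this
    · right
      intro i hi
      have := k ⟨i, hi⟩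
      rw [show [(⟨π 0, hlt 0 (by decide)⟩ : Fin 4).val, (⟨π 1, hlt 1 (by decide)⟩ : Fin 4).val,
        (⟨π 2, hlt 2 (by decide)⟩ : Fin 4).val, (⟨π 3, hlt 3 (by decide)⟩ : Fin 4).val].getD i 0 = π i
        from hg i hi] at this
      exact this

end Cfsg.Agent.H46.SD
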