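import Cfsg.Agent.H46.SDGlue
import Cfsg.Agent.H46.OutGG2Defs
import Cfsg.Agent.H46.OSChain
import Cfsg.Agent.H56.StbCoordG2
import Cfsg.Agent.H23.SylowU

/-!
# S2156 for type G₂: `StType chevG2` from the generic glue and table facts (helper46)
-/

set_option autoImplicit false

namespace Cfsg.Agent.H46.SD

open Cfsg Cfsg.Lie Cfsg.Agent.H23 Cfsg.Agent.H23.Stb Cfsg.Agent.H23.StbD Cfsg.Agent.H46.OutG

universe u

theorem g2_sd_w0 : ∀ i < chevG2.rank, reflW chevG2 w0G2 (chevG2.neg (chevG2.simple i)) = chevG2.simple i := by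
  decide +kernel

set_option synthInstance.maxSize 4096 in
set_option synthInstance.maxHeartbeats 400000 in
theorem g2_sd_T1 : ∀ i < chevG2.rank, ∀ j < chevG2.rank, i ≠ j →
    chevG2.commTerms (chevG2.neg (chevG2.simple i)) (chevG2.simple j) = [] := by
  decide +kernel

set_option synthInstance.maxSize 4096 in
set_option synthInstance.maxHeartbeats 400000 in
theorem g2_sd_T2 : ∀ i < chevG2.rank, ∀ j < chevG2.rank, i ≠ j →
    zG2 (chevG2.simple j) (chevG2.simple i) = 0 →
    chevG2.commTerms (chevG2.simple i) (chevG2.simple j) = [] := by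
  decide +kernel

theorem g2_sd_T3 : ∀ i < chevG2.rank, ∀ j < chevG2.rank, i ≠ j →
    zG2 (chevG2.simple j) (chevG2.simple i) ≠ 0 →
    chevG2.reflectRoot i (chevG2.simple j) ≠ chevG2.simple j := by
  decide +kernel

theorem g2_sd_T4 : ∀ i < chevG2.rank, chevG2.reflectRoot i (chevG2.simple i) = chevG2.neg (chevG2.simple i) := by
  decide +kernel

theorem g2_sd_cz : ∀ i < chevG2.rank, ∀ j < chevG2.rank,
    chevG2.cartan i (chevG2.simple j) = zG2 (chevG2.simple i) (chevG2.simple j) := by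
  decide +kernel

theorem g2_sd_A : ∀ i < chevG2.rank, ∀ j < chevG2.rank, i ≠ j →
    zG2 (chevG2.simple j) (chevG2.simple i) ≠ 0 →
    zG2 (chevG2.simple j) (chevG2.simple i) =
      if chevG2.isLong (chevG2.simple i) && !chevG2.isLong (chevG2.simple j) then -((3 : ℕ) : ℤ) else -1 := by
  decide +kernel

theorem g2_sd_long : chevG2.isLong (chevG2.simple 0) = false ∧ chevG2.isLong (chevG2.simple 1) = true := by
  decide +kernel

theorem g2_sd_case : chevG2.isLong (chevG2.simple 1) = true ∧ chevG2.isLong (chevG2.simple 0) = false ∧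
    zG2 (chevG2.simple 0) (chevG2.simple 1) ≠ 0 ∧ zG2 (chevG2.simple 1) (chevG2.simple 0) ≠ 0 := by
  decide +kernel

theorem g2_sd_ex : ∃ i < chevG2.rank, ∃ j < chevG2.rank, i ≠ j ∧ zG2 (chevG2.simple j) (chevG2.simple i) = -1 := by
  decide +kernel

/-- **S2156 for `G₂`.** -/
theorem sdType_G2 : StType.{u} chevG2 := by
  have hr : chevG2.rank = 2 := rfl
  refine sdType_of chevG2 zG2 ηG2 rTG2 w0G2 (fun F _ => packS_G2 F)
    (fun F _ _ p _ _ => by
      haveI := Fintype.ofFinite F
      exact exists_sylow_posUnipotent p chevG2 (by simp))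
    _ Cfsg.Agent.H56.StbG.g2_coord (fun i => i) (fun i hi => hi) (fun i _ => rfl) g2_sd_w0
    g2_sd_T1 g2_sd_T2 g2_sd_T3 g2_sd_T4 3 1 0 g2_sd_cz (Or.inr rfl) g2_sd_A (by decide) (by decide)
    ?_ (Or.inl g2_sd_case) g2_sd_ex ?_ Cfsg.Agent.H46.OS.chain_G2
  · intro P h0 h1 _ i hi
    rw [hr] at hi
    interval_cases i
    · exact h0
    · exact h1
  · intro π hlt hinj _
    have h0 := hlt 0 (by decide)
    have h1 := hlt 1 (by decide)
    rw [hr] at h0 h1
    have hne : π 0 ≠ π 1 := fun e => absurd (hinj 0 (by decide) 1 (by decide) e) (by decide)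
    have hcase : (π 0 = 0 ∧ π 1 = 1) ∨ (π 0 = 1 ∧ π 1 = 0) := by omega
    obtain ⟨l0, l1⟩ := g2_sd_long
    rcases hcase with ⟨e0, e1⟩ | ⟨e0, e1⟩
    · left
      intro i hi
      rw [hr] at hi
      interval_cases i
      · rw [e0]
      · rw [e1]
    · right
      intro i hi
      rw [hr] at hi
      interval_cases i
      · rw [e0, l0, l1]; rfl
      · rw [e1, l0, l1]; rfl

end Cfsg.Agent.H46.SD
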