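import Cfsg.Agent.H46.CenAll
import Cfsg.Agent.H46.PerfAll
import Cfsg.Agent.H32.SchurCover

set_option autoImplicit false

/-!
# The Schur multipliers of the Chevalley groups of types E6 and E7 over a finite field

The group presented by (R1), (R2) is a perfect central extension of the Chevalley group all of whose central
extensions split, so its centre (the kernel) is the Schur multiplier.
-/

namespace Cfsg.Agent.H46

open Cfsg.Lie Cfsg.Agent.H23

universe u

theorem rank_ne_of_mem {D : ChevalleyDatum} (hD : D ∈ [chevE6, chevE7]) : ¬ D ∈ [chevB2, chevG2] := by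
  simp only [List.mem_cons, List.not_mem_nil, or_false] at hD ⊢
  rcases hD with rfl | rfl
  · rintro (h | h)
    · exact absurd (congrArg ChevalleyDatum.rank h) (by decide)
    · exact absurd (congrArg ChevalleyDatum.rank h) (by decide)
  · rintro (h | h)
    · exact absurd (congrArg ChevalleyDatum.rank h) (by decide)
    · exact absurd (congrArg ChevalleyDatum.rank h) (by decide)

/-- The Schur multiplier of the Chevalley group of type E6 or E7 over a finite field is cyclic of order the
order `d` of the centre of the presented group, when `d` is `1` or a prime. -/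
theorem schur_of_center {F : Type u} [Field F] [Fintype F] (D : ChevalleyDatum) (hD : D ∈ [chevE6, chevE7])
    (d : ℕ) (hd : d = 1 ∨ d.Prime) (hcard : Nat.card (Subgroup.center (D.SteinbergGroup F)) = d) :
    HasCyclicSchurMultiplier ↥(D.group F) d := by
  have hD7 : D ∈ [chevG2, chevB2, chevD4, chevF4, chevE6, chevE7, chevE8] := by
    simp only [List.mem_cons, List.not_mem_nil, or_false] at hD ⊢
    rcases hD with rfl | rfl <;> simp
  have hD3 : D ∈ [chevE6, chevE7, chevE8] := by
    simp only [List.mem_cons, List.not_mem_nil, or_false] at hD ⊢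
    rcases hD with rfl | rfl <;> simp
  obtain ⟨z, η, w, w0, hpk⟩ := packSt_all (K := F) D hD7
  have hC : CommMat D F := fun r s hr hs h1 h2 t u => Cfsg.Agent.S1025.result D hD7 r s hr hs h1 h2 t u
  obtain ⟨θ₀, hθs, hθc, -⟩ := cover_central hpk.tab hpk.hP hpk.hV hC
  obtain ⟨e, -⟩ := cover_equiv hpk.tab hpk.hP hpk.hV hC
  have hperf : commutator (D.SteinbergCover F) = ⊤ :=
    cover_perfect D hD7 (fun h => absurd h (rank_ne_of_mem hD))
  -- the kernel is the centre
  have hker : θ₀.ker = Subgroup.center (D.SteinbergCover F) := by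
    apply le_antisymm hθc
    intro x hx
    rw [MonoidHom.mem_ker]
    have hc : θ₀ x ∈ Subgroup.center ↥(D.group F) := by
      rw [Subgroup.mem_center_iff]
      intro g
      obtain ⟨y, rfl⟩ := hθs g
      rw [← map_mul, ← map_mul, Subgroup.mem_center_iff.mp hx y]
    rw [center_group_eq_bot hpk.hP hpk.hV w0 hpk.tabW, Subgroup.mem_bot] at hc
    exact hc
  have hcen : ∀ a : D.SteinbergCover F, a ∈ Subgroup.center (D.SteinbergCover F) ↔
      e a ∈ Subgroup.center (D.SteinbergGroup F) := by
    intro a
    constructor
    · intro ha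
      rw [Subgroup.mem_center_iff]
      intro g
      obtain ⟨y, rfl⟩ := e.surjective g
      rw [← map_mul, ← map_mul, Subgroup.mem_center_iff.mp ha y]
    · intro ha
      rw [Subgroup.mem_center_iff]
      intro g
      apply e.injective
      rw [map_mul, map_mul, Subgroup.mem_center_iff.mp ha (e g)]
  have hcardK : Nat.card θ₀.ker = d := by
    rw [hker, ← hcard]
    exact Nat.card_congr (e.toEquiv.subtypeEquiv hcen)
  obtain ⟨eK⟩ := Cfsg.Agent.H32.SchurCover.nonempty_mulEquiv_zmod d hd hcardK
  haveI : NeZero d := ⟨by
    rcases hd with h | h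
    · rw [h]; exact one_ne_zero
    · exact h.pos.ne'⟩
  haveI : Finite ↥(D.group F) := inferInstance
  haveI : Finite (Multiplicative (ZMod d)) := inferInstanceAs (Finite (ZMod d))
  exact Cfsg.Agent.H32.SchurCover.hasSchur_of_cover θ₀ hθs hθc hperf
    (fun E _ ψ hψs hψc => cover_split_E D hD3 ψ hψs hψc) eK

end Cfsg.Agent.H46
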