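import Cfsg.Agent.H46.SmallSplit

set_option autoImplicit false
set_option linter.unusedSectionVars false
set_option maxRecDepth 100000

/-!
# Type B2 in characteristic 2 with an element `v ≠ 0`, `v² ≠ 1`: lifts of the root elements

Steinberg's argument as in `UnivMain`/`UnivSplit`, with the commutativity of the lifted root subgroups obtained
from commutator expressions (long roots as in `PCert`, short roots by the certificate `PCert2`, which uses that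
the commutator of two orthogonal short root elements vanishes in characteristic 2), and the separation of the
positive roots by torus elements `h_e(v)`.
-/

namespace Cfsg.Agent.H46

open Cfsg.Lie Cfsg.Agent.H23 Cfsg.Agent.H46.Univ

universe u v

variable {D : ChevalleyDatum} {K : Type u} [Field K] {z η : ℕ → ℕ → ℤ}

/-- A torus element centralizing `X_e` and acting on `X_{e'}` by a scalar `c ≠ 1`, when the roots are orthogonal
or at 45°/135°. -/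
theorem sep_small (hP : PackB D K z η) (e e' : ℕ) (he : e < D.nroots) (he' : e' < D.nroots)
    (h2 : z e e = 2) (h2' : z e' e' = 2) (hz : z e' e = 0 ∨ z e' e * z e e' = 2)
    (v2 : K) (hv2 : v2 ≠ 0) (hv2' : v2 ^ 2 - 1 ≠ 0) :
    ∃ h ∈ TD D K, ∃ c : K, c - 1 ≠ 0 ∧ (∀ t : K, h * xU hP.sem e t * h⁻¹ = xU hP.sem e t) ∧
      (∀ u : K, h * xU hP.sem e' u * h⁻¹ = xU hP.sem e' (c * u)) := by
  have hS := hP.sem
  rcases hz with hz | hm
  · refine ⟨hU hS e' v2, hU_mem_diag hS e' he' v2 hv2, v2 ^ 2, hv2', ?_, ?_⟩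
    · intro t
      rw [hU_conj hS e' he' v2 hv2 e he, hz, zpow_zero, one_mul]
    · intro u
      rw [hU_conj hS e' he' v2 hv2 e' he', h2', show (2 : ℤ) = ((2 : ℕ) : ℤ) by norm_num, zpow_natCast]
  · apply sep_of_z_aux hP e e' he he' h2 h2' v2 hv2
    rw [hm]
    intro h
    apply hv2'
    have h1 : v2 ^ ((2 : ℤ) - 4) = (v2 ^ 2)⁻¹ := by
      rw [show ((2 : ℤ) - 4) = -((2 : ℕ) : ℤ) by norm_num, zpow_neg, zpow_natCast]
    rw [h1, sub_eq_zero, inv_eq_one] at h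
    rw [h, sub_self]

/-- Certificate for the commutativity of the lifted root subgroup of a long root `q = β + 2γ`. -/
def PCertL (D : ChevalleyDatum) (z : ℕ → ℕ → ℤ) (q : ℕ) : Prop :=
  ∃ (β γ δ : ℕ) (C₁ C₂ : ℤ), β < D.nroots ∧ γ < D.nroots ∧ δ < D.nroots ∧ γ ≠ β ∧ γ ≠ D.neg β ∧
    (C₂ = 1 ∨ C₂ = -1) ∧ D.commTerms β γ = [(δ, C₁, 1, 1), (q, C₂, 1, 2)] ∧
    β ≠ q ∧ β ≠ D.neg q ∧ D.commTerms q β = [] ∧ γ ≠ q ∧ γ ≠ D.neg q ∧ D.commTerms q γ = [] ∧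
    δ ≠ q ∧ δ ≠ D.neg q ∧ D.commTerms q δ = [] ∧ z δ q * z q δ = 2

/-- Certificate for the commutativity of the lifted root subgroup of a short root `q = β + γ` in
characteristic 2. -/
def PCertS (D : ChevalleyDatum) (z : ℕ → ℕ → ℤ) (q : ℕ) : Prop :=
  ∃ (β γ δ : ℕ) (C₁ C₂ C₃ : ℤ), β < D.nroots ∧ γ < D.nroots ∧ δ < D.nroots ∧ γ ≠ β ∧ γ ≠ D.neg β ∧
    (C₁ = 1 ∨ C₁ = -1) ∧ D.commTerms β γ = [(q, C₁, 1, 1), (δ, C₂, 1, 2)] ∧
    β ≠ q ∧ β ≠ D.neg q ∧ D.commTerms q β = [] ∧ γ ≠ q ∧ γ ≠ D.neg q ∧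
    D.commTerms q γ = [(δ, C₃, 1, 1)] ∧ (C₃ = 2 ∨ C₃ = -2) ∧
    δ ≠ q ∧ δ ≠ D.neg q ∧ D.commTerms q δ = [] ∧ z δ q * z q δ = 2

section Lifts

variable {E : Type v} [Group E] (hP : PackB D K z η) (ρ : E →* GL D.Idx K) (hρc : ρ.ker ≤ Subgroup.center E)
  (hTl : ∀ g ∈ TD D K, ∃ e : E, ρ e = g)
  (Y : ℕ → K → E) (hmap : ∀ q < D.nroots, ∀ t, ρ (Y q t) = xU hP.sem q t)
  (htor : ∀ q < D.nroots, ∀ (h : E) (χ : K), ρ h ∈ TD D K →
    (∀ t, ρ h * xU hP.sem q t * (ρ h)⁻¹ = xU hP.sem q (χ * t)) → ∀ t, h * Y q t * h⁻¹ = Y q (χ * t))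

include hρc hTl hmap htor in
/-- The lifted root subgroup of a long root is commutative. -/
theorem lifts_comm_long (hG : ∀ r < D.nroots, ∀ s < D.nroots, s ≠ r → s ≠ D.neg r → GoodPair hP.sem r s)
    (hself : ∀ e < D.nroots, z e e = 2) (v2 : K) (hv2 : v2 ≠ 0) (hv2' : v2 ^ 2 - 1 ≠ 0)
    (q : ℕ) (hq : q < D.nroots) (hcert : PCertL D z q) : ∀ t u : K, Y q t * Y q u = Y q u * Y q t := by
  have hS := hP.sem
  obtain ⟨β, γ, δ, C₁, C₂, hβ, hγ, hδ, hγβ, hγβ', hC₂, hterms, hβq, hβq', hqβ, hγq, hγq', hqγ, hδq, hδq',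
    hqδ, hzδ⟩ := hcert
  have comm_of_nil : ∀ s' : ℕ, s' < D.nroots → s' ≠ q → s' ≠ D.neg q → D.commTerms q s' = [] →
      ∀ s u : K, xU hS q s * xU hS s' u = xU hS s' u * xU hS q s := by
    intro s' hs' h1 h2 h3 s u
    have := hG q hq s' hs' h1 h2 s u
    unfold ChevalleyDatum.commWord at this
    rw [h3, List.map_nil, wordU_nil, mul_one, mul_assoc, inv_mul_eq_iff_eq_mul] at this
    exact this.symm
  have hsepδ := sep_small hP q δ hq hδ (hself q hq) (hself δ hδ) (Or.inr hzδ) v2 hv2 hv2'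
  have hcδ := lifts_comm_pair hP ρ hρc hTl Y hmap htor q δ hq hδ (comm_of_nil δ hδ hδq hδq' hqδ) hsepδ
  apply UnivAbs.comm_of_comm ρ hρc (Y q)
  intro a
  have hC₂' : ((C₂ : ℤ) : K) * ((C₂ : ℤ) : K) = 1 := by
    rcases hC₂ with h | h <;> rw [h] <;> simp
  refine ⟨(Y γ 1)⁻¹, (Y β (-(a * (C₂ : K))))⁻¹, Y δ ((C₁ : K) * (-(-(a * (C₂ : K)))) ^ 1 * 1 ^ 1), ?_, ?_, ?_, ?_⟩
  · intro s
    rw [map_inv, hmap γ hγ, hmap q hq]
    have := comm_of_nil γ hγ hγq hγq' hqγ s 1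
    rw [inv_mul_eq_iff_eq_mul, ← mul_assoc, ← this, mul_assoc, mul_inv_cancel, mul_one]
  · intro s
    rw [map_inv, hmap β hβ, hmap q hq]
    have := comm_of_nil β hβ hβq hβq' hqβ s (-(a * (C₂ : K)))
    rw [inv_mul_eq_iff_eq_mul, ← mul_assoc, ← this, mul_assoc, mul_inv_cancel, mul_one]
  · intro s
    exact (hcδ s _).symm
  · have hg := hG β hβ γ hγ hγβ hγβ' (-(a * (C₂ : K))) 1
    unfold ChevalleyDatum.commWord at hg
    rw [hterms] at hg
    simp only [List.map_cons, List.map_nil, wordU_cons, wordU_nil, mul_one] at hg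
    simp only [map_mul, map_inv, inv_inv, hmap γ hγ, hmap β hβ, hmap δ hδ, hmap q hq]
    have e1 : ((C₂ : ℤ) : K) * (-(-(a * (C₂ : K)))) ^ 1 * 1 ^ 2 = a := by
      rw [neg_neg, pow_one, one_pow, mul_one, mul_comm a, ← mul_assoc, hC₂', one_mul]
    rw [e1] at hg
    have e2 : (xU hS γ 1)⁻¹ * (xU hS β (-(a * (C₂ : K))))⁻¹ * xU hS γ 1 * xU hS β (-(a * (C₂ : K))) =
        (xU hS γ 1)⁻¹ * ((xU hS β (-(a * (C₂ : K))))⁻¹ * xU hS γ 1 * xU hS β (-(a * (C₂ : K)))) := by group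
    rw [e2, hg, inv_mul_cancel_left]

include hρc hTl hmap htor in
/-- The lifted root subgroup of a short root is commutative, in characteristic 2. -/
theorem lifts_comm_short (hG : ∀ r < D.nroots, ∀ s < D.nroots, s ≠ r → s ≠ D.neg r → GoodPair hP.sem r s)
    (hself : ∀ e < D.nroots, z e e = 2) (hchar : (2 : K) = 0) (v2 : K) (hv2 : v2 ≠ 0) (hv2' : v2 ^ 2 - 1 ≠ 0)
    (q : ℕ) (hq : q < D.nroots) (hcert : PCertS D z q) : ∀ t u : K, Y q t * Y q u = Y q u * Y q t := by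
  have hS := hP.sem
  obtain ⟨β, γ, δ, C₁, C₂, C₃, hβ, hγ, hδ, hγβ, hγβ', hC₁, hterms, hβq, hβq', hqβ, hγq, hγq', hqγ, hC₃, hδq, hδq',
    hqδ, hzδ⟩ := hcert
  have comm_of_nil : ∀ s' : ℕ, s' < D.nroots → s' ≠ q → s' ≠ D.neg q → D.commTerms q s' = [] →
      ∀ s u : K, xU hS q s * xU hS s' u = xU hS s' u * xU hS q s := by
    intro s' hs' h1 h2 h3 s u
    have := hG q hq s' hs' h1 h2 s u
    unfold ChevalleyDatum.commWord at this
    rw [h3, List.map_nil, wordU_nil, mul_one, mul_assoc, inv_mul_eq_iff_eq_mul] at this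
    exact this.symm
  have hC₃' : ((C₃ : ℤ) : K) = 0 := by
    rcases hC₃ with h | h <;> rw [h] <;> push_cast <;> simp [hchar]
  have hx0 : ∀ r : ℕ, xU hS r (0 : K) = 1 := by
    intro r
    have h1 := xU_mul hS r (0 : K) 0
    rw [add_zero] at h1
    exact mul_eq_left.mp h1
  have hcγ : ∀ s u : K, xU hS q s * xU hS γ u = xU hS γ u * xU hS q s := by
    intro s u
    have := hG q hq γ hγ hγq hγq' s u
    unfold ChevalleyDatum.commWord at this
    rw [hqγ] at this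
    simp only [List.map_cons, List.map_nil, wordU_cons, wordU_nil, mul_one] at this
    rw [hC₃', zero_mul, zero_mul, hx0, mul_one, mul_assoc, inv_mul_eq_iff_eq_mul] at this
    exact this.symm
  have hsepδ := sep_small hP q δ hq hδ (hself q hq) (hself δ hδ) (Or.inr hzδ) v2 hv2 hv2'
  have hcδ := lifts_comm_pair hP ρ hρc hTl Y hmap htor q δ hq hδ (comm_of_nil δ hδ hδq hδq' hqδ) hsepδ
  apply UnivAbs.comm_of_comm ρ hρc (Y q)
  intro a
  have hC₁' : ((C₁ : ℤ) : K) * ((C₁ : ℤ) : K) = 1 := by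
    rcases hC₁ with h | h <;> rw [h] <;> simp
  refine ⟨(Y γ 1)⁻¹, (Y β (-(a * (C₁ : K))))⁻¹, Y δ ((C₂ : K) * (-(-(a * (C₁ : K)))) ^ 1 * 1 ^ 2), ?_, ?_, ?_, ?_⟩
  · intro s
    rw [map_inv, hmap γ hγ, hmap q hq]
    have := hcγ s 1
    rw [inv_mul_eq_iff_eq_mul, ← mul_assoc, ← this, mul_assoc, mul_inv_cancel, mul_one]
  · intro s
    rw [map_inv, hmap β hβ, hmap q hq]
    have := comm_of_nil β hβ hβq hβq' hqβ s (-(a * (C₁ : K)))
    rw [inv_mul_eq_iff_eq_mul, ← mul_assoc, ← this, mul_assoc, mul_inv_cancel, mul_one]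
  · intro s
    exact (hcδ s _).symm
  · have hg := hG β hβ γ hγ hγβ hγβ' (-(a * (C₁ : K))) 1
    unfold ChevalleyDatum.commWord at hg
    rw [hterms] at hg
    simp only [List.map_cons, List.map_nil, wordU_cons, wordU_nil, mul_one] at hg
    simp only [map_mul, map_inv, inv_inv, hmap γ hγ, hmap β hβ, hmap δ hδ, hmap q hq]
    have e1 : ((C₁ : ℤ) : K) * (-(-(a * (C₁ : K)))) ^ 1 * 1 ^ 1 = a := by
      rw [neg_neg, pow_one, one_pow, mul_one, mul_comm a, ← mul_assoc, hC₁', one_mul]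
    rw [e1] at hg
    have e2 : (xU hS γ 1)⁻¹ * (xU hS β (-(a * (C₁ : K))))⁻¹ * xU hS γ 1 * xU hS β (-(a * (C₁ : K))) =
        (xU hS γ 1)⁻¹ * ((xU hS β (-(a * (C₁ : K))))⁻¹ * xU hS γ 1 * xU hS β (-(a * (C₁ : K)))) := by group
    rw [e2, hg, inv_mul_cancel_left]
    exact (comm_of_nil δ hδ hδq hδq' hqδ a _)

end Lifts

/-! ### Type B2 -/

theorem b2_certL : ∀ q ∈ [0, 3, 4, 7], PCertL chevB2 (zR chevB2 ctblB2) q := by
  intro q hq
  simp only [List.mem_cons, List.not_mem_nil, or_false] at hq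
  rcases hq with rfl | rfl | rfl | rfl
  · exact ⟨3, 2, 1, -1, -1, by decide +kernel⟩
  · exact ⟨0, 5, 1, 1, -1, by decide +kernel⟩
  · exact ⟨0, 6, 2, -1, 1, by decide +kernel⟩
  · exact ⟨3, 6, 5, 1, 1, by decide +kernel⟩

theorem b2_certS : ∀ q ∈ [1, 2, 5, 6], PCertS chevB2 (zR chevB2 ctblB2) q := by
  intro q hq
  simp only [List.mem_cons, List.not_mem_nil, or_false] at hq
  rcases hq with rfl | rfl | rfl | rfl
  · exact ⟨3, 2, 0, -1, -1, 2, by decide +kernel⟩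
  · exact ⟨0, 6, 4, -1, 1, -2, by decide +kernel⟩
  · exact ⟨3, 6, 7, 1, 1, 2, by decide +kernel⟩
  · exact ⟨4, 5, 7, 1, -1, -2, by decide +kernel⟩

theorem b2_zpair : ∀ e : Fin 8, ∀ e' : Fin 8, e' ≠ e → e'.val ≠ 7 - e.val →
    (zR chevB2 ctblB2 e' e = 0 ∨ zR chevB2 ctblB2 e' e * zR chevB2 ctblB2 e e' = 2) := by
  decide +kernel

theorem b2_pos_ne : ∀ e : Fin 8, ∀ e' : Fin 8, chevB2.IsPosRoot e → chevB2.IsPosRoot e' → e'.val ≠ 7 - e.val := by
  decide +kernel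

/-- Lifts of the root elements of type B2 satisfying (R1), (R2), in characteristic 2 with an element `v ≠ 0`,
`v² ≠ 1`. -/
theorem b2_lifts_char2 (hchar : (2 : K) = 0) (v2 : K) (hv2 : v2 ≠ 0) (hv2' : v2 ^ 2 - 1 ≠ 0)
    {E : Type v} [Group E] (ρ : E →* GL chevB2.Idx K) (hρc : ρ.ker ≤ Subgroup.center E)
    (hxl : ∀ q t, ∃ e : E, ρ e = xU (packSt_B2 K).hP.sem q t)
    (hTl : ∀ g ∈ TD chevB2 K, ∃ e : E, ρ e = g) :
    ∃ Y : ℕ → K → E, (∀ q < chevB2.nroots, ∀ t, ρ (Y q t) = xU (packSt_B2 K).hP.sem q t) ∧ StRel chevB2 Y := by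
  have hpk := packSt_B2 K
  have hP := hpk.hP
  have hS := hP.sem
  have hC : CommMat chevB2 K := fun r s hr hs h1 h2 t u => Cfsg.Agent.S1025.result chevB2 b2_mem7 r s hr hs h1 h2 t u
  have hG : ∀ r < chevB2.nroots, ∀ s < chevB2.nroots, s ≠ r → s ≠ chevB2.neg r → GoodPair hS r s :=
    fun r hr s hs h1 h2 => goodPair_of_mat hS (hC r s hr hs h1 h2)
  obtain ⟨Y, hmap, htor, hdef, hY1⟩ := exists_lifts hP ρ hρc hTl hxl zTab_B2.self v2 hv2 hv2'
  have hcomm : ∀ q < chevB2.nroots, ∀ t u : K, Y q t * Y q u = Y q u * Y q t := by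
    intro q hq
    have hq8 : q < 8 := by rw [← b2_nroots]; exact hq
    have hq' : q ∈ [0, 3, 4, 7] ∨ q ∈ [1, 2, 5, 6] := by
      interval_cases q <;> simp
    rcases hq' with h | h
    · exact lifts_comm_long hP ρ hρc hTl Y hmap htor hG zTab_B2.self v2 hv2 hv2' q hq (b2_certL q h)
    · exact lifts_comm_short hP ρ hρc hTl Y hmap htor hG zTab_B2.self hchar v2 hv2 hv2' q hq (b2_certS q h)
  have hadd := fun q (hq : q < chevB2.nroots) =>
    lifts_add hP ρ hρc hTl Y hmap htor v2 hv2 hv2' hdef q hq (hcomm q hq)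
  have hsep : ∀ e < chevB2.nroots, ∀ e' < chevB2.nroots, chevB2.IsPosRoot e → chevB2.IsPosRoot e' → e' ≠ e →
      ∃ h ∈ TD chevB2 K, ∃ c : K, c - 1 ≠ 0 ∧ (∀ t : K, h * xU hS e t * h⁻¹ = xU hS e t) ∧
        (∀ u : K, h * xU hS e' u * h⁻¹ = xU hS e' (c * u)) := by
    intro e he e' he' hp hp' hne
    have he8 : e < 8 := by rw [← b2_nroots]; exact he
    have he'8 : e' < 8 := by rw [← b2_nroots]; exact he'
    exact sep_small hP e e' he he' (zTab_B2.self e he) (zTab_B2.self e' he')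
      (b2_zpair ⟨e, he8⟩ ⟨e', he'8⟩ (fun h => hne (congrArg Fin.val h)) (b2_pos_ne ⟨e, he8⟩ ⟨e', he'8⟩ hp hp'))
      v2 hv2 hv2'
  exact ⟨Y, hmap, lifts_rel hpk ρ hρc hTl Y hmap htor hadd hG posP_B2 hsep⟩

end Cfsg.Agent.H46
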