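import Cfsg.Agent.H46.SmallSplit
import Cfsg.Agent.H46.CenMain
import Cfsg.Agent.H46.SchurTriv

set_option autoImplicit false
set_option linter.unusedSectionVars false

/-!
# The presented group (R1)–(R3) over a finite field: finiteness, and the Schur multiplier from splitting
-/

namespace Cfsg.Agent.H46

open Cfsg.Lie Cfsg.Agent.H23

universe u

variable {D : ChevalleyDatum} {K : Type u} [Field K] {z η : ℕ → ℕ → ℤ}

/-- The group presented by (R1)–(R3) over a finite field is finite. -/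
theorem finite_steinbergGroup [Fintype K] {w w0 : List ℕ} (hpk : PackSt D K z η w w0) (hC : CommMat D K) :
    Finite (D.SteinbergGroup K) := by
  classical
  obtain ⟨θ, h1, h2⟩ := exists_hom hpk.hP.sem (D.steinbergRels K) (lift_rels hpk.hP.sem hC)
  have hA : ∀ (r : ℕ) (t₁ t₂ : K), r < D.nroots →
      D.stX r t₁ * D.stX r t₂ * (D.stX r (t₁ + t₂))⁻¹ ∈ D.steinbergRels K :=
    fun r t₁ t₂ hr => Or.inl (Or.inl ⟨r, t₁, t₂, hr, rfl⟩)
  have hB' : ∀ (r s : ℕ) (t u : K), r < D.nroots → s < D.nroots → s ≠ r → s ≠ D.neg r →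
      (D.stX s u)⁻¹ * (D.stX r t)⁻¹ * D.stX s u * D.stX r t * (D.stWord (D.commWord K r s t u))⁻¹ ∈
        D.steinbergRels K :=
    fun r s t u hr hs h1 h2 => Or.inl (Or.inr ⟨r, s, t, u, hr, hs, h1, h2, rfl⟩)
  obtain ⟨C, hCdef⟩ : ∃ C : StCtx D K (D.SteinbergGroup K) z η,
      C = ctxP (D.steinbergRels K) hA hB' hpk.tab hpk.hP hpk.hV θ h2 := ⟨_, rfl⟩
  have hCπ : ∀ k, C.π k = (D.group K).subtype (θ k) := fun k => by rw [hCdef]; rfl
  have h3 : R3 C := by
    intro i hi t₁ t₂ ht₁ ht₂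
    have hrel : D.stH (D.simple i) t₁ * D.stH (D.simple i) t₂ * (D.stH (D.simple i) (t₁ * t₂))⁻¹ ∈
        D.steinbergRels K := Or.inr ⟨D.simple i, t₁, t₂, hpk.hP.tab.simple_lt i hi, ht₁, ht₂, rfl⟩
    have h4 := PresentedGroup.one_of_mem hrel
    rw [map_mul, map_mul, map_inv, mul_inv_eq_one, mk_stH, mk_stH, mk_stH] at h4
    rw [hCdef]
    exact h4
  have hgen : Subgroup.closure {g | ∃ (r : ℕ) (t : K), r < D.nroots ∧ g = C.xb r t} = ⊤ := by
    rw [hCdef]; exact closure_xbP _
  have hsub : (θ.ker : Set (D.SteinbergGroup K)) ⊆ Set.range (fun f : Fin D.rank → K =>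
      prodB C D.rank (fun i => if h : i < D.rank then f ⟨i, h⟩ else 1)) := by
    intro k hk
    have hk1 : C.π k = 1 := by rw [hCπ, MonoidHom.mem_ker.mp hk, map_one]
    obtain ⟨f, -, rfl⟩ := exists_prodB h3 k (ker_mem C hgen k hk1).1
    refine ⟨fun i => f i.val, prodB_congr C _ _ D.rank (fun i hi => ?_)⟩
    simp only [dif_pos hi]
  haveI : Finite θ.ker := ((Set.finite_range _).subset hsub).to_subtype
  haveI : Finite ↥(D.group K) := inferInstance
  haveI := Fintype.ofFinite θ.ker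
  haveI := Fintype.ofFinite ↥(D.group K)
  exact (Group.fintypeOfKerOfCodom θ).finite

/-- If every central extension of the group presented by (R1), (R2) splits, the group presented by (R1)–(R3)
over a finite field has trivial Schur multiplier. -/
theorem steinberg_schur_of_split [Fintype K] {w w0 : List ℕ} (hpk : PackSt D K z η w w0) (hC : CommMat D K)
    (hsplit : ∀ (E : Type u) [Group E] (ψ : E →* D.SteinbergCover K), Function.Surjective ψ →
      ψ.ker ≤ Subgroup.center E → ∃ θ : D.SteinbergCover K →* E, ψ.comp θ = MonoidHom.id (D.SteinbergCover K)) :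
    HasCyclicSchurMultiplier (D.SteinbergGroup K) 1 := by
  haveI := finite_steinbergGroup hpk hC
  obtain ⟨e, -⟩ := cover_equiv hpk.tab hpk.hP hpk.hV hC
  apply hasSchur_one_of_split
  intro Γ _ σ hσs hσc
  have hψc : (e.symm.toMonoidHom.comp σ).ker ≤ Subgroup.center Γ := by
    intro g hg
    apply hσc
    rw [MonoidHom.mem_ker] at hg ⊢
    exact e.symm.injective (hg.trans (map_one _).symm)
  obtain ⟨θ, hθ⟩ := hsplit Γ (e.symm.toMonoidHom.comp σ) (e.symm.surjective.comp hσs) hψc
  refine ⟨θ.comp e.symm.toMonoidHom, ?_⟩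
  refine MonoidHom.ext fun g => ?_
  have h1 := DFunLike.congr_fun hθ (e.symm g)
  exact e.symm.injective h1

end Cfsg.Agent.H46
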