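import Cfsg.Agent.H46.SmallD4
import Cfsg.Agent.H46.SmallB2F4
import Cfsg.Agent.H46.StSchur
import Cfsg.Agent.H46.CommAll

set_option autoImplicit false

/-!
# The Schur multiplier of the presented groups of types E6, E7 (all finite fields), B2, D4 (more than two elements)
-/

namespace Cfsg.Agent.H46

open Cfsg.Lie Cfsg.Agent.H23

universe u v

variable {K : Type u} [Field K]

/-- Every central extension of the group presented by (R1), (R2) of type B2 over a finite field with more than
two elements splits, given the lifting statement over the field with three elements. -/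
theorem cover_split_B2 (h3 : B2.Stmt3.{u, u, v}) [Fintype K]
    (hK : Fintype.card K ≠ 2)
    {E : Type v} [Group E] (ψ : E →* chevB2.SteinbergCover K) (hψs : Function.Surjective ψ)
    (hψ : ψ.ker ≤ Subgroup.center E) :
    ∃ θ : chevB2.SteinbergCover K →* E, ψ.comp θ = MonoidHom.id (chevB2.SteinbergCover K) := by
  have hC : CommMat chevB2 K := fun r s hr hs h1 h2 t u => Cfsg.Agent.S1025.result chevB2 b2_mem7 r s hr hs h1 h2 t u
  by_cases h5 : 5 ≤ Fintype.card K
  · exact (cover_split_all ⟨Finset.univ, by rw [Finset.card_univ]; omega⟩ chevB2 b2_mem7 ψ hψs hψ).2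
  · have hperf : commutator (chevB2.SteinbergCover K) = ⊤ :=
      cover_perfect chevB2 b2_mem7 (fun _ => Cfsg.Agent.H73.D4.exists_ne_zero_one hK)
    have h1 : 1 < Fintype.card K := Fintype.one_lt_card
    have h34 : Fintype.card K = 3 ∨ Fintype.card K = 4 := by omega
    rcases h34 with hc | hc
    · obtain ⟨hK3, h2⟩ := Cfsg.Agent.H73.D4.field_three hc
      exact cover_split_of_lifts (packSt_B2 K) hC hperf posP_B2 ψ hψs hψ
        (fun ρ hρc hxl hTl => b2_lifts3 h3 hK3 h2 ρ hρc hxl hTl)
    · obtain ⟨ω, -, h2, -⟩ := Cfsg.Agent.H73.D4.field_four hc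
      obtain ⟨v, hv, hv'⟩ := Cfsg.Agent.H73.D4.exists_sq_ne_one' hK h2
      exact cover_split_of_lifts (packSt_B2 K) hC hperf posP_B2 ψ hψs hψ
        (fun ρ hρc hxl hTl => b2_lifts_char2 h2 v hv hv' ρ hρc hxl hTl)

/-- The Schur multiplier of the group presented by (R1)–(R3) of type E6, E7 over a finite field, or of type B2,
D4 over a finite field with more than two elements, is trivial (given the lifting statement of type B2 over the
field with three elements). -/
theorem steinberg_schur_trivial (h3 : B2.Stmt3.{u, u, u}) [Fintype K]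
    (e : ChevalleyDatum × ℕ) (he : e ∈ [(chevE6, 0), (chevE7, 0), (chevB2, 2), (chevD4, 2)])
    (hK : Fintype.card K ≠ e.2) : HasCyclicSchurMultiplier (e.1.SteinbergGroup K) 1 := by
  simp only [List.mem_cons, List.not_mem_nil, or_false] at he
  rcases he with rfl | rfl | rfl | rfl
  · exact steinberg_schur_of_split (packSt_E6 K)
      (fun r s hr hs h1 h2 t u => Cfsg.Agent.S1025.result chevE6 (by simp) r s hr hs h1 h2 t u)
      (fun E _ ψ hs hc => cover_split_E chevE6 (by simp) ψ hs hc)
  · exact steinberg_schur_of_split (packSt_E7 K)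
      (fun r s hr hs h1 h2 t u => Cfsg.Agent.S1025.result chevE7 (by simp) r s hr hs h1 h2 t u)
      (fun E _ ψ hs hc => cover_split_E chevE7 (by simp) ψ hs hc)
  · exact steinberg_schur_of_split (packSt_B2 K)
      (fun r s hr hs h1 h2 t u => Cfsg.Agent.S1025.result chevB2 b2_mem7 r s hr hs h1 h2 t u)
      (fun E _ ψ hs hc => cover_split_B2 h3 hK ψ hs hc)
  · exact steinberg_schur_of_split (packSt_D4 K)
      (fun r s hr hs h1 h2 t u => Cfsg.Agent.S1025.result chevD4 d4_mem7 r s hr hs h1 h2 t u)
      (fun E _ ψ hs hc => cover_split_D4 hK ψ hs hc)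

end Cfsg.Agent.H46
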