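import Cfsg.Agent.H46.UnivAll
import Cfsg.Agent.H46.B2Defs

set_option autoImplicit false
set_option linter.unusedSectionVars false

/-!
# Central extensions of the group presented by (R1), (R2) split, from lifts of the root elements

The splitting of a central extension of the presented group follows from the existence of lifts of the root
elements of the Chevalley group satisfying (R1), (R2); for type B2 over the fields with three and four elements
the lifts are provided by the statements of `B2Defs`.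
-/

namespace Cfsg.Agent.H46

open Cfsg.Lie Cfsg.Agent.H23 Cfsg.Agent.H46.Univ

universe u v

variable {D : ChevalleyDatum} {K : Type u} [Field K] {z η : ℕ → ℕ → ℤ}

theorem wordB_congr' {Γ : Type*} [Group Γ] (xb xb' : ℕ → K → Γ) (w : List (ℕ × K))
    (h : ∀ p ∈ w, xb p.1 p.2 = xb' p.1 p.2) : wordB xb w = wordB xb' w := by
  induction w with
  | nil => rfl
  | cons p w ih =>
    rw [wordB_cons, wordB_cons, h p (List.mem_cons_self ..), ih (fun q hq => h q (List.mem_cons_of_mem _ hq))]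

/-- A central extension of the presented group splits as soon as the root elements of the Chevalley group have
lifts satisfying (R1), (R2). -/
theorem cover_split_of_lifts {w w0 : List ℕ} (hpk : PackSt D K z η w w0) (hC : CommMat D K)
    (hperf : commutator (D.SteinbergCover K) = ⊤)
    (hPos : ∀ r < D.nroots, ∀ s < D.nroots, s ≠ r → s ≠ D.neg r → PosP D r s)
    {E : Type v} [Group E] (ψ : E →* D.SteinbergCover K) (hψs : Function.Surjective ψ)
    (hψ : ψ.ker ≤ Subgroup.center E)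
    (hlift : ∀ ρ : E →* GL D.Idx K, ρ.ker ≤ Subgroup.center E →
      (∀ q t, ∃ e : E, ρ e = xU hpk.hP.sem q t) → (∀ g ∈ TD D K, ∃ e : E, ρ e = g) →
      ∃ Y : ℕ → K → E, (∀ q < D.nroots, ∀ t, ρ (Y q t) = xU hpk.hP.sem q t) ∧ StRel D Y) :
    ∃ θ : D.SteinbergCover K →* E, ψ.comp θ = MonoidHom.id (D.SteinbergCover K) := by
  classical
  have hP := hpk.hP
  have hS := hP.sem
  obtain ⟨θ₀, hθs, hθc, hθ⟩ := cover_central hpk.tab hP hpk.hV hC
  have hA : ∀ (r : ℕ) (t₁ t₂ : K), r < D.nroots →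
      D.stX r t₁ * D.stX r t₂ * (D.stX r (t₁ + t₂))⁻¹ ∈ D.steinbergRelsAB K :=
    fun r t₁ t₂ hr => Or.inl ⟨r, t₁, t₂, hr, rfl⟩
  have hB : ∀ (r s : ℕ) (t u : K), r < D.nroots → s < D.nroots → s ≠ r → s ≠ D.neg r →
      (D.stX s u)⁻¹ * (D.stX r t)⁻¹ * D.stX s u * D.stX r t * (D.stWord (D.commWord K r s t u))⁻¹ ∈
        D.steinbergRelsAB K :=
    fun r s t u hr hs h1 h2 => Or.inr ⟨r, s, t, u, hr, hs, h1, h2, rfl⟩
  obtain ⟨C, hCxb, hCπ'⟩ : ∃ C : StCtx D K (D.SteinbergCover K) z η, C.xb = xbP D (D.steinbergRelsAB K) ∧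
      C.π = (D.group K).subtype.comp θ₀ :=
    ⟨ctxP (D.steinbergRelsAB K) hA hB hpk.tab hP hpk.hV θ₀ hθ, rfl, rfl⟩
  have hCπ : ∀ r t, C.π (C.xb r t) = xU hS r t := C.hπ
  have hρc : (C.π.comp ψ).ker ≤ Subgroup.center E := by
    intro e he
    apply UnivAbs.ker_comp_central θ₀ hθc ψ hψs hψ hperf
    rw [MonoidHom.mem_ker] at he ⊢
    rw [hCπ'] at he
    exact Subtype.ext he
  have hxl : ∀ q t, ∃ e : E, (C.π.comp ψ) e = xU hS q t := by
    intro q t
    obtain ⟨e, he⟩ := hψs (C.xb q t)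
    exact ⟨e, by rw [MonoidHom.comp_apply, he, hCπ]⟩
  have hTl : ∀ g ∈ TD D K, ∃ e : E, (C.π.comp ψ) e = g := by
    intro g hg
    obtain ⟨d, hd⟩ := hθs ⟨g, TD_le_group hP g hg⟩
    obtain ⟨e, he⟩ := hψs d
    refine ⟨e, ?_⟩
    rw [MonoidHom.comp_apply, he, hCπ', MonoidHom.comp_apply, hd]
    rfl
  obtain ⟨Y, hmap, hrel⟩ := hlift (C.π.comp ψ) hρc hxl hTl
  obtain ⟨Y', hY'def⟩ : ∃ Y' : ℕ → K → E, Y' = fun q t => if q < D.nroots then Y q t else 1 := ⟨_, rfl⟩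
  have hY'lt : ∀ q < D.nroots, ∀ t, Y' q t = Y q t := fun q hq t => by rw [hY'def]; simp only [if_pos hq]
  have hY1 : ∀ q, D.nroots ≤ q → ∀ t, Y' q t = 1 := fun q hq t => by
    rw [hY'def]; simp only [if_neg (not_lt.mpr hq)]
  have hrel' : StRel D Y' := by
    refine ⟨fun r hr t u => ?_, fun r hr s hs hne hne' t u => ?_⟩
    · rw [hY'lt r hr, hY'lt r hr, hY'lt r hr]; exact hrel.add r hr t u
    · rw [hY'lt r hr, hY'lt s hs, hrel.comm r hr s hs hne hne' t u]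
      obtain ⟨v, hv, hrp, hsp, hterms⟩ := hPos r hr s hs hne hne'
      apply wordB_congr'
      intro p hp
      unfold ChevalleyDatum.commWord at hp
      obtain ⟨c, hc, rfl⟩ := List.mem_map.mp hp
      exact (hY'lt c.1 (hterms c hc).1 _).symm
  refine ⟨PresentedGroup.toGroup (liftE_rels Y' hY1 hrel'), ?_⟩
  apply UnivAbs.lift_unique hperf θ₀ hθc
  apply PresentedGroup.ext
  intro p
  rw [MonoidHom.comp_apply, MonoidHom.comp_apply, MonoidHom.comp_apply, PresentedGroup.toGroup.of,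
    MonoidHom.id_apply]
  apply Subtype.ext
  have h1 := hmap p.1.val p.1.isLt p.2
  rw [MonoidHom.comp_apply, hCπ', MonoidHom.comp_apply] at h1
  have h2 := hCπ p.1.val p.2
  rw [hCπ', MonoidHom.comp_apply, hCxb] at h2
  have h3 : (PresentedGroup.of p : D.SteinbergCover K) = xbP D (D.steinbergRelsAB K) p.1.val p.2 := by
    unfold xbP ChevalleyDatum.stX
    rw [dif_pos p.1.isLt]
    rfl
  rw [hY'lt p.1.val p.1.isLt, h3]
  exact h1.trans h2.symm

/-! ### Type B2 -/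

section B2

theorem b2_terms_eq : ∀ r : Fin 8, ∀ s : Fin 8, B2.terms r s = chevB2.commTerms r s := by decide +kernel

theorem b2_neg : ∀ r : Fin 8, chevB2.neg r = 7 - r := by decide +kernel

theorem b2_nroots : chevB2.nroots = 8 := by decide +kernel

theorem b2_z5 : ∀ q : Fin 8, zR chevB2 ctblB2 5 q = B2.z5.getD q 0 := by decide +kernel

theorem b2_z4 : ∀ q : Fin 8, zR chevB2 ctblB2 4 q = B2.z4.getD q 0 := by decide +kernel

theorem b2_word_eq {Γ : Type*} [Group Γ] (x : ℕ → K → Γ) (r s : ℕ) (hr : r < 8) (hs : s < 8) (t u : K) :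
    B2.word x r s t u = wordB x (chevB2.commWord K r s t u) := by
  unfold B2.word wordB ChevalleyDatum.commWord
  rw [b2_terms_eq ⟨r, hr⟩ ⟨s, hs⟩, List.map_map]
  rfl

theorem b2_rel_of_stRel {Γ : Type*} [Group Γ] (x : ℕ → K → Γ) (h : StRel chevB2 x) : B2.Rel x := by
  refine ⟨fun r hr t u => h.add r (by rw [b2_nroots]; exact hr) t u, fun r hr s hs hne hne' t u => ?_⟩
  rw [b2_word_eq x r s hr hs]
  exact h.comm r (by rw [b2_nroots]; exact hr) s (by rw [b2_nroots]; exact hs) hne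
    (by rw [b2_neg ⟨r, hr⟩]; exact hne') t u

theorem stRel_of_b2_rel {Γ : Type*} [Group Γ] (x : ℕ → K → Γ) (h : B2.Rel x) : StRel chevB2 x := by
  refine ⟨fun r hr t u => h.add r (by rw [← b2_nroots]; exact hr) t u, fun r hr s hs hne hne' t u => ?_⟩
  have hr' : r < 8 := by rw [← b2_nroots]; exact hr
  have hs' : s < 8 := by rw [← b2_nroots]; exact hs
  rw [← b2_word_eq x r s hr' hs']
  exact h.comm r hr' s hs' hne (by rw [← b2_neg ⟨r, hr'⟩]; exact hne') t u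

theorem b2_mem7 : chevB2 ∈ [chevG2, chevB2, chevD4, chevF4, chevE6, chevE7, chevE8] := by simp

theorem b2_rel_xU : B2.Rel (xU (packSt_B2 K).hP.sem) := by
  apply b2_rel_of_stRel
  have hS := (packSt_B2 K).hP.sem
  refine ⟨fun r hr t u => xU_mul hS r t u, fun r hr s hs hne hne' t u => ?_⟩
  have hg : GoodPair hS r s :=
    goodPair_of_mat hS (Cfsg.Agent.S1025.result chevB2 b2_mem7 r s hr hs hne hne')
  have h1 := hg t u
  rw [mul_assoc, mul_assoc, inv_mul_eq_iff_eq_mul, ← mul_assoc]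
  exact h1

theorem hU_mul_hU {D : ChevalleyDatum} {z : ℕ → ℕ → ℤ} (hS : Sem D K z) (r : ℕ) (hr : r < D.nroots) (t₁ t₂ : K)
    (h₁ : t₁ ≠ 0) (h₂ : t₂ ≠ 0) : hU hS r t₁ * hU hS r t₂ = hU hS r (t₁ * t₂) := by
  apply Units.ext
  rw [Units.val_mul, hU_val, hU_val, hU_val, hMat_mul hS r hr t₁ t₂ h₁ h₂]

/-- Lifts of the root elements of type B2 over the field with three elements. -/
theorem b2_lifts3 (h3 : B2.Stmt3.{u, u, v}) (hK : ∀ t : K, t = 0 ∨ t = 1 ∨ t = -1) (h2 : (2 : K) ≠ 0)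
    {E : Type v} [Group E] (ρ : E →* GL chevB2.Idx K) (hρc : ρ.ker ≤ Subgroup.center E)
    (hxl : ∀ q t, ∃ e : E, ρ e = xU (packSt_B2 K).hP.sem q t)
    (hTl : ∀ g ∈ TD chevB2 K, ∃ e : E, ρ e = g) :
    ∃ Y : ℕ → K → E, (∀ q < chevB2.nroots, ∀ t, ρ (Y q t) = xU (packSt_B2 K).hP.sem q t) ∧ StRel chevB2 Y := by
  have hS := (packSt_B2 K).hP.sem
  have hn1 : (-1 : K) ≠ 0 := neg_ne_zero.mpr one_ne_zero
  have h4 : 4 < chevB2.nroots := by rw [b2_nroots]; norm_num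
  have hact : ∀ q < 8, ∀ t : K, hU hS 4 (-1) * xU hS q t * (hU hS 4 (-1))⁻¹ =
      xU hS q ((-1 : K) ^ (B2.z4.getD q 0) * t) := by
    intro q hq t
    rw [hU_conj hS 4 h4 (-1) hn1 q (by rw [b2_nroots]; exact hq), b2_z4 ⟨q, hq⟩]
  obtain ⟨Y, hY1, hY2⟩ := h3 K (GL chevB2.Idx K) E hK h2 ρ hρc (xU hS) b2_rel_xU (fun q _ t => hxl q t)
    (hU hS 4 (-1)) (hTl _ (hU_mem_diag hS 4 h4 (-1) hn1))
    (by rw [hU_mul_hU hS 4 h4 _ _ hn1 hn1, neg_mul_neg, one_mul, hU_eq, nU_mul_neg_one])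
    (by
      intro q hq t
      simp only [List.mem_cons, List.not_mem_nil, or_false] at hq
      rcases hq with rfl | rfl | rfl | rfl
      · rw [hact 1 (by norm_num) t]; congr 1; simp [B2.z4]
      · rw [hact 2 (by norm_num) t]; congr 1; simp [B2.z4]
      · rw [hact 5 (by norm_num) t]; congr 1; simp [B2.z4]
      · rw [hact 6 (by norm_num) t]; congr 1; simp [B2.z4])
    (by
      intro q hq t
      simp only [List.mem_cons, List.not_mem_nil, or_false] at hq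
      rcases hq with rfl | rfl | rfl | rfl
      · rw [hact 0 (by norm_num) t]; congr 1; simp [B2.z4]
      · rw [hact 3 (by norm_num) t]; congr 1; simp [B2.z4]
      · rw [hact 4 (by norm_num) t]; congr 1; simp [B2.z4]
      · rw [hact 7 (by norm_num) t]; congr 1; simp [B2.z4])
  exact ⟨Y, fun q hq t => hY1 q (by rw [← b2_nroots]; exact hq) t, stRel_of_b2_rel Y hY2⟩

/-- Lifts of the root elements of type B2 over the field with four elements. -/
theorem b2_lifts4 (h4 : B2.Stmt4.{u, u, v}) (ω : K) (hω : ω ^ 2 + ω + 1 = 0) (h2 : (2 : K) = 0)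
    (hK : ∀ t : K, t = 0 ∨ t = 1 ∨ t = ω ∨ t = ω + 1)
    {E : Type v} [Group E] (ρ : E →* GL chevB2.Idx K) (hρc : ρ.ker ≤ Subgroup.center E)
    (hxl : ∀ q t, ∃ e : E, ρ e = xU (packSt_B2 K).hP.sem q t)
    (hTl : ∀ g ∈ TD chevB2 K, ∃ e : E, ρ e = g) :
    ∃ Y : ℕ → K → E, (∀ q < chevB2.nroots, ∀ t, ρ (Y q t) = xU (packSt_B2 K).hP.sem q t) ∧ StRel chevB2 Y := by
  have hP := (packSt_B2 K).hP
  have hS := hP.sem
  have hω0 : ω ≠ 0 := by
    rintro rfl
    simp at hω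
  have h4lt : 4 < chevB2.nroots := by rw [b2_nroots]; norm_num
  have h5lt : 5 < chevB2.nroots := by rw [b2_nroots]; norm_num
  obtain ⟨Y, hY1, hY2⟩ := h4 K (GL chevB2.Idx K) E ω hω h2 hK ρ hρc (xU hS) b2_rel_xU (fun q _ t => hxl q t)
    (hU hS 5 ω) (hU hS 4 ω) (hTl _ (hU_mem_diag hS 5 h5lt ω hω0)) (hTl _ (hU_mem_diag hS 4 h4lt ω hω0))
    (TD_comm hP _ (hU_mem_diag hS 5 h5lt ω hω0) _ (hU_mem_diag hS 4 h4lt ω hω0))
    (fun q hq t => by
      rw [hU_conj hS 5 h5lt ω hω0 q (by rw [b2_nroots]; exact hq), b2_z5 ⟨q, hq⟩])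
    (fun q hq t => by
      rw [hU_conj hS 4 h4lt ω hω0 q (by rw [b2_nroots]; exact hq), b2_z4 ⟨q, hq⟩])
  exact ⟨Y, fun q hq t => hY1 q (by rw [← b2_nroots]; exact hq) t, stRel_of_b2_rel Y hY2⟩

end B2

end Cfsg.Agent.H46
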