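import Cfsg.Agent.H46.CommSplit2
import Cfsg.Agent.H46.CommRegD4
import Cfsg.Agent.H46.SmallSplit
import Cfsg.Agent.H46.PerfAll
import Cfsg.Agent.H73.D4Field

set_option autoImplicit false
set_option linter.unusedSectionVars false
set_option maxRecDepth 100000

/-!
# Central extensions of the group presented by (R1), (R2) of type D4 split, over every field with more than two
elements

The commutator regime with orthogonal pairs: in odd characteristic by the Hall–Witt argument, in characteristic 2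
with a torus element `h_a(v)`, `v² ≠ 1`, which centralizes the root elements of the roots orthogonal to `a`.
-/

namespace Cfsg.Agent.H46

open Cfsg.Lie Cfsg.Agent.H23 Cfsg.Agent.H46.Univ Cfsg.Agent.H56.CommLifts

universe u v

variable {D : ChevalleyDatum} {K : Type u} [Field K] {z η : ℕ → ℕ → ℤ}

/-- The lifts of the root elements of two roots `a`, `b` with `z a b = 0` whose root elements commute, commute in
every central extension of the presented group, when the field has an element `v ≠ 0` with `v² ≠ 1`. -/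
theorem orth_torus {w w0 : List ℕ} (hpk : PackSt D K z η w w0) (hC : CommMat D K)
    (hperf : commutator (D.SteinbergCover K) = ⊤) (v : K) (hv : v ≠ 0) (hv' : v ^ 2 - 1 ≠ 0)
    {E : Type v} [Group E] (ψ : E →* D.SteinbergCover K) (hψs : Function.Surjective ψ)
    (hψ : ψ.ker ≤ Subgroup.center E)
    (a b : ℕ) (ha : a < D.nroots) (hb : b < D.nroots) (hne : b ≠ a) (hne' : b ≠ D.neg a)
    (hz : z a b = 0) (hzz : z a a = 2) (hcomm : D.commTerms a b = [])
    (ea eb : E) (t u : K) (hea : ψ ea = xbP D (D.steinbergRelsAB K) a t)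
    (heb : ψ eb = xbP D (D.steinbergRelsAB K) b u) : ea * eb = eb * ea := by
  classical
  have hP := hpk.hP
  have hS := hP.sem
  obtain ⟨θ₀, hθs, hθc, hθ⟩ := cover_central hpk.tab hP hpk.hV hC
  have hA : ∀ (r : ℕ) (t₁ t₂ : K), r < D.nroots →
      D.stX r t₁ * D.stX r t₂ * (D.stX r (t₁ + t₂))⁻¹ ∈ D.steinbergRelsAB K :=
    fun r t₁ t₂ hr => Or.inl ⟨r, t₁, t₂, hr, rfl⟩
  have hB : ∀ (r s : ℕ) (t u : K), r < D.nroots → s < D.nroots → s ≠ r → s ≠ D.neg r →
      (D.stX s u)⁻¹ * (D.stX r t)⁻¹ * D.stX s u * D.stX r t * (D.stWord (D.commWord K r s t u))⁻¹ ∈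
        D.steinbergRelsAB K :=
    fun r s t u hr hs h1 h2 => Or.inr ⟨r, s, t, u, hr, hs, h1, h2, rfl⟩
  obtain ⟨C, hCxb, hCπ'⟩ : ∃ C : StCtx D K (D.SteinbergCover K) z η, C.xb = xbP D (D.steinbergRelsAB K) ∧
      C.π = (D.group K).subtype.comp θ₀ :=
    ⟨ctxP (D.steinbergRelsAB K) hA hB hpk.tab hP hpk.hV θ₀ hθ, rfl, rfl⟩
  have hCπ : ∀ r t, C.π (C.xb r t) = xU hS r t := C.hπ
  obtain ⟨ρ, hρdef⟩ : ∃ ρ : E →* GL D.Idx K, ρ = C.π.comp ψ := ⟨_, rfl⟩
  have hρc : ρ.ker ≤ Subgroup.center E := by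
    intro e he
    apply UnivAbs.ker_comp_central θ₀ hθc ψ hψs hψ hperf
    rw [MonoidHom.mem_ker] at he ⊢
    rw [hρdef, hCπ'] at he
    exact Subtype.ext he
  have hTl : ∀ g ∈ TD D K, ∃ e : E, ρ e = g := by
    intro g hg
    obtain ⟨d, hd⟩ := hθs ⟨g, TD_le_group hP g hg⟩
    obtain ⟨e, he⟩ := hψs d
    refine ⟨e, ?_⟩
    rw [hρdef, MonoidHom.comp_apply, he, hCπ', MonoidHom.comp_apply, hd]
    rfl
  have hρa : ρ ea = xU hS a t := by rw [hρdef, MonoidHom.comp_apply, hea, ← hCxb, hCπ]
  have hρb : ρ eb = xU hS b u := by rw [hρdef, MonoidHom.comp_apply, heb, ← hCxb, hCπ]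
  obtain ⟨h, hh⟩ := hTl _ (hU_mem_diag hS a ha v hv)
  obtain ⟨e', he'0⟩ := hψs (C.xb a (t / (v ^ 2 - 1)))
  have he' : ρ e' = xU hS a (t / (v ^ 2 - 1)) := by rw [hρdef, MonoidHom.comp_apply, he'0, hCπ]
  -- the commutator is a lift of the root element
  have hcm : ρ (cm h e') = xU hS a t := by
    unfold cm
    rw [map_mul, map_mul, map_mul, map_inv, map_inv, hh, he', hU_conj hS a ha v hv a ha, hzz, xU_inv, xU_mul]
    congr 1
    rw [show (2 : ℤ) = ((2 : ℕ) : ℤ) by norm_num, zpow_natCast]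
    field_simp
    ring
  -- the root elements of `a` and `b` commute
  have hab : ∀ s : K, xU hS a s * xU hS b u = xU hS b u * xU hS a s := by
    intro s
    have hg : GoodPair hS a b := goodPair_of_mat hS (hC a b ha hb hne hne')
    have h1 := hg s u
    unfold ChevalleyDatum.commWord at h1
    rw [hcomm, List.map_nil, wordU_nil, mul_one, mul_assoc, inv_mul_eq_iff_eq_mul] at h1
    exact h1.symm
  have hker : ∀ g : E, ρ g = 1 → g ∈ Subgroup.center E := fun g hg => hρc (MonoidHom.mem_ker.mpr hg)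
  have h1 : ceq (eb * h * eb⁻¹) h := by
    apply hker
    rw [map_mul, map_mul, map_mul, map_inv, map_inv, hh, hρb]
    have h2 := hU_conj hS a ha v hv b hb u
    rw [hz, zpow_zero, one_mul] at h2
    have h3 : hU hS a v * xU hS b u = xU hS b u * hU hS a v := by
      calc hU hS a v * xU hS b u = (hU hS a v * xU hS b u * (hU hS a v)⁻¹) * hU hS a v := by group
        _ = xU hS b u * hU hS a v := by rw [h2]
    rw [← h3]
    group
  have h2 : ceq (eb * e' * eb⁻¹) e' := by
    apply hker
    rw [map_mul, map_mul, map_mul, map_inv, map_inv, he', hρb, ← hab]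
    group
  have hc : eb * cm h e' = cm h e' * eb := conj_cm_fix h1 h2
  have hζ : ea * (cm h e')⁻¹ ∈ Subgroup.center E := by
    apply hker
    rw [map_mul, map_inv, hcm, hρa, mul_inv_cancel]
  have hζ' := Subgroup.mem_center_iff.mp hζ
  calc ea * eb = (ea * (cm h e')⁻¹) * (cm h e' * eb) := by group
    _ = (ea * (cm h e')⁻¹) * (eb * cm h e') := by rw [hc]
    _ = (ea * (cm h e')⁻¹ * eb) * cm h e' := by group
    _ = (eb * (ea * (cm h e')⁻¹)) * cm h e' := by rw [hζ' eb]
    _ = eb * ea := by group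

theorem d4_mem7 : chevD4 ∈ [chevG2, chevB2, chevD4, chevF4, chevE6, chevE7, chevE8] := by simp

theorem d4_orth_z : ∀ a : Fin 24, ∀ b : Fin 24,
    orthB chevD4.nroots (chainF chevD4.nroots chFD4) a b = true → zR chevD4 ctblD4 a b = 0 := by
  decide +kernel

theorem d4_z_self : ∀ a : Fin 24, zR chevD4 ctblD4 a a = 2 := by decide +kernel

/-- Every central extension of the group presented by (R1), (R2) of type D4 over a finite field with more than
two elements splits. -/
theorem cover_split_D4 [Fintype K] (hK : Fintype.card K ≠ 2)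
    {E : Type v} [Group E] (ψ : E →* chevD4.SteinbergCover K) (hψs : Function.Surjective ψ)
    (hψ : ψ.ker ≤ Subgroup.center E) :
    ∃ θ : chevD4.SteinbergCover K →* E, ψ.comp θ = MonoidHom.id (chevD4.SteinbergCover K) := by
  have hC : CommMat chevD4 K := fun r s hr hs h1 h2 t u => Cfsg.Agent.S1025.result chevD4 d4_mem7 r s hr hs h1 h2 t u
  have hperf : commutator (chevD4.SteinbergCover K) = ⊤ :=
    cover_perfect chevD4 d4_mem7 (fun h => by
      exfalso
      simp only [List.mem_cons, List.not_mem_nil, or_false] at h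
      rcases h with h | h
      · exact absurd (congrArg ChevalleyDatum.rank h) (by decide)
      · exact absurd (congrArg ChevalleyDatum.rank h) (by decide))
  apply cover_split_comm2 chfOK_D4 negIdx_D4 commTab2_D4 ψ hψs hψ
  by_cases h2 : (2 : K) = 0
  · right
    obtain ⟨v, hv, hv'⟩ := Cfsg.Agent.H73.D4.exists_sq_ne_one' hK h2
    intro a ha b hb ho ea eb t u hea heb
    have ha' : a < 24 := ha
    have hb' : b < 24 := hb
    have hob := orthB_complete ho
    have hn : NonAdjP chevD4.nroots (chainF chevD4.nroots chFD4) a b := ho.1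
    refine orth_torus (packSt_D4 K) hC hperf v hv hv' ψ hψs hψ a b ha hb hn.1 ?_
      (d4_orth_z ⟨a, ha'⟩ ⟨b, hb'⟩ hob) (d4_z_self ⟨a, ha'⟩) ?_ ea eb t u hea heb
    · rw [negIdx_D4 a ha]; exact hn.2.1
    · rw [chfOK_D4.commTerms]
      have hlen : (chainF chevD4.nroots chFD4 b a).length ≤ 1 := by
        rcases commTab2_D4.t0 b hb a ha (Ne.symm hn.1) (by have := hn.2.1; omega) with h | ⟨q, m, h, -⟩
        · rw [h]; exact Nat.zero_le _
        · rw [h]; exact le_refl _
      exact commTermsG_nil hn.2.2 hlen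
  · left
    exact h2

end Cfsg.Agent.H46
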