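import Cfsg.Agent.H46.SmallB2F4

set_option autoImplicit false
set_option linter.unusedSectionVars false
set_option maxRecDepth 100000

/-!
# Type F4 in characteristic 2 with an element `v ≠ 0`, `v² ≠ 1`: lifts of the root elements

As for type B2 (`SmallB2F4`); two positive roots at 60° or 120° are separated by a torus element `h_γ(v)` of a
third root `γ`.
-/

namespace Cfsg.Agent.H46

open Cfsg.Lie Cfsg.Agent.H23 Cfsg.Agent.H46.Univ

universe u v

variable {D : ChevalleyDatum} {K : Type u} [Field K] {z η : ℕ → ℕ → ℤ}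

/-- A torus element `h_γ(v)` centralizing `X_e` and acting on `X_{e'}` by a scalar `c ≠ 1`. -/
theorem sep_third (hP : PackB D K z η) (e e' γ : ℕ) (he : e < D.nroots) (he' : e' < D.nroots)
    (hγ : γ < D.nroots) (hz : z γ e = 0) (hz' : z γ e' = 1 ∨ z γ e' = -1 ∨ z γ e' = 2 ∨ z γ e' = -2)
    (v2 : K) (hv2 : v2 ≠ 0) (hv2' : v2 ^ 2 - 1 ≠ 0) :
    ∃ h ∈ TD D K, ∃ c : K, c - 1 ≠ 0 ∧ (∀ t : K, h * xU hP.sem e t * h⁻¹ = xU hP.sem e t) ∧
      (∀ u : K, h * xU hP.sem e' u * h⁻¹ = xU hP.sem e' (c * u)) := by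
  have hS := hP.sem
  have hv1 : v2 ≠ 1 := by
    rintro rfl
    exact hv2' (by norm_num)
  refine ⟨hU hS γ v2, hU_mem_diag hS γ hγ v2 hv2, v2 ^ (z γ e'), ?_, ?_, ?_⟩
  · rcases hz' with h | h | h | h <;> rw [h]
    · rw [zpow_one]
      exact sub_ne_zero.mpr hv1
    · rw [zpow_neg_one]
      intro h0
      exact hv1 (inv_eq_one.mp (sub_eq_zero.mp h0))
    · rw [show (2 : ℤ) = ((2 : ℕ) : ℤ) by norm_num, zpow_natCast]
      exact hv2'
    · rw [show (-2 : ℤ) = -((2 : ℕ) : ℤ) by norm_num, zpow_neg, zpow_natCast]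
      intro h0
      apply hv2'
      rw [inv_eq_one.mp (sub_eq_zero.mp h0), sub_self]
  · intro t
    rw [hU_conj hS γ hγ v2 hv2 e he, hz, zpow_zero, one_mul]
  · intro u
    rw [hU_conj hS γ hγ v2 hv2 e' he']

/-- Search for a third root separating two roots. -/
def zThirdAny (z : ℕ → ℕ → ℤ) (e e' : ℕ) : ℕ → Bool
  | 0 => false
  | n + 1 => (decide (z n e = 0) && (decide (z n e' = 1) || (decide (z n e' = -1) ||
      (decide (z n e' = 2) || decide (z n e' = -2))))) || zThirdAny z e e' n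

theorem zThirdAny_sound (z : ℕ → ℕ → ℤ) (e e' : ℕ) : ∀ n, zThirdAny z e e' n = true →
    ∃ γ < n, z γ e = 0 ∧ (z γ e' = 1 ∨ z γ e' = -1 ∨ z γ e' = 2 ∨ z γ e' = -2)
  | 0, h => by simp [zThirdAny] at h
  | n + 1, h => by
    rw [zThirdAny, Bool.or_eq_true] at h
    rcases h with h | h
    · rw [Bool.and_eq_true, Bool.or_eq_true, Bool.or_eq_true, Bool.or_eq_true] at h
      refine ⟨n, Nat.lt_succ_self n, of_decide_eq_true h.1, ?_⟩
      rcases h.2 with h' | h' | h' | h'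
      · exact Or.inl (of_decide_eq_true h')
      · exact Or.inr (Or.inl (of_decide_eq_true h'))
      · exact Or.inr (Or.inr (Or.inl (of_decide_eq_true h')))
      · exact Or.inr (Or.inr (Or.inr (of_decide_eq_true h')))
    · obtain ⟨γ, hγ, h'⟩ := zThirdAny_sound z e e' n h
      exact ⟨γ, Nat.lt_succ_of_lt hγ, h'⟩

/-- The separation condition for a pair of roots. -/
def zPair4OK (z : ℕ → ℕ → ℤ) (n e e' : ℕ) : Bool :=
  decide (z e' e = 0) || (decide (z e' e * z e e' = 2) || zThirdAny z e e' n)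

/-! ### Type F4 -/

theorem f4_nroots : chevF4.nroots = 48 := by decide +kernel

theorem f4_mem7 : chevF4 ∈ [chevG2, chevB2, chevD4, chevF4, chevE6, chevE7, chevE8] := by simp

theorem f4_cert (q : ℕ) (hq : q < 48) :
    PCertL chevF4 (zR chevF4 ctblF4) q ∨ PCertS chevF4 (zR chevF4 ctblF4) q := by
  interval_cases q
  · exact Or.inl ⟨6, 18, 3, 1, 1, by decide +kernel⟩
  · exact Or.inl ⟨5, 19, 3, -1, -1, by decide +kernel⟩
  · exact Or.inl ⟨4, 20, 3, 1, 1, by decide +kernel⟩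
  · exact Or.inr ⟨0, 29, 6, 1, 1, 2, by decide +kernel⟩
  · exact Or.inl ⟨2, 27, 3, 1, 1, by decide +kernel⟩
  · exact Or.inl ⟨1, 28, 3, 1, -1, by decide +kernel⟩
  · exact Or.inl ⟨0, 29, 3, 1, 1, by decide +kernel⟩
  · exact Or.inr ⟨0, 36, 17, 1, -1, -2, by decide +kernel⟩
  · exact Or.inr ⟨0, 38, 22, -1, 1, -2, by decide +kernel⟩
  · exact Or.inr ⟨0, 39, 25, 1, -1, -2, by decide +kernel⟩
  · exact Or.inr ⟨1, 39, 26, 1, 1, 2, by decide +kernel⟩
  · exact Or.inr ⟨0, 40, 30, -1, 1, -2, by decide +kernel⟩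
  · exact Or.inr ⟨1, 40, 31, -1, -1, 2, by decide +kernel⟩
  · exact Or.inr ⟨2, 40, 32, -1, 1, -2, by decide +kernel⟩
  · exact Or.inr ⟨4, 39, 32, -1, 1, -2, by decide +kernel⟩
  · exact Or.inl ⟨2, 34, 7, 1, -1, by decide +kernel⟩
  · exact Or.inl ⟨1, 35, 7, 1, 1, by decide +kernel⟩
  · exact Or.inl ⟨0, 36, 7, 1, -1, by decide +kernel⟩
  · exact Or.inr ⟨0, 44, 41, -1, -1, 2, by decide +kernel⟩
  · exact Or.inr ⟨1, 44, 42, -1, 1, -2, by decide +kernel⟩
  · exact Or.inr ⟨2, 44, 43, -1, -1, 2, by decide +kernel⟩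
  · exact Or.inl ⟨1, 37, 8, -1, -1, by decide +kernel⟩
  · exact Or.inl ⟨0, 38, 8, -1, 1, by decide +kernel⟩
  · exact Or.inl ⟨2, 37, 9, -1, 1, by decide +kernel⟩
  · exact Or.inl ⟨2, 38, 10, 1, -1, by decide +kernel⟩
  · exact Or.inl ⟨0, 39, 9, 1, -1, by decide +kernel⟩
  · exact Or.inl ⟨1, 39, 10, 1, 1, by decide +kernel⟩
  · exact Or.inr ⟨4, 44, 45, -1, -1, 2, by decide +kernel⟩
  · exact Or.inr ⟨5, 44, 46, 1, 1, 2, by decide +kernel⟩
  · exact Or.inr ⟨6, 44, 47, -1, -1, 2, by decide +kernel⟩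
  · exact Or.inl ⟨0, 40, 11, -1, 1, by decide +kernel⟩
  · exact Or.inl ⟨1, 40, 12, -1, -1, by decide +kernel⟩
  · exact Or.inl ⟨2, 40, 13, -1, 1, by decide +kernel⟩
  · exact Or.inr ⟨15, 39, 43, 1, 1, 2, by decide +kernel⟩
  · exact Or.inr ⟨15, 40, 45, 1, 1, 2, by decide +kernel⟩
  · exact Or.inr ⟨16, 40, 46, -1, -1, 2, by decide +kernel⟩
  · exact Or.inr ⟨17, 40, 47, 1, 1, 2, by decide +kernel⟩
  · exact Or.inr ⟨21, 39, 46, -1, 1, -2, by decide +kernel⟩
  · exact Or.inr ⟨22, 39, 47, 1, -1, -2, by decide +kernel⟩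
  · exact Or.inr ⟨25, 38, 47, 1, 1, 2, by decide +kernel⟩
  · exact Or.inr ⟨30, 36, 47, 1, -1, -2, by decide +kernel⟩
  · exact Or.inl ⟨0, 44, 18, -1, -1, by decide +kernel⟩
  · exact Or.inl ⟨1, 44, 19, -1, 1, by decide +kernel⟩
  · exact Or.inl ⟨2, 44, 20, -1, -1, by decide +kernel⟩
  · exact Or.inr ⟨41, 29, 47, -1, 1, -2, by decide +kernel⟩
  · exact Or.inl ⟨4, 44, 27, -1, -1, by decide +kernel⟩
  · exact Or.inl ⟨5, 44, 28, 1, 1, by decide +kernel⟩
  · exact Or.inl ⟨6, 44, 29, -1, -1, by decide +kernel⟩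

theorem f4_sep4 : allFrom (fun e => allFrom (fun e' => Nat.beq e' e || zPair4OK (zR chevF4 ctblF4) 48 e e') 24 24)
    24 24 = true := by
  decide +kernel

/-- Lifts of the root elements of type F4 satisfying (R1), (R2), in characteristic 2 with an element `v ≠ 0`,
`v² ≠ 1`. -/
theorem f4_lifts_char2 (hchar : (2 : K) = 0) (v2 : K) (hv2 : v2 ≠ 0) (hv2' : v2 ^ 2 - 1 ≠ 0)
    {E : Type v} [Group E] (ρ : E →* GL chevF4.Idx K) (hρc : ρ.ker ≤ Subgroup.center E)
    (hxl : ∀ q t, ∃ e : E, ρ e = xU (packSt_F4 K).hP.sem q t)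
    (hTl : ∀ g ∈ TD chevF4 K, ∃ e : E, ρ e = g) :
    ∃ Y : ℕ → K → E, (∀ q < chevF4.nroots, ∀ t, ρ (Y q t) = xU (packSt_F4 K).hP.sem q t) ∧ StRel chevF4 Y := by
  have hpk := packSt_F4 K
  have hP := hpk.hP
  have hS := hP.sem
  have hC : CommMat chevF4 K := fun r s hr hs h1 h2 t u => Cfsg.Agent.S1025.result chevF4 f4_mem7 r s hr hs h1 h2 t u
  have hG : ∀ r < chevF4.nroots, ∀ s < chevF4.nroots, s ≠ r → s ≠ chevF4.neg r → GoodPair hS r s :=
    fun r hr s hs h1 h2 => goodPair_of_mat hS (hC r s hr hs h1 h2)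
  obtain ⟨Y, hmap, htor, hdef, hY1⟩ := exists_lifts hP ρ hρc hTl hxl zTab_F4.self v2 hv2 hv2'
  have hcomm : ∀ q < chevF4.nroots, ∀ t u : K, Y q t * Y q u = Y q u * Y q t := by
    intro q hq
    have hq8 : q < 48 := by rw [← f4_nroots]; exact hq
    rcases f4_cert q hq8 with h | h
    · exact lifts_comm_long hP ρ hρc hTl Y hmap htor hG zTab_F4.self v2 hv2 hv2' q hq h
    · exact lifts_comm_short hP ρ hρc hTl Y hmap htor hG zTab_F4.self hchar v2 hv2 hv2' q hq h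
  have hadd := fun q (hq : q < chevF4.nroots) =>
    lifts_add hP ρ hρc hTl Y hmap htor v2 hv2 hv2' hdef q hq (hcomm q hq)
  have hsep : ∀ e < chevF4.nroots, ∀ e' < chevF4.nroots, chevF4.IsPosRoot e → chevF4.IsPosRoot e' → e' ≠ e →
      ∃ h ∈ TD chevF4 K, ∃ c : K, c - 1 ≠ 0 ∧ (∀ t : K, h * xU hS e t * h⁻¹ = xU hS e t) ∧
        (∀ u : K, h * xU hS e' u * h⁻¹ = xU hS e' (c * u)) := by
    intro e he e' he' hp hp' hne
    have he8 : e < 48 := by rw [← f4_nroots]; exact he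
    have he'8 : e' < 48 := by rw [← f4_nroots]; exact he'
    have hp1 : 24 ≤ e := by
      have := (tabHalf_F4 e he).mp hp
      rw [f4_nroots] at this
      exact this
    have hp2 : 24 ≤ e' := by
      have := (tabHalf_F4 e' he').mp hp'
      rw [f4_nroots] at this
      exact this
    have h1 := allFrom_sound _ 24 24 (allFrom_sound _ 24 24 f4_sep4 e hp1 (by omega)) e' hp2 (by omega)
    rw [Bool.or_eq_true] at h1
    rcases h1 with h1 | h1
    · exact absurd (Nat.eq_of_beq_eq_true h1) hne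
    · unfold zPair4OK at h1
      rw [Bool.or_eq_true, Bool.or_eq_true] at h1
      rcases h1 with h1 | h1 | h1
      · exact sep_small hP e e' he he' (zTab_F4.self e he) (zTab_F4.self e' he')
          (Or.inl (of_decide_eq_true h1)) v2 hv2 hv2'
      · exact sep_small hP e e' he he' (zTab_F4.self e he) (zTab_F4.self e' he')
          (Or.inr (of_decide_eq_true h1)) v2 hv2 hv2'
      · obtain ⟨γ, hγ, hz, hz'⟩ := zThirdAny_sound _ e e' 48 h1
        exact sep_third hP e e' γ he he' (by rw [f4_nroots]; exact hγ) hz hz' v2 hv2 hv2'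
  exact ⟨Y, hmap, lifts_rel hpk ρ hρc hTl Y hmap htor hadd hG posP_F4 hsep⟩

end Cfsg.Agent.H46
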