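import Cfsg.Agent.H46.SmallF3
import Cfsg.Agent.H46.SmallF4
import Cfsg.Agent.H46.SchurTriv
import Cfsg.Agent.H46.PerfAll
import Cfsg.Agent.H73.D4Field

set_option autoImplicit false

/-!
# The Schur multiplier of the Chevalley group of type F4 over a finite field with more than two elements
-/

namespace Cfsg.Agent.H46

open Cfsg.Lie Cfsg.Agent.H23

universe u v

/-- Every central extension of the group presented by (R1), (R2) of type F4 over a finite field with more than
two elements splits. -/
theorem cover_split_F4 {K : Type u} [Field K] [Fintype K] (hK : 3 ≤ Fintype.card K)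
    {E : Type v} [Group E] (ψ : E →* chevF4.SteinbergCover K) (hψs : Function.Surjective ψ)
    (hψ : ψ.ker ≤ Subgroup.center E) :
    ∃ θ : chevF4.SteinbergCover K →* E, ψ.comp θ = MonoidHom.id (chevF4.SteinbergCover K) := by
  have hC : CommMat chevF4 K := fun r s hr hs h1 h2 t u => Cfsg.Agent.S1025.result chevF4 f4_mem7 r s hr hs h1 h2 t u
  by_cases h5 : 5 ≤ Fintype.card K
  · exact (cover_split_all ⟨Finset.univ, by rw [Finset.card_univ]; omega⟩ chevF4 f4_mem7 ψ hψs hψ).2
  · have hperf : commutator (chevF4.SteinbergCover K) = ⊤ :=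
      cover_perfect chevF4 f4_mem7 (fun h => by
        exfalso
        simp only [List.mem_cons, List.not_mem_nil, or_false] at h
        rcases h with h | h
        · exact absurd (congrArg ChevalleyDatum.rank h) (by decide)
        · exact absurd (congrArg ChevalleyDatum.rank h) (by decide))
    have h34 : Fintype.card K = 3 ∨ Fintype.card K = 4 := by omega
    rcases h34 with hc | hc
    · obtain ⟨hK3, h2⟩ := Cfsg.Agent.H73.D4.field_three hc
      exact cover_split_of_lifts (packSt_F4 K) hC hperf posP_F4 ψ hψs hψ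
        (fun ρ hρc hxl hTl => f4_lifts3 hK3 h2 ρ hρc hxl hTl)
    · obtain ⟨ω, -, h2, -⟩ := Cfsg.Agent.H73.D4.field_four hc
      obtain ⟨v, hv, hv'⟩ := Cfsg.Agent.H73.D4.exists_sq_ne_one' (K := K) (by omega) h2
      exact cover_split_of_lifts (packSt_F4 K) hC hperf posP_F4 ψ hψs hψ
        (fun ρ hρc hxl hTl => f4_lifts_char2 h2 v hv hv' ρ hρc hxl hTl)

/-- A Chevalley group of type G2, F4 or E8 over a finite field has trivial Schur multiplier as soon as every
central extension of the group presented by (R1), (R2) splits. -/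
theorem schur_trivial_of_split {F : Type u} [Field F] [Fintype F] (D : ChevalleyDatum)
    (hD : D ∈ [chevG2, chevF4, chevE8])
    (hsplit : ∀ (Γ : Type u) [Group Γ] (ψ : Γ →* D.SteinbergCover F), Function.Surjective ψ →
      ψ.ker ≤ Subgroup.center Γ → ∃ θ : D.SteinbergCover F →* Γ, ψ.comp θ = MonoidHom.id (D.SteinbergCover F)) :
    HasCyclicSchurMultiplier ↥(D.group F) 1 := by
  have hD7 : D ∈ [chevG2, chevB2, chevD4, chevF4, chevE6, chevE7, chevE8] := by
    simp only [List.mem_cons, List.not_mem_nil, or_false] at hD ⊢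
    rcases hD with rfl | rfl | rfl <;> simp
  obtain ⟨z, η, w, w0, hpk⟩ := packSt_all (K := F) D hD7
  have hC : CommMat D F := fun r s hr hs h1 h2 t u => Cfsg.Agent.S1025.result D hD7 r s hr hs h1 h2 t u
  obtain ⟨θ₀, hθs, hθc, -⟩ := cover_central hpk.tab hpk.hP hpk.hV hC
  obtain ⟨e, -⟩ := cover_equiv hpk.tab hpk.hP hpk.hV hC
  have hcen : Subgroup.center (D.SteinbergCover F) = ⊥ := by
    rw [eq_bot_iff]
    intro x hx
    rw [Subgroup.mem_bot]
    have h1 : e x ∈ Subgroup.center (D.SteinbergGroup F) := by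
      rw [Subgroup.mem_center_iff]
      intro g
      obtain ⟨y, rfl⟩ := e.surjective g
      rw [← map_mul, ← map_mul, Subgroup.mem_center_iff.mp hx y]
    rw [Cfsg.Agent.S1078.result D hD, Subgroup.mem_bot] at h1
    exact e.injective (h1.trans (map_one e).symm)
  have hinj : Function.Injective θ₀ := by
    rw [injective_iff_map_eq_one]
    intro x hx
    have h1 := hθc (MonoidHom.mem_ker.mpr hx)
    rw [hcen, Subgroup.mem_bot] at h1
    exact h1
  let e₀ : D.SteinbergCover F ≃* ↥(D.group F) := MulEquiv.ofBijective θ₀ ⟨hinj, hθs⟩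
  haveI : Finite ↥(D.group F) := inferInstance
  apply hasSchur_one_of_split
  intro Γ _ σ hσs hσc
  have hψc : (e₀.symm.toMonoidHom.comp σ).ker ≤ Subgroup.center Γ := by
    intro g hg
    apply hσc
    rw [MonoidHom.mem_ker] at hg ⊢
    exact e₀.symm.injective (hg.trans (map_one _).symm)
  obtain ⟨θ, hθ⟩ := hsplit Γ (e₀.symm.toMonoidHom.comp σ) (e₀.symm.surjective.comp hσs) hψc
  refine ⟨θ.comp e₀.symm.toMonoidHom, ?_⟩
  ext g : 1
  have h1 := DFunLike.congr_fun hθ (e₀.symm g)
  exact e₀.symm.injective h1

/-- The Chevalley group of type F4 over a finite field with more than two elements has trivial Schur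
multiplier. -/
theorem schur_trivial_F4 {F : Type u} [Field F] [Fintype F] (hF : 3 ≤ Fintype.card F) :
    HasCyclicSchurMultiplier ↥(chevF4.group F) 1 :=
  schur_trivial_of_split chevF4 (by simp) (fun _ _ ψ hs hc => cover_split_F4 hF ψ hs hc)

end Cfsg.Agent.H46
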