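import Cfsg.Agent.H78.StbE6Defs
import Cfsg.Agent.H23.SylowU
import Cfsg.Agent.H23.OrdH

/-!
# S2123 (helper78's project): the `E₆` pieces E6SYL and E6CARDH (helper46)

These two import the full engine (`H23.SylowU`, `H23.OrdH`).
-/

set_option autoImplicit false

namespace Cfsg.Agent.H46.StbG

open Cfsg.Lie Cfsg.Agent.H23 Cfsg.Agent.H23.Stb Cfsg.Agent.H78.StbG

universe u

/-- **S2123-E6SYL**. -/
theorem e6Syl : StE6Syl.{u} := by
  intro F _ _ p _ _
  exact exists_sylow_posUnipotent p chevE6 (by simp)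

/-- **S2123-E6CARDH**. -/
theorem e6CardH : StE6CardH.{u} := by
  intro F _ _
  exact cardH_E6 rfl

example : StE6Syl.{u} := e6Syl
example : StE6CardH.{u} := e6CardH

end Cfsg.Agent.H46.StbG
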