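import Cfsg.Agent.H78.StbE6Defs

/-!
# S2123 (helper78's project): the `E₆` table pieces E6W0, E6C2, E6ADJ, E6DIAG, E6CONN (helper46)

`E₆`-only closure (imports `H78.StbE6Defs` only).
-/

set_option autoImplicit false

namespace Cfsg.Agent.H46.StbG

open Cfsg.Lie Cfsg.Agent.H23 Cfsg.Agent.H23.Stb Cfsg.Agent.H78.StbG

universe u

/-- **S2123-E6W0**. -/
theorem e6W0 : StE6W0 := by
  unfold StE6W0
  decide +kernel

/-- From the matrix form of the commutator formula to the group form. -/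
theorem comm_xU' {D : ChevalleyDatum} {F : Type u} [Field F] {z : ℕ → ℕ → ℤ} (hS : Sem D F z) (r s : ℕ)
    (t u : F)
    (h : D.x F s u * D.x F r t = D.x F r t * D.x F s u * D.wordMat F (D.commWord F r s t u)) :
    xU hS s u * xU hS r t = xU hS r t * xU hS s u * wordU hS (D.commWord F r s t u) := by
  apply Units.ext
  simp only [Units.val_mul, xU_val, wordU_val]
  exact h

set_option synthInstance.maxSize 4096 in
set_option synthInstance.maxHeartbeats 400000 in
theorem e6_c2T : ∀ i < chevE6.rank, ∀ j < chevE6.rank, i ≠ j →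
    chevE6.commTerms (chevE6.neg (chevE6.simple i)) (chevE6.simple j) = [] ∧
    chevE6.simple j ≠ chevE6.simple i := by
  decide +kernel

/-- **S2123-E6C2**. -/
theorem e6C2 : StE6C2.{u} := by
  intro F _ i hi j hj hij t u
  obtain ⟨hterms, hne⟩ := e6_c2T i hi j hj hij
  have h1 := comm_xU' (packS_E6 F).hP.sem _ _ t u
    ((packB_E6 F).semC.commN i hi (chevE6.simple j) (tab_E6.simple_pos j hj) hne t u)
  simp only [ChevalleyDatum.commWord, hterms, List.map_nil, wordU_nil, mul_one] at h1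
  exact h1

set_option synthInstance.maxSize 4096 in
set_option synthInstance.maxHeartbeats 400000 in
theorem e6_nadjT : ∀ i < chevE6.rank, ∀ j < chevE6.rank, i ≠ j →
    ¬ (zE6 (chevE6.simple j) (chevE6.simple i) = -1) →
    chevE6.commTerms (chevE6.simple i) (chevE6.simple j) = [] := by
  decide +kernel

set_option synthInstance.maxSize 4096 in
set_option synthInstance.maxHeartbeats 400000 in
theorem e6_adjT : ∀ i < chevE6.rank, ∀ j < chevE6.rank, zE6 (chevE6.simple j) (chevE6.simple i) = -1 →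
    (chevE6.commTerms (chevE6.simple i) (chevE6.simple j)).length = 1 ∧
    ∀ c ∈ chevE6.commTerms (chevE6.simple i) (chevE6.simple j),
      c.1 < chevE6.nroots ∧ (c.2.1 = 1 ∨ c.2.1 = -1) ∧ c.2.2.1 = 1 ∧ c.2.2.2 = 1 := by
  decide +kernel

/-- **S2123-E6ADJ**. -/
theorem e6Adj : StE6Adj.{u} := by
  intro F _ i hi j hj hij
  obtain ⟨-, hne⟩ := e6_c2T i hi j hj hij
  have hPc : ∀ t u : F, xU (packS_E6 F).hP.sem (chevE6.simple j) u * xU (packS_E6 F).hP.sem (chevE6.simple i) t =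
      xU (packS_E6 F).hP.sem (chevE6.simple i) t * xU (packS_E6 F).hP.sem (chevE6.simple j) u *
        wordU (packS_E6 F).hP.sem (chevE6.commWord F (chevE6.simple i) (chevE6.simple j) t u) := fun t u =>
    comm_xU' (packS_E6 F).hP.sem _ _ t u
      ((packB_E6 F).semC.comm i hi (chevE6.simple j) (tab_E6.simple_pos j hj) hne t u)
  constructor
  · intro hcomm hadj
    obtain ⟨hlen, hc⟩ := e6_adjT i hi j hj hadj
    obtain ⟨c, hceq⟩ := List.length_eq_one_iff.mp hlen
    obtain ⟨hc1, hc2, hc3, hc4⟩ := hc c (by rw [hceq]; exact List.mem_singleton_self c)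
    have h1 := hPc 1 1
    simp only [ChevalleyDatum.commWord, hceq, List.map_cons, List.map_nil, wordU_cons, wordU_nil, mul_one,
      hc3, hc4, pow_one] at h1
    rw [← hcomm 1 1] at h1
    have h2 : xU (packS_E6 F).hP.sem c.1 ((c.2.1 : F) * -1) = 1 := by
      have := h1.symm
      rwa [mul_eq_left] at this
    have h3 := xU_eq_one_imp (packS_E6 F).hP.sem tab_E6 tab2_E6 c.1 hc1 _ h2
    rcases hc2 with h | h
    · rw [h] at h3; simp at h3
    · rw [h] at h3; simp at h3
  · intro hadj t u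
    have hterms := e6_nadjT i hi j hj hij hadj
    have h1 := hPc t u
    simp only [ChevalleyDatum.commWord, hterms, List.map_nil, wordU_nil, mul_one] at h1
    exact h1.symm

/-- The edges of the Dynkin diagram of type `E₆`. -/
def adjL6 : List (ℕ × ℕ) :=
  [(0, 2), (2, 0), (1, 3), (3, 1), (2, 3), (3, 2), (3, 4), (4, 3), (4, 5), (5, 4)]

set_option synthInstance.maxSize 4096 in
set_option synthInstance.maxHeartbeats 400000 in
theorem adjE6_iff : ∀ i < chevE6.rank, ∀ j < chevE6.rank,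
    (zE6 (chevE6.simple j) (chevE6.simple i) = -1 ↔ (i, j) ∈ adjL6) := by
  decide +kernel

set_option synthInstance.maxSize 4096 in
set_option synthInstance.maxHeartbeats 400000 in
theorem e6_symFin : ∀ p3 : Fin 6, ∀ p1 : Fin 6, (p3.1, p1.1) ∈ adjL6 → ∀ p2 : Fin 6, (p3.1, p2.1) ∈ adjL6 →
    p1 ≠ p2 → ∀ p4 : Fin 6, (p3.1, p4.1) ∈ adjL6 → p1 ≠ p4 → p2 ≠ p4 →
    ∀ p0 : Fin 6, (p2.1, p0.1) ∈ adjL6 → p0 ≠ p3 → ∀ p5 : Fin 6, (p4.1, p5.1) ∈ adjL6 → p5 ≠ p3 →
    (p3.1 = 3 ∧ p1.1 = 1 ∧ p2.1 = 2 ∧ p4.1 = 4 ∧ p0.1 = 0 ∧ p5.1 = 5) ∨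
      (p3.1 = 3 ∧ p1.1 = 1 ∧ p2.1 = 4 ∧ p4.1 = 2 ∧ p0.1 = 5 ∧ p5.1 = 0) := by
  decide +kernel

/-- **S2123-E6DIAG**. -/
theorem e6Diag : StE6Diag := by
  intro π hlt hinj hadj
  have hr : chevE6.rank = 6 := rfl
  have b : ∀ i, i < 6 → π i < 6 := fun i hi => hlt i (by omega)
  have ne : ∀ i j, ∀ (hi : i < 6) (hj : j < 6), i ≠ j → (⟨π i, b i hi⟩ : Fin 6) ≠ ⟨π j, b j hj⟩ := by
    intro i j hi hj hij h
    exact hij (hinj i (by omega) j (by omega) (congrArg Fin.val h))
  have ad : ∀ i j, i < 6 → j < 6 → i ≠ j → (i, j) ∈ adjL6 → (π i, π j) ∈ adjL6 := by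
    intro i j hi hj hij h
    have h1 : adjE6 i j := (adjE6_iff i (by omega) j (by omega)).mpr h
    have h2 : adjE6 (π i) (π j) := (hadj i (by omega) j (by omega) hij).mpr h1
    exact (adjE6_iff (π i) (hlt i (by omega)) (π j) (hlt j (by omega))).mp h2
  have key := e6_symFin ⟨π 3, b 3 (by omega)⟩ ⟨π 1, b 1 (by omega)⟩
    (ad 3 1 (by omega) (by omega) (by omega) (by decide)) ⟨π 2, b 2 (by omega)⟩
    (ad 3 2 (by omega) (by omega) (by omega) (by decide)) (ne 1 2 (by omega) (by omega) (by omega))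
    ⟨π 4, b 4 (by omega)⟩ (ad 3 4 (by omega) (by omega) (by omega) (by decide))
    (ne 1 4 (by omega) (by omega) (by omega)) (ne 2 4 (by omega) (by omega) (by omega))
    ⟨π 0, b 0 (by omega)⟩ (ad 2 0 (by omega) (by omega) (by omega) (by decide))
    (ne 0 3 (by omega) (by omega) (by omega))
    ⟨π 5, b 5 (by omega)⟩ (ad 4 5 (by omega) (by omega) (by omega) (by decide))
    (ne 5 3 (by omega) (by omega) (by omega))
  rcases key with ⟨k3, k1, k2, k4, k0, k5⟩ | ⟨k3, k1, k2, k4, k0, k5⟩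
  · left
    simp only at k3 k1 k2 k4 k0 k5
    intro i hi
    have hi' : i < 6 := hi
    interval_cases i <;> assumption
  · right
    simp only at k3 k1 k2 k4 k0 k5
    intro i hi
    have hi' : i < 6 := hi
    interval_cases i <;> simpa [sigE6, sigE6a] using ‹_›

theorem e6_edges : zE6 (chevE6.simple 2) (chevE6.simple 0) = -1 ∧
    zE6 (chevE6.simple 3) (chevE6.simple 2) = -1 ∧
    zE6 (chevE6.simple 1) (chevE6.simple 3) = -1 ∧
    zE6 (chevE6.simple 4) (chevE6.simple 3) = -1 ∧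
    zE6 (chevE6.simple 5) (chevE6.simple 4) = -1 := by
  decide +kernel

theorem e6_conn1 : ∀ i < chevE6.rank, ∃ j < chevE6.rank,
    zE6 (chevE6.simple j) (chevE6.simple i) = -1 := by
  decide +kernel

/-- **S2123-E6CONN**. -/
theorem e6Conn : StE6Conn := by
  refine ⟨e6_conn1, ?_⟩
  intro P h0 hstep i hi
  obtain ⟨e1, e2, e3, e4, e5⟩ := e6_edges
  have hr : chevE6.rank = 6 := rfl
  have h2 : P 2 := hstep 0 (by omega) 2 (by omega) e1 h0
  have h3 : P 3 := hstep 2 (by omega) 3 (by omega) e2 h2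
  have h1 : P 1 := hstep 3 (by omega) 1 (by omega) e3 h3
  have h4 : P 4 := hstep 3 (by omega) 4 (by omega) e4 h3
  have h5 : P 5 := hstep 4 (by omega) 5 (by omega) e5 h4
  have hi' : i < 6 := hi
  interval_cases i <;> assumption

example : StE6W0 := e6W0
example : StE6C2.{u} := e6C2
example : StE6Adj.{u} := e6Adj
example : StE6Diag := e6Diag
example : StE6Conn := e6Conn

end Cfsg.Agent.H46.StbG
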