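import Cfsg.Agent.H46.SmallSplit
import Cfsg.Agent.H46.Univ2Defs
import Cfsg.Agent.H3.Univ2Conj
import Cfsg.Agent.H3.Univ2Map
import Cfsg.Agent.H70.Univ2Inj

set_option autoImplicit false
set_option linter.unusedSectionVars false

/-!
# Lifts of the root elements through a central extension: relations from good lists with commuting pairs

The variant of `UnivG`, `UnivMain`, `UnivSplit` in which two positive roots need not be separated by a torus
element, provided the lifts of their root elements commute.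
-/

namespace Cfsg.Agent.H46

open Cfsg.Lie Cfsg.Agent.H23 Cfsg.Agent.H46.Univ

universe u v

variable {D : ChevalleyDatum} {K : Type u} [Field K] {z η : ℕ → ℕ → ℤ}

/-- A list of positive roots with the chain condition, each pair separated or in the relation `Cm`, is good. -/
theorem goodL2_of_chain (hP : PackB D K z η) (Cm : ℕ → ℕ → Prop)
    (hG : ∀ r < D.nroots, ∀ s < D.nroots, s ≠ r → s ≠ D.neg r → GoodPair hP.sem r s)
    (hsep : ∀ e < D.nroots, ∀ e' < D.nroots, D.IsPosRoot e → D.IsPosRoot e' → e' ≠ e →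
      (∃ h ∈ TD D K, ∃ c : K, c - 1 ≠ 0 ∧ (∀ t : K, h * xU hP.sem e t * h⁻¹ = xU hP.sem e t) ∧
        (∀ u : K, h * xU hP.sem e' u * h⁻¹ = xU hP.sem e' (c * u))) ∨ Cm e e') :
    ∀ L : List ℕ, chainOK D L = true → SepG hP.sem L → (∀ r ∈ L, D.IsPosRoot r) →
      GoodL2 (xU hP.sem) (TD D K) Cm L := by
  have hS := hP.sem
  intro L
  induction L with
  | nil => intro _ _ _; trivial
  | cons e L ih =>
    intro hc hsp hpos
    obtain ⟨he, h2, hcL⟩ := chainOK_cons hc
    refine ⟨?_, ?_, ?_, ih hcL hsp.2 (fun r hr => hpos r (List.mem_cons_of_mem _ hr))⟩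
    · intro e' he' t u
      obtain ⟨h1, h3, h4, h5⟩ := h2 e' he'
      have hg := hG e he e' h1 h3 h4 (-t) u
      have e1 : xU hS e t * xU hS e' u * (xU hS e t)⁻¹ = (xU hS e (-t))⁻¹ * xU hS e' u * xU hS e (-t) := by
        rw [xU_inv, xU_inv, neg_neg]
      rw [e1, hg]
      apply Subgroup.mul_mem
      · exact Subgroup.subset_closure ⟨e', u, he', rfl⟩
      · apply wordU_mem hS
        intro p hp
        unfold ChevalleyDatum.commWord at hp
        obtain ⟨c, hc', rfl⟩ := List.mem_map.mp hp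
        exact Subgroup.subset_closure ⟨c.1, _, h5 c hc', rfl⟩
    · exact hsp.1
    · intro e' he'
      obtain ⟨h1, h3, -, -⟩ := h2 e' he'
      exact hsep e he e' h1 (hpos e (List.mem_cons_self ..)) (hpos e' (List.mem_cons_of_mem _ he')) h3

/-- Images of good lists under the Weyl group are good. -/
theorem goodL2_reflW (hP : PackB D K z η) (Cm : ℕ → ℕ → Prop) (v : List ℕ) (hv : ∀ i ∈ v, i < D.rank)
    (L : List ℕ) (hL : ∀ r ∈ L, r < D.nroots)
    (hCm : ∀ q ∈ L, ∀ q' ∈ L, Cm q q' → Cm (reflW D v q) (reflW D v q'))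
    (h : GoodL2 (xU hP.sem) (TD D K) Cm L) :
    GoodL2 (xU hP.sem) (TD D K) Cm (L.map (reflW D v)) := by
  classical
  have hS := hP.sem
  have hc := fun q (hq : q < D.nroots) => nWU_conj hS hP.semN hP.tab v hv q hq
  refine Cfsg.Agent.H3.Univ.goodL2_map (xU hS) (TD D K) Cm (nWU hS v) (reflW D v)
    (fun q => if hq : q < D.nroots then Classical.choose (hc q hq) else 1) L ?_ ?_ (TD_conj hP v hv) hCm h
  · intro q hq
    rw [dif_pos (hL q hq)]
    rcases (Classical.choose_spec (hc q (hL q hq))).1 with h1 | h1 <;> rw [h1] <;> simp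
  · intro q hq t
    rw [dif_pos (hL q hq)]
    exact (Classical.choose_spec (hc q (hL q hq))).2 t

section Lifts

variable {E : Type v} [Group E] (hP : PackB D K z η) (ρ : E →* GL D.Idx K) (hρc : ρ.ker ≤ Subgroup.center E)
  (hTl : ∀ g ∈ TD D K, ∃ e : E, ρ e = g)

include hρc hTl in
/-- The lifted root elements, defined by commutators with lifts of given torus elements. -/
theorem exists_lifts_gen (hxl : ∀ q t, ∃ e : E, ρ e = xU hP.sem q t)
    (g : ℕ → GL D.Idx K) (a : ℕ → K) (hg : ∀ q < D.nroots, g q ∈ TD D K) (ha : ∀ q < D.nroots, a q - 1 ≠ 0)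
    (hact : ∀ q < D.nroots, ∀ t : K, g q * xU hP.sem q t * (g q)⁻¹ = xU hP.sem q (a q * t)) :
    ∃ Y : ℕ → K → E, (∀ q < D.nroots, ∀ t, ρ (Y q t) = xU hP.sem q t) ∧
      (∀ q < D.nroots, ∀ (h : E) (χ : K), ρ h ∈ TD D K →
        (∀ t, ρ h * xU hP.sem q t * (ρ h)⁻¹ = xU hP.sem q (χ * t)) → ∀ t, h * Y q t * h⁻¹ = Y q (χ * t)) ∧
      (∀ q < D.nroots, ∀ (h e : E) (t : K), ρ h = g q → ρ e = xU hP.sem q t →
        h * e * h⁻¹ * e⁻¹ = Y q ((a q - 1) * t)) ∧
      (∀ q, D.nroots ≤ q → ∀ t, Y q t = 1) := by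
  classical
  have hS := hP.sem
  have key : ∀ q, q < D.nroots → ∃ y : K → E, (∀ t : K, ρ (y t) = xU hS q t) ∧
      (∀ (h : E) (χ : K), ρ h ∈ TD D K → (∀ t : K, ρ h * xU hS q t * (ρ h)⁻¹ = xU hS q (χ * t)) →
        ∀ t : K, h * y t * h⁻¹ = y (χ * t)) ∧
      (∀ (h e : E) (t : K), ρ h = g q → ρ e = xU hS q t → h * e * h⁻¹ * e⁻¹ = y ((a q - 1) * t)) := by
    intro q hq
    exact UnivAbs.exists_lift ρ hρc (xU hS q) (TD D K) (fun t u => (xU_mul hS q t u).symm) (hxl q)
      (g q) (hTl _ (hg q hq)) (a q) (ha q hq) (hact q hq) (fun g' hg' => TD_comm hP g' hg' _ (hg q hq))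
  refine ⟨fun q => if hq : q < D.nroots then Classical.choose (key q hq) else fun _ => 1, ?_, ?_, ?_, ?_⟩
  · intro q hq t
    simp only [dif_pos hq]
    exact (Classical.choose_spec (key q hq)).1 t
  · intro q hq h χ h1 h2 t
    simp only [dif_pos hq]
    exact (Classical.choose_spec (key q hq)).2.1 h χ h1 h2 t
  · intro q hq h e t h1 h2
    simp only [dif_pos hq]
    exact (Classical.choose_spec (key q hq)).2.2 h e t h1 h2
  · intro q hq t
    have : ¬ q < D.nroots := by omega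
    simp only [dif_neg this]

theorem exists_lift_wordU (hxl : ∀ q t, ∃ e : E, ρ e = xU hP.sem q t) (w' : List (ℕ × K)) :
    ∃ e : E, ρ e = wordU hP.sem w' := by
  induction w' with
  | nil => exact ⟨1, by rw [map_one, wordU_nil]⟩
  | cons p w' ih =>
    obtain ⟨e₁, h₁⟩ := hxl p.1 p.2
    obtain ⟨e₂, h₂⟩ := ih
    exact ⟨e₁ * e₂, by rw [map_mul, h₁, h₂, wordU_cons]⟩

theorem exists_lift_nWU (hxl : ∀ q t, ∃ e : E, ρ e = xU hP.sem q t) (v : List ℕ) :
    ∃ e : E, ρ e = nWU hP.sem v := by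
  induction v with
  | nil => exact ⟨1, by rw [map_one]; rfl⟩
  | cons i v ih =>
    obtain ⟨e₁, h₁⟩ := exists_lift_wordU hP ρ hxl (D.nWord (D.simple i) 1)
    obtain ⟨e₂, h₂⟩ := ih
    refine ⟨e₁ * e₂, ?_⟩
    rw [map_mul, h₁, h₂, nWU_cons]
    rfl

variable (Y : ℕ → K → E) (hmap : ∀ q < D.nroots, ∀ t, ρ (Y q t) = xU hP.sem q t)

include hρc hmap in
/-- The commutation of two lifted root subgroups is invariant under the Weyl group. -/
theorem cm_reflW (hxl : ∀ q t, ∃ e : E, ρ e = xU hP.sem q t) (v : List ℕ) (hv : ∀ i ∈ v, i < D.rank)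
    (q q' : ℕ) (hq : q < D.nroots) (hq' : q' < D.nroots)
    (h : ∀ t u : K, Y q t * Y q' u = Y q' u * Y q t) :
    ∀ t u : K, Y (reflW D v q) t * Y (reflW D v q') u = Y (reflW D v q') u * Y (reflW D v q) t := by
  have hS := hP.sem
  obtain ⟨κ, hκ, hc⟩ := nWU_conj hS hP.semN hP.tab v hv q hq
  obtain ⟨κ', hκ', hc'⟩ := nWU_conj hS hP.semN hP.tab v hv q' hq'
  obtain ⟨n, hn⟩ := exists_lift_nWU hP ρ hxl v
  have hκ2 : κ * κ = 1 := by rcases hκ with h1 | h1 <;> rw [h1] <;> simp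
  have hκ2' : κ' * κ' = 1 := by rcases hκ' with h1 | h1 <;> rw [h1] <;> simp
  intro t u
  refine Cfsg.Agent.H3.Univ.comm_conj_lift ρ hρc n (Y q (κ * t)) (Y q' (κ' * u)) _ _ ?_ ?_ (h _ _)
  · rw [map_mul, map_mul, map_inv, hn, hmap q hq, hmap _ (reflW_lt hP.tab v hv q hq), hc, ← mul_assoc, hκ2,
      one_mul]
  · rw [map_mul, map_mul, map_inv, hn, hmap q' hq', hmap _ (reflW_lt hP.tab v hv q' hq'), hc', ← mul_assoc, hκ2',
      one_mul]

end Lifts

section Rel

variable {E : Type v} [Group E] {w w0 : List ℕ} (hpk : PackSt D K z η w w0) (ρ : E →* GL D.Idx K)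
  (hρc : ρ.ker ≤ Subgroup.center E) (hTl : ∀ g ∈ TD D K, ∃ e : E, ρ e = g)
  (Y : ℕ → K → E) (hmap : ∀ q < D.nroots, ∀ t, ρ (Y q t) = xU hpk.hP.sem q t)
  (htor : ∀ q < D.nroots, ∀ (h : E) (χ : K), ρ h ∈ TD D K →
    (∀ t, ρ h * xU hpk.hP.sem q t * (ρ h)⁻¹ = xU hpk.hP.sem q (χ * t)) → ∀ t, h * Y q t * h⁻¹ = Y q (χ * t))
  (hadd : ∀ q < D.nroots, ∀ t u : K, Y q (t + u) = Y q t * Y q u)

include hρc hTl hmap htor hadd in
/-- The lifted root elements satisfy (R1) and (R2), when two positive roots are separated by a torus element or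
the lifts of their root elements commute. -/
theorem lifts_rel2 (hxl : ∀ q t, ∃ e : E, ρ e = xU hpk.hP.sem q t)
    (hG : ∀ r < D.nroots, ∀ s < D.nroots, s ≠ r → s ≠ D.neg r → GoodPair hpk.hP.sem r s)
    (hPos : ∀ r < D.nroots, ∀ s < D.nroots, s ≠ r → s ≠ D.neg r → PosP D r s)
    (hsep : ∀ e < D.nroots, ∀ e' < D.nroots, D.IsPosRoot e → D.IsPosRoot e' → e' ≠ e →
      (∃ h ∈ TD D K, ∃ c : K, c - 1 ≠ 0 ∧ (∀ t : K, h * xU hpk.hP.sem e t * h⁻¹ = xU hpk.hP.sem e t) ∧
        (∀ u : K, h * xU hpk.hP.sem e' u * h⁻¹ = xU hpk.hP.sem e' (c * u))) ∨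
      (∀ t u : K, Y e t * Y e' u = Y e' u * Y e t)) :
    StRel D Y where
  add := fun r hr t u => (hadd r hr t u).symm
  comm := by
    intro r hr s hs hne hne' t u
    have hP := hpk.hP
    have hS := hP.sem
    have hT := hP.tab
    obtain ⟨v, hv, hrp, hsp, hterms⟩ := hPos r hr s hs hne hne'
    have hvr : ∀ i ∈ v.reverse, i < D.rank := fun i hi => hv i (List.mem_reverse.mp hi)
    have hpos0 := convList_pos hT w hpk.tab.conv
    obtain ⟨Cm, hCmdef⟩ : ∃ Cm : ℕ → ℕ → Prop,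
      Cm = fun q q' => q < D.nroots ∧ q' < D.nroots ∧ ∀ t u : K, Y q t * Y q' u = Y q' u * Y q t := ⟨_, rfl⟩
    have hgood0 : GoodL2 (xU hS) (TD D K) Cm (convList D w) := by
      refine goodL2_of_chain hP Cm hG ?_ _ hpk.tab.chP (SepG_convList hP hpk.hV w hpk.tab.conv) hpos0
      intro e he e' he' hp hp' hne2
      rcases hsep e he e' he' hp hp' hne2 with h | h
      · exact Or.inl h
      · right
        rw [hCmdef]
        exact ⟨he, he', h⟩
    have hgood : GoodL2 (xU hS) (TD D K) Cm ((convList D w).map (reflW D v.reverse)) := by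
      refine goodL2_reflW hP Cm v.reverse hvr _ (fun q hq => (hpos0 q hq).1) ?_ hgood0
      intro q _ q' _ hc
      rw [hCmdef] at hc ⊢
      exact ⟨reflW_lt hT _ hvr q hc.1, reflW_lt hT _ hvr q' hc.2.1,
        cm_reflW hP ρ hρc Y hmap hxl v.reverse hvr q q' hc.1 hc.2.1 hc.2.2⟩
    have hLlt : ∀ q ∈ (convList D w).map (reflW D v.reverse), q < D.nroots := by
      intro q hq
      obtain ⟨q0, hq0, rfl⟩ := List.mem_map.mp hq
      exact reflW_lt hT _ hvr q0 (hpos0 q0 hq0).1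
    have hmemL : ∀ q < D.nroots, D.IsPosRoot (reflW D v q) → q ∈ (convList D w).map (reflW D v.reverse) := by
      intro q hq hp
      exact List.mem_map.mpr ⟨reflW D v q, hpk.tab.cov _ hp.1 hp, reflW_reverse_cancel hT v hv q hq⟩
    have inj := Cfsg.Agent.H70.Univ2.inj_of_goodL2 ρ hρc (xU hS) Y (TD D K) Cm
      ((convList D w).map (reflW D v.reverse)) hTl
      (fun g hg q hq => TD_act hP g hg q (hLlt q hq)) (fun q hq => hmap q (hLlt q hq))
      (fun q hq => hadd q (hLlt q hq)) (fun q hq => htor q (hLlt q hq))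
      (fun q _ q' _ hc => by rw [hCmdef] at hc; exact hc.2.2) hgood
    have hrL := hmemL r hr hrp
    have hsL := hmemL s hs hsp
    have hY : ∀ q ∈ (convList D w).map (reflW D v.reverse), ∀ a : K,
        Y q a ∈ GX Y ((convList D w).map (reflW D v.reverse)) :=
      fun q hq a => Subgroup.subset_closure ⟨q, a, hq, rfl⟩
    have hPm : wordB Y (D.commWord K r s t u) ∈ GX Y ((convList D w).map (reflW D v.reverse)) :=
      commWord_mem_XP Y (fun q => q ∈ (convList D w).map (reflW D v.reverse)) r s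
        (fun c hc => hmemL c.1 (hterms c hc).1 (hterms c hc).2) t u
    have hmem : (Y s u)⁻¹ * (Y r t)⁻¹ * Y s u * Y r t * (wordB Y (D.commWord K r s t u))⁻¹ ∈
        GX Y ((convList D w).map (reflW D v.reverse)) :=
      Subgroup.mul_mem _ (Subgroup.mul_mem _ (Subgroup.mul_mem _ (Subgroup.mul_mem _
        (Subgroup.inv_mem _ (hY s hsL u)) (Subgroup.inv_mem _ (hY r hrL t))) (hY s hsL u)) (hY r hrL t))
        (Subgroup.inv_mem _ hPm)
    have hw' : ∀ p ∈ D.commWord K r s t u, p.1 < D.nroots := by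
      intro p hp
      unfold ChevalleyDatum.commWord at hp
      obtain ⟨c, hc, rfl⟩ := List.mem_map.mp hp
      exact (hterms c hc).1
    have h1 : ρ ((Y s u)⁻¹ * (Y r t)⁻¹ * Y s u * Y r t * (wordB Y (D.commWord K r s t u))⁻¹) = 1 := by
      rw [map_mul, map_inv, map_wordB hpk ρ Y hmap _ hw', map_mul, map_mul, map_mul, map_inv, map_inv,
        hmap s hs, hmap r hr]
      have hg := hG r hr s hs hne hne' t u
      rw [mul_inv_eq_one, mul_assoc, mul_assoc, inv_mul_eq_iff_eq_mul, ← mul_assoc]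
      exact hg
    exact mul_inv_eq_one.mp (inj _ hmem h1)

end Rel

end Cfsg.Agent.H46
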