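import Cfsg.Agent.H46.UnivDefs
import Cfsg.Agent.H25.UnivField
import Cfsg.Agent.H56.UnivExt
import Cfsg.Agent.H24.UnivLift
import Cfsg.Agent.Helper55.UnivInj

set_option autoImplicit false

namespace Cfsg.Agent.H46.UnivAbs

open Cfsg.Agent.H46.Univ

section
variable {G E K ι : Type*} [Group G] [Group E] [Field K]

/-- P1: construction of the lift of one root subgroup. -/
theorem exists_lift (ρ : E →* G) (hc : ρ.ker ≤ Subgroup.center E) (x : K → G) (T : Set G)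
    (hx : ∀ t u : K, x (t + u) = x t * x u) (hxl : ∀ t : K, ∃ e : E, ρ e = x t)
    (h₀ : G) (hh₀ : ∃ e : E, ρ e = h₀) (a : K) (ha : a - 1 ≠ 0)
    (hact : ∀ t : K, h₀ * x t * h₀⁻¹ = x (a * t))
    (hcomm : ∀ g ∈ T, g * h₀ = h₀ * g) :
    ∃ y : K → E, (∀ t : K, ρ (y t) = x t) ∧
      (∀ (h : E) (χ : K), ρ h ∈ T → (∀ t : K, ρ h * x t * (ρ h)⁻¹ = x (χ * t)) →
        ∀ t : K, h * y t * h⁻¹ = y (χ * t)) ∧
      (∀ (h e : E) (t : K), ρ h = h₀ → ρ e = x t → h * e * h⁻¹ * e⁻¹ = y ((a - 1) * t)) := by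
  exact Cfsg.Agent.H24.Univ.exists_lift ρ hc x T hx hxl h₀ hh₀ a ha hact hcomm

/-- P2: additivity from commutativity. -/
theorem add_of_comm (ρ : E →* G) (x : K → G) (y : K → E)
    (hx : ∀ t u : K, x (t + u) = x t * x u) (hmap : ∀ t : K, ρ (y t) = x t)
    (h : E) (b : K) (hb : b ≠ 0)
    (hdef : ∀ (e : E) (t : K), ρ e = x t → h * e * h⁻¹ * e⁻¹ = y (b * t))
    (hcomm : ∀ t u : K, y t * y u = y u * y t) :
    ∀ t u : K, y (t + u) = y t * y u := by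
  exact Cfsg.Agent.H24.Univ.add_of_comm ρ x y hx hmap h b hb hdef hcomm

/-- P3: commutativity from two scalings. -/
theorem comm_of_scale (ρ : E →* G) (hc : ρ.ker ≤ Subgroup.center E) (x : K → G) (y : K → E)
    (hx : ∀ t u : K, x (t + u) = x t * x u) (hmap : ∀ t : K, ρ (y t) = x t)
    (h₁ h₂ : E) (v : K) (hv0 : v ≠ 0) (hv2 : v ^ 2 + v + 1 ≠ 0)
    (hs₁ : ∀ t : K, h₁ * y t * h₁⁻¹ = y (v * t)) (hs₂ : ∀ t : K, h₂ * y t * h₂⁻¹ = y ((v + 1) * t)) :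
    ∀ t u : K, y t * y u = y u * y t := by
  exact Cfsg.Agent.H24.Univ.comm_of_scale ρ hc x y hx hmap h₁ h₂ v hv0 hv2 hs₁ hs₂

/-- P3': commutativity from a commutator expression. -/
theorem comm_of_comm (ρ : E →* G) (hc : ρ.ker ≤ Subgroup.center E) (y : K → E)
    (H : ∀ a : K, ∃ b c d : E, (∀ s : K, ρ b * ρ (y s) = ρ (y s) * ρ b) ∧
      (∀ s : K, ρ c * ρ (y s) = ρ (y s) * ρ c) ∧ (∀ s : K, d * y s = y s * d) ∧
      ρ (b * c * b⁻¹ * c⁻¹) = ρ (d * y a)) :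
    ∀ s a : K, y s * y a = y a * y s := by
  exact Cfsg.Agent.H24.Univ.comm_of_comm ρ hc y H

/-- P4: commutation from a separating element. -/
theorem comm_of_sep (ρ : E →* G) (hc : ρ.ker ≤ Subgroup.center E) (e : E) (y : K → E)
    (hadd : ∀ t u : K, ρ (y (t + u)) = ρ (y t) * ρ (y u))
    (hcomm : ∀ u : K, ρ e * ρ (y u) = ρ (y u) * ρ e)
    (h : E) (c : K) (hc1 : c - 1 ≠ 0) (he : h * e * h⁻¹ = e) (hy : ∀ u : K, h * y u * h⁻¹ = y (c * u)) :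
    ∀ u : K, e * y u = y u * e := by
  exact Cfsg.Agent.H24.Univ.comm_of_sep ρ hc e y hadd hcomm h c hc1 he hy

/-- P5: injectivity on the group of a good list. -/
theorem inj_of_goodL (ρ : E →* G) (hc : ρ.ker ≤ Subgroup.center E)
    (x : ι → K → G) (y : ι → K → E) (T : Set G) (L : List ι)
    (hTlift : ∀ g ∈ T, ∃ e : E, ρ e = g)
    (hTact : ∀ g ∈ T, ∀ q ∈ L, ∃ χ : K, ∀ t : K, g * x q t * g⁻¹ = x q (χ * t))
    (hmap : ∀ q ∈ L, ∀ t : K, ρ (y q t) = x q t)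
    (hadd : ∀ q ∈ L, ∀ t u : K, y q (t + u) = y q t * y q u)
    (htor : ∀ q ∈ L, ∀ (h : E) (χ : K), ρ h ∈ T → (∀ t : K, ρ h * x q t * (ρ h)⁻¹ = x q (χ * t)) →
      ∀ t : K, h * y q t * h⁻¹ = y q (χ * t))
    (hL : GoodL x T L) :
    ∀ g ∈ GX y L, ρ g = 1 → g = 1 := by
  exact Cfsg.Agent.Helper55.Univ.inj_of_goodL ρ hc x y T L hTlift hTact hmap hadd htor hL

/-- P7: transport of good lists. -/
theorem goodL_map (x : ι → K → G) (T : Set G) (n : G) (f : ι → ι) (κ : ι → K) (L : List ι)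
    (hκ : ∀ q ∈ L, κ q ≠ 0)
    (hn : ∀ q ∈ L, ∀ t : K, n * x q t * n⁻¹ = x (f q) (κ q * t))
    (hT : ∀ g ∈ T, n * g * n⁻¹ ∈ T)
    (hL : GoodL x T L) : GoodL x T (L.map f) := by
  exact Cfsg.Agent.Helper55.Univ.goodL_map x T n f κ L hκ hn hT hL

end

/-- P6a. -/
theorem ker_comp_central {Δ G E : Type*} [Group Δ] [Group G] [Group E] (π : Δ →* G)
    (hπ : π.ker ≤ Subgroup.center Δ) (ψ : E →* Δ) (hψs : Function.Surjective ψ)
    (hψ : ψ.ker ≤ Subgroup.center E) (hperf : commutator Δ = ⊤) :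
    (π.comp ψ).ker ≤ Subgroup.center E := by
  exact Cfsg.Agent.H56.Univ.ker_comp_central π hπ ψ hψs hψ hperf

/-- P6b. -/
theorem lift_unique {Δ G₁ E : Type*} [Group Δ] [Group G₁] [Group E] (hperf : commutator Δ = ⊤)
    (π₁ : E →* G₁) (hπ₁ : π₁.ker ≤ Subgroup.center E) (τ τ' : Δ →* E) (h : π₁.comp τ = π₁.comp τ') :
    τ = τ' := by
  exact Cfsg.Agent.H56.Univ.lift_unique hperf π₁ hπ₁ τ τ' h

universe u v w

/-- P6c. -/
theorem lift_of_split {Δ : Type u} {E : Type v} {G₁ : Type w} [Group Δ] [Group E] [Group G₁]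
    (hsplit : ∀ (E' : Type (max u v)) [Group E'] (ψ : E' →* Δ), Function.Surjective ψ →
      ψ.ker ≤ Subgroup.center E' → ∃ θ : Δ →* E', ψ.comp θ = MonoidHom.id Δ)
    (π₁ : E →* G₁) (hπs : Function.Surjective π₁) (hπ₁ : π₁.ker ≤ Subgroup.center E) (σ : Δ →* G₁) :
    ∃ τ : Δ →* E, π₁.comp τ = σ := by
  exact Cfsg.Agent.H56.Univ.lift_of_split hsplit π₁ hπs hπ₁ σ

/-- Field elements. -/
theorem exists_field_elts {K : Type*} [Field K] (hK : ∃ s : Finset K, 4 < s.card) :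
    (∃ v : K, v ≠ 0 ∧ v ^ 2 - 1 ≠ 0) ∧ (∃ v : K, v ≠ 0 ∧ v ^ 3 - 1 ≠ 0) ∧
      (∃ v : K, v ≠ 0 ∧ v + 1 ≠ 0 ∧ v ^ 2 + v + 1 ≠ 0) := by
  exact Cfsg.Agent.H25.Univ.exists_field_elts hK

end Cfsg.Agent.H46.UnivAbs
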