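import Cfsg.Agent.H46.UnivMain

set_option autoImplicit false

/-!
# Boolean checkers for the table facts on the exponents of the torus elements
-/

namespace Cfsg.Agent.H46

open Cfsg.Lie Cfsg.Agent.H23

/-- The condition on a pair of exponents. -/
def zPairOK (a b : ℤ) : Bool := decide (a = 0) || (decide (1 ≤ a * b) && decide (a * b ≤ 3))

theorem zPairOK_sound {a b : ℤ} (h : zPairOK a b = true) : a = 0 ∨ (1 ≤ a * b ∧ a * b ≤ 3) := by
  unfold zPairOK at h
  rw [Bool.or_eq_true, Bool.and_eq_true] at h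
  rcases h with h | ⟨h1, h2⟩
  · exact Or.inl (of_decide_eq_true h)
  · exact Or.inr ⟨of_decide_eq_true h1, of_decide_eq_true h2⟩

/-- The pair condition for one root against a range of roots. -/
def zPairRow (z : ℕ → ℕ → ℤ) (lo k e : ℕ) : Bool :=
  allFrom (fun e' => Nat.beq e' e || zPairOK (z e' e) (z e e')) lo k

theorem zPairRow_sound {z : ℕ → ℕ → ℤ} {lo k e : ℕ} (h : zPairRow z lo k e = true) (e' : ℕ)
    (h1 : lo ≤ e') (h2 : e' < lo + k) (hne : e' ≠ e) :
    z e' e = 0 ∨ (1 ≤ z e' e * z e e' ∧ z e' e * z e e' ≤ 3) := by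
  have h3 := allFrom_sound _ lo k h e' h1 h2
  rw [Bool.or_eq_true] at h3
  rcases h3 with h3 | h3
  · exact absurd (Nat.eq_of_beq_eq_true h3) hne
  · exact zPairOK_sound h3

/-- Search for a root with exponent `±1`. -/
def zUnitAny (z : ℕ → ℕ → ℤ) (q : ℕ) : ℕ → Bool
  | 0 => false
  | n + 1 => decide (z n q = 1) || (decide (z n q = -1) || zUnitAny z q n)

theorem zUnitAny_sound (z : ℕ → ℕ → ℤ) (q : ℕ) : ∀ n, zUnitAny z q n = true →
    ∃ γ < n, z γ q = 1 ∨ z γ q = -1
  | 0, h => by simp [zUnitAny] at h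
  | n + 1, h => by
    rw [zUnitAny, Bool.or_eq_true, Bool.or_eq_true] at h
    rcases h with h | h | h
    · exact ⟨n, Nat.lt_succ_self n, Or.inl (of_decide_eq_true h)⟩
    · exact ⟨n, Nat.lt_succ_self n, Or.inr (of_decide_eq_true h)⟩
    · obtain ⟨γ, hγ, h'⟩ := zUnitAny_sound z q n h
      exact ⟨γ, Nat.lt_succ_of_lt hγ, h'⟩

/-- The table facts from the Boolean checks. -/
theorem zTab_of_chk (D : ChevalleyDatum) (z : ℕ → ℕ → ℤ)
    (hHalf : ∀ r < D.nroots, D.IsPosRoot r ↔ D.nroots / 2 ≤ r)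
    (h1 : allFrom (fun e => decide (z e e = 2)) 0 D.nroots = true)
    (h2 : ∀ e, D.nroots / 2 ≤ e → e < D.nroots →
      zPairRow z (D.nroots / 2) (D.nroots - D.nroots / 2) e = true)
    (h3 : ∀ q < D.nroots, zUnitAny z q D.nroots = true ∨ PCert D z q) : ZTab D z := by
  refine ⟨?_, ?_, ?_⟩
  · intro e he
    exact of_decide_eq_true (allFrom_sound _ 0 D.nroots h1 e (Nat.zero_le _) (by omega))
  · intro e he e' he' hp hp' hne
    have hp1 := (hHalf e he).mp hp
    have hp2 := (hHalf e' he').mp hp'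
    exact zPairRow_sound (h2 e hp1 he) e' hp2 (by omega) hne
  · intro q hq
    rcases h3 q hq with h | h
    · exact Or.inl (zUnitAny_sound z q D.nroots h)
    · exact Or.inr h

end Cfsg.Agent.H46
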