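import Cfsg.Agent.H23.CommAllTab
import Cfsg.Agent.H23.UProdTab
import Cfsg.Agent.H46.UnivChk
import Cfsg.Agent.H46.UnivSplit

set_option autoImplicit false
set_option maxRecDepth 100000

/-!
# The table inputs of the splitting theorem, type E7
-/

namespace Cfsg.Agent.H46

open Cfsg.Lie Cfsg.Agent.H23

/-- Pairs of roots of type E7 can be moved to positive roots. -/
theorem posP_E7 (r : ℕ) (hr : r < chevE7.nroots) (s : ℕ) (hs : s < chevE7.nroots) (hne : s ≠ r)
    (hne' : s ≠ chevE7.neg r) : PosP chevE7 r s := by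
  refine posP_all tabT_E7 commTA_E7 tabC_E7 w0E7 tabW_E7 ?_ r s hr hs hne hne'
  intro i hi
  obtain ⟨j, hj, e⟩ := tabW0_E7 i hi
  refine ⟨j, hj, ?_⟩
  rw [reflW_eq tabT_E7 _ (fun a ha => tabW_E7.lt a (List.mem_reverse.mp ha)) _ (tabT_E7.simple_lt i hi)]
  exact e

theorem zSelf_E7 : allFrom (fun e => decide (zR chevE7 ctblE7 e e = 2)) 0 chevE7.nroots = true := by
  decide +kernel

theorem zPair_E7_0 : allFrom (fun e => zPairRow (zR chevE7 ctblE7) (chevE7.nroots / 2)
    (chevE7.nroots - chevE7.nroots / 2) e) 63 32 = true := by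
  decide +kernel

theorem zPair_E7_1 : allFrom (fun e => zPairRow (zR chevE7 ctblE7) (chevE7.nroots / 2)
    (chevE7.nroots - chevE7.nroots / 2) e) 95 31 = true := by
  decide +kernel

theorem zPair_E7 (e : ℕ) (h1 : chevE7.nroots / 2 ≤ e) (h2 : e < chevE7.nroots) :
    zPairRow (zR chevE7 ctblE7) (chevE7.nroots / 2) (chevE7.nroots - chevE7.nroots / 2) e = true := by
  have h1' : 63 ≤ e := h1
  have h2' : e < 126 := h2
  by_cases hc0 : e < 95
  · exact allFrom_sound _ _ _ zPair_E7_0 e (by omega) (by omega)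
  exact allFrom_sound _ _ _ zPair_E7_1 e (by omega) (by omega)

theorem zUnit_E7 : allFrom (fun q => zUnitAny (zR chevE7 ctblE7) q chevE7.nroots) 0 chevE7.nroots = true := by
  decide +kernel

/-- The table facts on the exponents, type E7. -/
theorem zTab_E7 : ZTab chevE7 (zR chevE7 ctblE7) :=
  zTab_of_chk _ _ tabHalf_E7 zSelf_E7 zPair_E7
    (fun q hq => Or.inl (allFrom_sound _ 0 _ zUnit_E7 q (Nat.zero_le _) (by omega)))

end Cfsg.Agent.H46
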