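import Cfsg.Agent.H23.CommAllTab
import Cfsg.Agent.H23.UProdTab
import Cfsg.Agent.H46.UnivChk
import Cfsg.Agent.H46.UnivSplit

set_option autoImplicit false
set_option maxRecDepth 100000

/-!
# The table inputs of the splitting theorem, type E8
-/

namespace Cfsg.Agent.H46

open Cfsg.Lie Cfsg.Agent.H23

/-- Pairs of roots of type E8 can be moved to positive roots. -/
theorem posP_E8 (r : ℕ) (hr : r < chevE8.nroots) (s : ℕ) (hs : s < chevE8.nroots) (hne : s ≠ r)
    (hne' : s ≠ chevE8.neg r) : PosP chevE8 r s := by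
  refine posP_all tabT_E8 commTA_E8 tabC_E8 w0E8 tabW_E8 ?_ r s hr hs hne hne'
  intro i hi
  obtain ⟨j, hj, e⟩ := tabW0_E8 i hi
  refine ⟨j, hj, ?_⟩
  rw [reflW_eq tabT_E8 _ (fun a ha => tabW_E8.lt a (List.mem_reverse.mp ha)) _ (tabT_E8.simple_lt i hi)]
  exact e

theorem zSelf_E8 : allFrom (fun e => decide (zR chevE8 ctblE8 e e = 2)) 0 chevE8.nroots = true := by
  decide +kernel

theorem zPair_E8_0 : allFrom (fun e => zPairRow (zR chevE8 ctblE8) (chevE8.nroots / 2)
    (chevE8.nroots - chevE8.nroots / 2) e) 120 20 = true := by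
  decide +kernel

theorem zPair_E8_1 : allFrom (fun e => zPairRow (zR chevE8 ctblE8) (chevE8.nroots / 2)
    (chevE8.nroots - chevE8.nroots / 2) e) 140 20 = true := by
  decide +kernel

theorem zPair_E8_2 : allFrom (fun e => zPairRow (zR chevE8 ctblE8) (chevE8.nroots / 2)
    (chevE8.nroots - chevE8.nroots / 2) e) 160 20 = true := by
  decide +kernel

theorem zPair_E8_3 : allFrom (fun e => zPairRow (zR chevE8 ctblE8) (chevE8.nroots / 2)
    (chevE8.nroots - chevE8.nroots / 2) e) 180 20 = true := by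
  decide +kernel

theorem zPair_E8_4 : allFrom (fun e => zPairRow (zR chevE8 ctblE8) (chevE8.nroots / 2)
    (chevE8.nroots - chevE8.nroots / 2) e) 200 20 = true := by
  decide +kernel

theorem zPair_E8_5 : allFrom (fun e => zPairRow (zR chevE8 ctblE8) (chevE8.nroots / 2)
    (chevE8.nroots - chevE8.nroots / 2) e) 220 20 = true := by
  decide +kernel

theorem zPair_E8 (e : ℕ) (h1 : chevE8.nroots / 2 ≤ e) (h2 : e < chevE8.nroots) :
    zPairRow (zR chevE8 ctblE8) (chevE8.nroots / 2) (chevE8.nroots - chevE8.nroots / 2) e = true := by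
  have h1' : 120 ≤ e := h1
  have h2' : e < 240 := h2
  by_cases hc0 : e < 140
  · exact allFrom_sound _ _ _ zPair_E8_0 e (by omega) (by omega)
  by_cases hc1 : e < 160
  · exact allFrom_sound _ _ _ zPair_E8_1 e (by omega) (by omega)
  by_cases hc2 : e < 180
  · exact allFrom_sound _ _ _ zPair_E8_2 e (by omega) (by omega)
  by_cases hc3 : e < 200
  · exact allFrom_sound _ _ _ zPair_E8_3 e (by omega) (by omega)
  by_cases hc4 : e < 220
  · exact allFrom_sound _ _ _ zPair_E8_4 e (by omega) (by omega)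
  exact allFrom_sound _ _ _ zPair_E8_5 e (by omega) (by omega)

theorem zUnit_E8 : allFrom (fun q => zUnitAny (zR chevE8 ctblE8) q chevE8.nroots) 0 chevE8.nroots = true := by
  decide +kernel

/-- The table facts on the exponents, type E8. -/
theorem zTab_E8 : ZTab chevE8 (zR chevE8 ctblE8) :=
  zTab_of_chk _ _ tabHalf_E8 zSelf_E8 zPair_E8
    (fun q hq => Or.inl (allFrom_sound _ 0 _ zUnit_E8 q (Nat.zero_le _) (by omega)))

end Cfsg.Agent.H46
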