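import Cfsg.Agent.H46.UnivTabS
import Cfsg.Agent.H46.UnivTabE7
import Cfsg.Agent.H46.UnivTabE8
import Cfsg.Agent.S1025

set_option autoImplicit false

/-!
# Central extensions of the group presented by (R1), (R2) split (fields with more than four elements)
-/

namespace Cfsg.Agent.H46

open Cfsg.Lie Cfsg.Agent.H23

/-- Over a field with more than four elements the group presented by (R1), (R2) is perfect and each of its
central extensions splits. -/
theorem cover_split_all {K : Type*} [Field K] (hK : ∃ s : Finset K, 4 < s.card) (D : ChevalleyDatum)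
    (hD : D ∈ [chevG2, chevB2, chevD4, chevF4, chevE6, chevE7, chevE8])
    {E : Type*} [Group E] (ψ : E →* D.SteinbergCover K) (hψs : Function.Surjective ψ)
    (hψ : ψ.ker ≤ Subgroup.center E) :
    (commutator (D.SteinbergCover K) = ⊤) ∧
      ∃ θ : D.SteinbergCover K →* E, ψ.comp θ = MonoidHom.id (D.SteinbergCover K) := by
  have hC : CommMat D K := fun r s hr hs h1 h2 t u => Cfsg.Agent.S1025.result D hD r s hr hs h1 h2 t u
  simp only [List.mem_cons, List.not_mem_nil, or_false] at hD
  rcases hD with rfl | rfl | rfl | rfl | rfl | rfl | rfl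
  · exact cover_split (packSt_G2 K) hC hK posP_G2 zTab_G2 ψ hψs hψ
  · exact cover_split (packSt_B2 K) hC hK posP_B2 zTab_B2 ψ hψs hψ
  · exact cover_split (packSt_D4 K) hC hK posP_D4 zTab_D4 ψ hψs hψ
  · exact cover_split (packSt_F4 K) hC hK posP_F4 zTab_F4 ψ hψs hψ
  · exact cover_split (packSt_E6 K) hC hK posP_E6 zTab_E6 ψ hψs hψ
  · exact cover_split (packSt_E7 K) hC hK posP_E7 zTab_E7 ψ hψs hψ
  · exact cover_split (packSt_E8 K) hC hK posP_E8 zTab_E8 ψ hψs hψ

/-- The group presented by (R1), (R2) is perfect (fields with more than four elements). -/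
theorem cover_perfect_all {K : Type*} [Field K] (hK : ∃ s : Finset K, 4 < s.card) (D : ChevalleyDatum)
    (hD : D ∈ [chevG2, chevB2, chevD4, chevF4, chevE6, chevE7, chevE8]) :
    commutator (D.SteinbergCover K) = ⊤ :=
  (cover_split_all hK D hD (MonoidHom.id (D.SteinbergCover K)) Function.surjective_id
    (fun g hg => by
      have h1 : g = 1 := hg
      rw [h1]; exact Subgroup.one_mem _)).1

end Cfsg.Agent.H46
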