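import Cfsg.Agent.H46.StAll
import Cfsg.Agent.H46.UnivDefs
import Cfsg.Agent.H23.CommAll2
import Cfsg.Agent.H23.Conj

set_option autoImplicit false
set_option linter.unusedSectionVars false

/-!
# The Chevalley side of the universality of the group presented by (R1), (R2)

* `PosP`: for every pair of roots `s ≠ ±r` some element of the Weyl group makes `r`, `s` and all the roots of
  their commutator formula positive (from helper23's compatibility table of the commutator terms with the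
  fundamental reflections).
* the diagonal subgroup as a commutative set of elements acting on the root subgroups by scalars;
* separating torus elements from the integers `z r s`;
* the list of the positive roots in a convex order, and its images under the Weyl group, are good lists.
-/

namespace Cfsg.Agent.H46

open Cfsg.Lie Cfsg.Agent.H23 Cfsg.Agent.H46.Univ

variable {D : ChevalleyDatum}

/-! ### Positivity -/

/-- Some Weyl group element makes `r`, `s` and the roots of their commutator formula positive. -/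
def PosP (D : ChevalleyDatum) (r s : ℕ) : Prop :=
  ∃ w : List ℕ, (∀ i ∈ w, i < D.rank) ∧ D.IsPosRoot (reflW D w r) ∧ D.IsPosRoot (reflW D w s) ∧
    ∀ c ∈ D.commTerms r s, c.1 < D.nroots ∧ D.IsPosRoot (reflW D w c.1)

theorem posP_transfer {rT eta : List ℕ} (hTT : TabT D rT) (k : ℕ) (hk : k < D.rank) (r s : ℕ)
    (hr : r < D.nroots) (hs : s < D.nroots) (hne : s ≠ r) (hne' : s ≠ D.neg r)
    (hT : commT D (rT.getD k 0) (eta.getD k 0) r s = true)
    (h : PosP D (D.reflectRoot k r) (D.reflectRoot k s)) : PosP D r s := by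
  obtain ⟨w, hw, h1, h2, h3⟩ := h
  have hb1 : Nat.beq s r = false := by
    rw [← Bool.not_eq_true]; intro hb; exact hne (Nat.eq_of_beq_eq_true hb)
  have hb2 : Nat.beq s (D.neg r) = false := by
    rw [← Bool.not_eq_true]; intro hb; exact hne' (Nat.eq_of_beq_eq_true hb)
  unfold commT at hT
  rw [hb1, hb2, Bool.false_or, Bool.false_or, Bool.and_eq_true] at hT
  obtain ⟨hall, hbeq⟩ := hT
  have heq := termsBeq_eq _ _ hbeq
  rw [← hTT.refl_eq k hk r hr, ← hTT.refl_eq k hk s hs] at heq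
  have hlt : ∀ c ∈ D.commTerms r s, c.1 < D.nroots := by
    intro c hc
    have h4 := List.all_eq_true.mp hall c hc
    simpa using h4
  refine ⟨w ++ [k], ?_, ?_, ?_, ?_⟩
  · intro i hi
    rcases List.mem_append.mp hi with h | h
    · exact hw i h
    · rw [List.mem_singleton] at h; rw [h]; exact hk
  · rw [reflW_append]; exact h1
  · rw [reflW_append]; exact h2
  · intro c hc
    refine ⟨hlt c hc, ?_⟩
    rw [reflW_append]
    have hmem : (rlk (rT.getD k 0) c.1, Int.mul (Int.mul (Int.mul (etaBit (eta.getD k 0) c.1) c.2.1)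
        (Int.pow (etaBit (eta.getD k 0) r) c.2.2.1)) (Int.pow (etaBit (eta.getD k 0) s) c.2.2.2), c.2.2.1, c.2.2.2) ∈
        D.commTerms (D.reflectRoot k r) (D.reflectRoot k s) := by
      rw [heq]
      unfold commTermsT
      exact List.mem_map_of_mem hc
    have h5 := (h3 _ hmem).2
    rw [← hTT.refl_eq k hk c.1 (hlt c hc)] at h5
    exact h5

theorem posP_simple (hT : Tab D) (hTC : TabC D) (i : ℕ) (hi : i < D.rank) (s : ℕ) (hs : s < D.nroots)
    (hp : D.IsPosRoot s) (hne : s ≠ D.simple i) :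
    PosP D (D.simple i) s ∧ PosP D (D.neg (D.simple i)) s := by
  obtain ⟨h1, h2⟩ := hTC.terms i hi s hs hp hne
  constructor
  · exact ⟨[], by simp, hT.simple_pos i hi, hp, fun c hc => ⟨(h1 c hc).1.1, (h1 c hc).1⟩⟩
  · refine ⟨[i], by simpa using hi, ?_, ?_, ?_⟩
    · show D.IsPosRoot (D.reflectRoot i (D.neg (D.simple i)))
      rw [hT.refl_neg i hi _ (hT.simple_lt i hi), reflectRoot_simple, hT.neg_neg _ (hT.simple_lt i hi)]
      exact hT.simple_pos i hi
    · exact (hT.refl_pos i hi s hs hp hne).1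
    · intro c hc
      obtain ⟨hc1, hc2, -⟩ := h2 c hc
      exact ⟨hc1.1, (hT.refl_pos i hi c.1 hc1.1 hc1 hc2).1⟩

theorem posP_of_reflW {rT eta : List ℕ} (hTT : TabT D rT) (hA : CommTA D rT eta) (w : List ℕ)
    (hw : ∀ i ∈ w, i < D.rank) (r s : ℕ) (hr : r < D.nroots) (hs : s < D.nroots) (hne : s ≠ r)
    (hne' : s ≠ D.neg r) (h : PosP D (reflW D w r) (reflW D w s)) : PosP D r s := by
  have hT := hTT.tab
  induction w with
  | nil => exact h
  | cons i w ih =>
    have hw' : ∀ j ∈ w, j < D.rank := fun j hj => hw j (List.mem_cons_of_mem _ hj)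
    have hi := hw i (List.mem_cons_self ..)
    have hr' := reflW_lt hT w hw' r hr
    have hs' := reflW_lt hT w hw' s hs
    have h1 : reflW D w s ≠ reflW D w r := fun e => hne (reflW_inj hT w hw' s r hs hr e)
    have h2 : reflW D w s ≠ D.neg (reflW D w r) := by
      rw [← reflW_neg hT w hw' r hr]
      exact fun e => hne' (reflW_inj hT w hw' s _ hs (hT.neg_lt r hr) e)
    exact ih hw' (posP_transfer hTT i hi _ _ hr' hs' h1 h2 (hA i hi _ hr' _ hs') h)

theorem posP_simple' {rT eta : List ℕ} (hTT : TabT D rT) (hA : CommTA D rT eta) (hTC : TabC D) (w0 : List ℕ)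
    (hW : TabW D w0)
    (hW0 : ∀ i < D.rank, ∃ j < D.rank, reflW D w0.reverse (D.simple i) = D.neg (D.simple j))
    (i : ℕ) (hi : i < D.rank) (s : ℕ) (hs : s < D.nroots) (hne : s ≠ D.simple i)
    (hne' : s ≠ D.neg (D.simple i)) : PosP D (D.simple i) s ∧ PosP D (D.neg (D.simple i)) s := by
  have hT := hTT.tab
  rcases pos_or_neg hT s hs with hp | hn
  · exact posP_simple hT hTC i hi s hs hp hne
  · have hwr : ∀ i ∈ w0.reverse, i < D.rank := fun i hi => hW.lt i (List.mem_reverse.mp hi)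
    obtain ⟨j, hj, e⟩ := hW0 i hi
    have hpi := hT.simple_lt i hi
    have hpj := hT.simple_lt j hj
    have hs' := reflW_lt hT w0.reverse hwr s hs
    have hsp := hW.pos s hs hn
    have e' : reflW D w0.reverse (D.neg (D.simple i)) = D.simple j := by
      rw [reflW_neg hT _ hwr _ hpi, e, hT.neg_neg _ hpj]
    have h1 : reflW D w0.reverse s ≠ D.simple j := by
      rw [← e']
      exact fun h => hne' (reflW_inj hT _ hwr s _ hs (hT.neg_lt _ hpi) h)
    have hb := posP_simple hT hTC j hj _ hs' hsp h1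
    constructor
    · apply posP_of_reflW hTT hA w0.reverse hwr _ _ hpi hs hne hne'
      rw [e]
      exact hb.2
    · apply posP_of_reflW hTT hA w0.reverse hwr _ _ (hT.neg_lt _ hpi) hs hne'
        (by rw [hT.neg_neg _ hpi]; exact hne)
      rw [e']
      exact hb.1

/-- Every pair of roots `s ≠ ±r` can be made positive together with the roots of its commutator formula. -/
theorem posP_all {rT eta : List ℕ} (hTT : TabT D rT) (hA : CommTA D rT eta) (hTC : TabC D) (w0 : List ℕ)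
    (hW : TabW D w0)
    (hW0 : ∀ i < D.rank, ∃ j < D.rank, reflW D w0.reverse (D.simple i) = D.neg (D.simple j))
    (r s : ℕ) (hr : r < D.nroots) (hs : s < D.nroots) (hne : s ≠ r) (hne' : s ≠ D.neg r) : PosP D r s := by
  have hT := hTT.tab
  obtain ⟨v, hv, j, hj, e⟩ := exists_word_to_simple hT r hr
  have hs' := reflW_lt hT v hv s hs
  have h1 : reflW D v s ≠ D.simple j := by
    rw [← e]; exact fun h => hne (reflW_inj hT v hv s r hs hr h)
  have h2 : reflW D v s ≠ D.neg (D.simple j) := by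
    rw [← e, ← reflW_neg hT v hv r hr]
    exact fun h => hne' (reflW_inj hT v hv s _ hs (hT.neg_lt r hr) h)
  apply posP_of_reflW hTT hA v hv r s hr hs hne hne'
  rw [e]
  exact (posP_simple' hTT hA hTC w0 hW hW0 j hj _ hs' h1 h2).1

/-! ### The torus -/

section Torus

variable {K : Type*} [Field K] {z η : ℕ → ℕ → ℤ}

/-- The diagonal subgroup as a set. -/
def TD (D : ChevalleyDatum) (K : Type*) [Field K] : Set (GL D.Idx K) := (D.diagonalSubgroup K : Set (GL D.Idx K))

theorem TD_comm (hP : PackB D K z η) : ∀ g ∈ TD D K, ∀ g' ∈ TD D K, g * g' = g' * g :=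
  fun g hg g' hg' => diag_commute hP.sem hP.tab g g' hg hg'

theorem TD_act (hP : PackB D K z η) (g : GL D.Idx K) (hg : g ∈ TD D K) (q : ℕ) (hq : q < D.nroots) :
    ∃ χ : K, ∀ t : K, g * xU hP.sem q t * g⁻¹ = xU hP.sem q (χ * t) := by
  obtain ⟨χ, hχ⟩ := diagonal_le_torus hP.sem hP.tab hg
  exact ⟨χ q, fun t => isTorus_conj hP.sem χ g hχ q hq t⟩

theorem TD_conj (hP : PackB D K z η) (v : List ℕ) (hv : ∀ i ∈ v, i < D.rank) (g : GL D.Idx K)
    (hg : g ∈ TD D K) : nWU hP.sem v * g * (nWU hP.sem v)⁻¹ ∈ TD D K := by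
  have h1 := monomial_le_normalizer_diag hP.sem hP.semN hP.tab hP.etaNeg (nWU_mem hP.sem hP.tab v hv)
  exact (Subgroup.mem_normalizer_iff.mp h1 g).mp hg

theorem TD_le_group (hP : PackB D K z η) (g : GL D.Idx K) (hg : g ∈ TD D K) : g ∈ D.group K :=
  diagonal_le_group hP.sem hg

/-- A torus element centralizing `X_e` and acting on `X_{e'}` by a scalar `c` with `c - 1 ≠ 0`. -/
theorem sep_of_z_aux (hP : PackB D K z η) (e e' : ℕ) (he : e < D.nroots) (he' : e' < D.nroots)
    (h2 : z e e = 2) (h2' : z e' e' = 2) (v : K) (hv : v ≠ 0)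
    (hc : v ^ (z e' e * z e e' - 4) - 1 ≠ 0) :
    ∃ h ∈ TD D K, ∃ c : K, c - 1 ≠ 0 ∧ (∀ t : K, h * xU hP.sem e t * h⁻¹ = xU hP.sem e t) ∧
      (∀ u : K, h * xU hP.sem e' u * h⁻¹ = xU hP.sem e' (c * u)) := by
  have hS := hP.sem
  have ha : v ^ (z e' e) ≠ 0 := zpow_ne_zero _ hv
  have hb : v ^ (-2 : ℤ) ≠ 0 := zpow_ne_zero _ hv
  have key : ∀ (q : ℕ), q < D.nroots → ∀ t : K,
      (hU hS e (v ^ (z e' e)) * hU hS e' (v ^ (-2 : ℤ))) * xU hS q t *
        (hU hS e (v ^ (z e' e)) * hU hS e' (v ^ (-2 : ℤ)))⁻¹ =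
      xU hS q (v ^ (z e' e * z e q + (-2) * z e' q) * t) := by
    intro q hq t
    have e1 : (hU hS e (v ^ (z e' e)) * hU hS e' (v ^ (-2 : ℤ))) * xU hS q t *
        (hU hS e (v ^ (z e' e)) * hU hS e' (v ^ (-2 : ℤ)))⁻¹ =
        hU hS e (v ^ (z e' e)) * (hU hS e' (v ^ (-2 : ℤ)) * xU hS q t * (hU hS e' (v ^ (-2 : ℤ)))⁻¹) *
          (hU hS e (v ^ (z e' e)))⁻¹ := by group
    rw [e1, hU_conj hS e' he' _ hb q hq, hU_conj hS e he _ ha q hq]
    congr 1
    rw [← mul_assoc, ← zpow_mul, ← zpow_mul, ← zpow_add₀ hv]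
  refine ⟨hU hS e (v ^ (z e' e)) * hU hS e' (v ^ (-2 : ℤ)),
    Subgroup.mul_mem _ (hU_mem_diag hS e he _ ha) (hU_mem_diag hS e' he' _ hb),
    v ^ (z e' e * z e e' - 4), hc, ?_, ?_⟩
  · intro t
    rw [key e he t, h2]
    have : z e' e * 2 + -2 * z e' e = 0 := by ring
    rw [this, zpow_zero, one_mul]
  · intro u
    rw [key e' he' u, h2']
    have : z e' e * z e e' + -2 * 2 = z e' e * z e e' - 4 := by ring
    rw [this]

theorem sep_of_z (hP : PackB D K z η) (e e' : ℕ) (he : e < D.nroots) (he' : e' < D.nroots)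
    (h2 : z e e = 2) (h2' : z e' e' = 2)
    (hz : z e' e = 0 ∨ (1 ≤ z e' e * z e e' ∧ z e' e * z e e' ≤ 3))
    (v2 : K) (hv2 : v2 ≠ 0) (hv2' : v2 ^ 2 - 1 ≠ 0) (v3 : K) (hv3 : v3 ≠ 0) (hv3' : v3 ^ 3 - 1 ≠ 0) :
    ∃ h ∈ TD D K, ∃ c : K, c - 1 ≠ 0 ∧ (∀ t : K, h * xU hP.sem e t * h⁻¹ = xU hP.sem e t) ∧
      (∀ u : K, h * xU hP.sem e' u * h⁻¹ = xU hP.sem e' (c * u)) := by
  have hS := hP.sem
  rcases hz with hz | ⟨hz1, hz2⟩
  · refine ⟨hU hS e' v2, hU_mem_diag hS e' he' v2 hv2, v2 ^ 2, hv2', ?_, ?_⟩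
    · intro t
      rw [hU_conj hS e' he' v2 hv2 e he, hz, zpow_zero, one_mul]
    · intro u
      rw [hU_conj hS e' he' v2 hv2 e' he', h2', show (2 : ℤ) = ((2 : ℕ) : ℤ) by norm_num, zpow_natCast]
  · have hm : z e' e * z e e' = 1 ∨ z e' e * z e e' = 2 ∨ z e' e * z e e' = 3 := by omega
    rcases hm with hm | hm | hm
    · apply sep_of_z_aux hP e e' he he' h2 h2' v3 hv3
      rw [hm]
      intro h
      apply hv3'
      have h1 : v3 ^ ((1 : ℤ) - 4) = (v3 ^ 3)⁻¹ := by
        rw [show ((1 : ℤ) - 4) = -((3 : ℕ) : ℤ) by norm_num, zpow_neg, zpow_natCast]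
      rw [h1, sub_eq_zero, inv_eq_one] at h
      rw [h, sub_self]
    · apply sep_of_z_aux hP e e' he he' h2 h2' v2 hv2
      rw [hm]
      intro h
      apply hv2'
      have h1 : v2 ^ ((2 : ℤ) - 4) = (v2 ^ 2)⁻¹ := by
        rw [show ((2 : ℤ) - 4) = -((2 : ℕ) : ℤ) by norm_num, zpow_neg, zpow_natCast]
      rw [h1, sub_eq_zero, inv_eq_one] at h
      rw [h, sub_self]
    · apply sep_of_z_aux hP e e' he he' h2 h2' v2 hv2
      rw [hm]
      intro h
      apply hv2'
      have h1 : v2 ^ ((3 : ℤ) - 4) = v2⁻¹ := by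
        rw [show ((3 : ℤ) - 4) = -1 by norm_num, zpow_neg_one]
      rw [h1, sub_eq_zero, inv_eq_one] at h
      rw [h]; ring

/-! ### Good lists -/

theorem GX_eq_GXL (hS : Sem D K z) (L : List ℕ) : GX (xU hS) L = GXL hS L := rfl

/-- A list of positive roots with the chain condition and separation is good. -/
theorem goodL_of_chain (hP : PackB D K z η)
    (hG : ∀ r < D.nroots, ∀ s < D.nroots, s ≠ r → s ≠ D.neg r → GoodPair hP.sem r s)
    (hsep : ∀ e < D.nroots, ∀ e' < D.nroots, D.IsPosRoot e → D.IsPosRoot e' → e' ≠ e →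
      ∃ h ∈ TD D K, ∃ c : K, c - 1 ≠ 0 ∧ (∀ t : K, h * xU hP.sem e t * h⁻¹ = xU hP.sem e t) ∧
        (∀ u : K, h * xU hP.sem e' u * h⁻¹ = xU hP.sem e' (c * u))) :
    ∀ L : List ℕ, chainOK D L = true → SepG hP.sem L → (∀ r ∈ L, D.IsPosRoot r) →
      GoodL (xU hP.sem) (TD D K) L := by
  have hS := hP.sem
  intro L
  induction L with
  | nil => intro _ _ _; trivial
  | cons e L ih =>
    intro hc hsp hpos
    obtain ⟨he, h2, hcL⟩ := chainOK_cons hc
    refine ⟨?_, ?_, ?_, ih hcL hsp.2 (fun r hr => hpos r (List.mem_cons_of_mem _ hr))⟩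
    · intro e' he' t u
      obtain ⟨h1, h3, h4, h5⟩ := h2 e' he'
      have hg := hG e he e' h1 h3 h4 (-t) u
      have e1 : xU hS e t * xU hS e' u * (xU hS e t)⁻¹ = (xU hS e (-t))⁻¹ * xU hS e' u * xU hS e (-t) := by
        rw [xU_inv, xU_inv, neg_neg]
      rw [e1, hg]
      apply Subgroup.mul_mem
      · exact Subgroup.subset_closure ⟨e', u, he', rfl⟩
      · apply wordU_mem hS
        intro p hp
        unfold ChevalleyDatum.commWord at hp
        obtain ⟨c, hc', rfl⟩ := List.mem_map.mp hp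
        exact Subgroup.subset_closure ⟨c.1, _, h5 c hc', rfl⟩
    · exact hsp.1
    · intro e' he'
      obtain ⟨h1, h3, -, -⟩ := h2 e' he'
      exact hsep e he e' h1 (hpos e (List.mem_cons_self ..)) (hpos e' (List.mem_cons_of_mem _ he')) h3

end Torus

end Cfsg.Agent.H46
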