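import Cfsg.Agent.H46.UnivG
import Cfsg.Agent.H46.UnivAbs
import Cfsg.Agent.H46.StEquiv

set_option autoImplicit false
set_option linter.unusedSectionVars false

/-!
# Central extensions of the group presented by (R1), (R2) split (fields with more than four elements)

Steinberg's argument: in a central extension `E` of the presented group `Δ` (hence of the Chevalley group, `Δ`
being perfect) the elements `y_r(t) = ⁅h', x'⁆` (`h'` a lift of `h_r(v)`, `x'` a lift of `x_r(t / (v² - 1))`) are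
well defined, equivariant under the lifts of the torus, additive in `t`, and satisfy the commutator relations:
the map `E → G` is injective on the group generated by the `y_r(t)` for the roots of a positive system.
-/

namespace Cfsg.Agent.H46

open Cfsg.Lie Cfsg.Agent.H23 Cfsg.Agent.H46.Univ

variable {D : ChevalleyDatum} {K : Type*} [Field K] {z η : ℕ → ℕ → ℤ}

/-- Images of good lists under the Weyl group are good. -/
theorem goodL_reflW (hP : PackB D K z η) (v : List ℕ) (hv : ∀ i ∈ v, i < D.rank) (L : List ℕ)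
    (hL : ∀ r ∈ L, r < D.nroots) (h : GoodL (xU hP.sem) (TD D K) L) :
    GoodL (xU hP.sem) (TD D K) (L.map (reflW D v)) := by
  classical
  have hS := hP.sem
  have hc := fun q (hq : q < D.nroots) => nWU_conj hS hP.semN hP.tab v hv q hq
  refine UnivAbs.goodL_map (xU hS) (TD D K) (nWU hS v) (reflW D v)
    (fun q => if hq : q < D.nroots then Classical.choose (hc q hq) else 1) L ?_ ?_ (TD_conj hP v hv) h
  · intro q hq
    rw [dif_pos (hL q hq)]
    rcases (Classical.choose_spec (hc q (hL q hq))).1 with h1 | h1 <;> rw [h1] <;> simp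
  · intro q hq t
    rw [dif_pos (hL q hq)]
    exact (Classical.choose_spec (hc q (hL q hq))).2 t

/-- Certificate for the commutativity of the lifted root subgroup `q` from a commutator expression. -/
def PCert (D : ChevalleyDatum) (z : ℕ → ℕ → ℤ) (q : ℕ) : Prop :=
  ∃ (β γ δ : ℕ) (C₁ C₂ : ℤ), β < D.nroots ∧ γ < D.nroots ∧ δ < D.nroots ∧ γ ≠ β ∧ γ ≠ D.neg β ∧
    (C₂ = 1 ∨ C₂ = -1) ∧ D.commTerms β γ = [(δ, C₁, 1, 1), (q, C₂, 1, 2)] ∧
    β ≠ q ∧ β ≠ D.neg q ∧ D.commTerms q β = [] ∧ γ ≠ q ∧ γ ≠ D.neg q ∧ D.commTerms q γ = [] ∧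
    δ ≠ q ∧ δ ≠ D.neg q ∧ D.commTerms q δ = [] ∧
    (z δ q = 0 ∨ (1 ≤ z δ q * z q δ ∧ z δ q * z q δ ≤ 3))

/-- The table facts on the exponents `z r s` of the torus elements. -/
structure ZTab (D : ChevalleyDatum) (z : ℕ → ℕ → ℤ) : Prop where
  self : ∀ e < D.nroots, z e e = 2
  pair : ∀ e < D.nroots, ∀ e' < D.nroots, D.IsPosRoot e → D.IsPosRoot e' → e' ≠ e →
    z e' e = 0 ∨ (1 ≤ z e' e * z e e' ∧ z e' e * z e e' ≤ 3)
  unit : ∀ q < D.nroots, (∃ γ < D.nroots, z γ q = 1 ∨ z γ q = -1) ∨ PCert D z q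

section Lifts

variable {E : Type*} [Group E] (hP : PackB D K z η) (ρ : E →* GL D.Idx K) (hρc : ρ.ker ≤ Subgroup.center E)
  (hTl : ∀ g ∈ TD D K, ∃ e : E, ρ e = g)

include hρc hTl in
/-- The lifted root elements. -/
theorem exists_lifts (hxl : ∀ q t, ∃ e : E, ρ e = xU hP.sem q t) (hself : ∀ e < D.nroots, z e e = 2)
    (v2 : K) (hv2 : v2 ≠ 0) (hv2' : v2 ^ 2 - 1 ≠ 0) :
    ∃ Y : ℕ → K → E, (∀ q < D.nroots, ∀ t, ρ (Y q t) = xU hP.sem q t) ∧
      (∀ q < D.nroots, ∀ (h : E) (χ : K), ρ h ∈ TD D K →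
        (∀ t, ρ h * xU hP.sem q t * (ρ h)⁻¹ = xU hP.sem q (χ * t)) → ∀ t, h * Y q t * h⁻¹ = Y q (χ * t)) ∧
      (∀ q < D.nroots, ∀ (h e : E) (t : K), ρ h = hU hP.sem q v2 → ρ e = xU hP.sem q t →
        h * e * h⁻¹ * e⁻¹ = Y q ((v2 ^ 2 - 1) * t)) ∧
      (∀ q, D.nroots ≤ q → ∀ t, Y q t = 1) := by
  classical
  have hS := hP.sem
  have key : ∀ q, q < D.nroots → ∃ y : K → E, (∀ t : K, ρ (y t) = xU hS q t) ∧
      (∀ (h : E) (χ : K), ρ h ∈ TD D K → (∀ t : K, ρ h * xU hS q t * (ρ h)⁻¹ = xU hS q (χ * t)) →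
        ∀ t : K, h * y t * h⁻¹ = y (χ * t)) ∧
      (∀ (h e : E) (t : K), ρ h = hU hS q v2 → ρ e = xU hS q t → h * e * h⁻¹ * e⁻¹ = y ((v2 ^ 2 - 1) * t)) := by
    intro q hq
    have hmem := hU_mem_diag hS q hq v2 hv2
    refine UnivAbs.exists_lift ρ hρc (xU hS q) (TD D K) (fun t u => (xU_mul hS q t u).symm) (hxl q)
      (hU hS q v2) (hTl _ hmem) (v2 ^ 2) hv2' ?_ (fun g hg => TD_comm hP g hg _ hmem)
    intro t
    rw [hU_conj hS q hq v2 hv2 q hq, hself q hq, show (2 : ℤ) = ((2 : ℕ) : ℤ) by norm_num, zpow_natCast]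
  refine ⟨fun q => if hq : q < D.nroots then Classical.choose (key q hq) else fun _ => 1, ?_, ?_, ?_, ?_⟩
  · intro q hq t
    simp only [dif_pos hq]
    exact (Classical.choose_spec (key q hq)).1 t
  · intro q hq h χ h1 h2 t
    simp only [dif_pos hq]
    exact (Classical.choose_spec (key q hq)).2.1 h χ h1 h2 t
  · intro q hq h e t h1 h2
    simp only [dif_pos hq]
    exact (Classical.choose_spec (key q hq)).2.2 h e t h1 h2
  · intro q hq t
    have : ¬ q < D.nroots := by omega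
    simp only [dif_neg this]

variable (Y : ℕ → K → E) (hmap : ∀ q < D.nroots, ∀ t, ρ (Y q t) = xU hP.sem q t)
  (htor : ∀ q < D.nroots, ∀ (h : E) (χ : K), ρ h ∈ TD D K →
    (∀ t, ρ h * xU hP.sem q t * (ρ h)⁻¹ = xU hP.sem q (χ * t)) → ∀ t, h * Y q t * h⁻¹ = Y q (χ * t))

include hρc hTl hmap htor in
/-- Two lifted root subgroups commute when a torus element separates them and the root elements commute. -/
theorem lifts_comm_pair (q δ : ℕ) (hq : q < D.nroots) (hδ : δ < D.nroots)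
    (hcomm : ∀ s u : K, xU hP.sem q s * xU hP.sem δ u = xU hP.sem δ u * xU hP.sem q s)
    (hsep : ∃ h ∈ TD D K, ∃ c : K, c - 1 ≠ 0 ∧ (∀ t : K, h * xU hP.sem q t * h⁻¹ = xU hP.sem q t) ∧
      (∀ u : K, h * xU hP.sem δ u * h⁻¹ = xU hP.sem δ (c * u))) :
    ∀ s u : K, Y q s * Y δ u = Y δ u * Y q s := by
  have hS := hP.sem
  obtain ⟨g, hg, c, hc1, hg1, hg2⟩ := hsep
  obtain ⟨h, rfl⟩ := hTl g hg
  intro s
  refine UnivAbs.comm_of_sep ρ hρc (Y q s) (Y δ) ?_ ?_ h c hc1 ?_ ?_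
  · intro t u
    rw [hmap δ hδ, hmap δ hδ, hmap δ hδ, xU_mul]
  · intro u
    rw [hmap q hq, hmap δ hδ]
    exact hcomm s u
  · have := htor q hq h 1 hg (fun t => by rw [one_mul]; exact hg1 t) s
    rwa [one_mul] at this
  · exact htor δ hδ h c hg hg2

include hρc hTl hmap htor in
/-- The lifted root subgroups are commutative. -/
theorem lifts_comm (hG : ∀ r < D.nroots, ∀ s < D.nroots, s ≠ r → s ≠ D.neg r → GoodPair hP.sem r s)
    (hZ : ZTab D z) (v1 : K) (hv1 : v1 ≠ 0) (hv1' : v1 + 1 ≠ 0) (hv1'' : v1 ^ 2 + v1 + 1 ≠ 0)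
    (v2 : K) (hv2 : v2 ≠ 0) (hv2' : v2 ^ 2 - 1 ≠ 0) (v3 : K) (hv3 : v3 ≠ 0) (hv3' : v3 ^ 3 - 1 ≠ 0)
    (q : ℕ) (hq : q < D.nroots) : ∀ t u : K, Y q t * Y q u = Y q u * Y q t := by
  have hS := hP.sem
  have hxadd : ∀ t u : K, xU hS q (t + u) = xU hS q t * xU hS q u := fun t u => (xU_mul hS q t u).symm
  rcases hZ.unit q hq with ⟨γ, hγ, hz⟩ | hcert
  · -- two scalings
    have key : ∀ a : K, a ≠ 0 → ∃ h : E, ∀ t, h * Y q t * h⁻¹ = Y q (a * t) := by
      intro a ha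
      rcases hz with hz | hz
      · obtain ⟨h, hh⟩ := hTl _ (hU_mem_diag hS γ hγ a ha)
        refine ⟨h, htor q hq h a (by rw [hh]; exact hU_mem_diag hS γ hγ a ha) ?_⟩
        intro t
        rw [hh, hU_conj hS γ hγ a ha q hq, hz, zpow_one]
      · obtain ⟨h, hh⟩ := hTl _ (hU_mem_diag hS γ hγ a⁻¹ (inv_ne_zero ha))
        refine ⟨h, htor q hq h a (by rw [hh]; exact hU_mem_diag hS γ hγ a⁻¹ (inv_ne_zero ha)) ?_⟩
        intro t
        rw [hh, hU_conj hS γ hγ a⁻¹ (inv_ne_zero ha) q hq, hz, zpow_neg_one, inv_inv]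
    obtain ⟨h₁, hs₁⟩ := key v1 hv1
    obtain ⟨h₂, hs₂⟩ := key (v1 + 1) hv1'
    exact UnivAbs.comm_of_scale ρ hρc (xU hS q) (Y q) hxadd (hmap q hq) h₁ h₂ v1 hv1 hv1'' hs₁ hs₂
  · -- a commutator expression
    obtain ⟨β, γ, δ, C₁, C₂, hβ, hγ, hδ, hγβ, hγβ', hC₂, hterms, hβq, hβq', hqβ, hγq, hγq', hqγ, hδq, hδq',
      hqδ, hzδ⟩ := hcert
    have comm_of_nil : ∀ s' : ℕ, s' < D.nroots → s' ≠ q → s' ≠ D.neg q → D.commTerms q s' = [] →
        ∀ s u : K, xU hS q s * xU hS s' u = xU hS s' u * xU hS q s := by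
      intro s' hs' h1 h2 h3 s u
      have := hG q hq s' hs' h1 h2 s u
      unfold ChevalleyDatum.commWord at this
      rw [h3, List.map_nil, wordU_nil, mul_one, mul_assoc, inv_mul_eq_iff_eq_mul] at this
      exact this.symm
    have hsepδ := sep_of_z hP q δ hq hδ (hZ.self q hq) (hZ.self δ hδ) hzδ v2 hv2 hv2' v3 hv3 hv3'
    have hcδ := lifts_comm_pair hP ρ hρc hTl Y hmap htor q δ hq hδ (comm_of_nil δ hδ hδq hδq' hqδ) hsepδ
    apply UnivAbs.comm_of_comm ρ hρc (Y q)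
    intro a
    have hC₂' : ((C₂ : ℤ) : K) * ((C₂ : ℤ) : K) = 1 := by
      rcases hC₂ with h | h <;> rw [h] <;> simp
    refine ⟨(Y γ 1)⁻¹, (Y β (-(a * (C₂ : K))))⁻¹, Y δ ((C₁ : K) * (-(-(a * (C₂ : K)))) ^ 1 * 1 ^ 1), ?_, ?_, ?_, ?_⟩
    · intro s
      rw [map_inv, hmap γ hγ, hmap q hq]
      have := comm_of_nil γ hγ hγq hγq' hqγ s 1
      rw [inv_mul_eq_iff_eq_mul, ← mul_assoc, ← this, mul_assoc, mul_inv_cancel, mul_one]
    · intro s
      rw [map_inv, hmap β hβ, hmap q hq]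
      have := comm_of_nil β hβ hβq hβq' hqβ s (-(a * (C₂ : K)))
      rw [inv_mul_eq_iff_eq_mul, ← mul_assoc, ← this, mul_assoc, mul_inv_cancel, mul_one]
    · intro s
      exact (hcδ s _).symm
    · have hg := hG β hβ γ hγ hγβ hγβ' (-(a * (C₂ : K))) 1
      unfold ChevalleyDatum.commWord at hg
      rw [hterms] at hg
      simp only [List.map_cons, List.map_nil, wordU_cons, wordU_nil, mul_one] at hg
      simp only [map_mul, map_inv, inv_inv, hmap γ hγ, hmap β hβ, hmap δ hδ, hmap q hq]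
      have e1 : ((C₂ : ℤ) : K) * (-(-(a * (C₂ : K)))) ^ 1 * 1 ^ 2 = a := by
        rw [neg_neg, pow_one, one_pow, mul_one, mul_comm a, ← mul_assoc, hC₂', one_mul]
      rw [e1] at hg
      have e2 : (xU hS γ 1)⁻¹ * (xU hS β (-(a * (C₂ : K))))⁻¹ * xU hS γ 1 * xU hS β (-(a * (C₂ : K))) =
          (xU hS γ 1)⁻¹ * ((xU hS β (-(a * (C₂ : K))))⁻¹ * xU hS γ 1 * xU hS β (-(a * (C₂ : K)))) := by group
      rw [e2, hg, inv_mul_cancel_left]

include hρc hTl hmap htor in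
/-- The lifted root elements are additive. -/
theorem lifts_add (v2 : K) (hv2 : v2 ≠ 0) (hv2' : v2 ^ 2 - 1 ≠ 0)
    (hdef : ∀ q < D.nroots, ∀ (h e : E) (t : K), ρ h = hU hP.sem q v2 → ρ e = xU hP.sem q t →
      h * e * h⁻¹ * e⁻¹ = Y q ((v2 ^ 2 - 1) * t))
    (q : ℕ) (hq : q < D.nroots) (hcomm : ∀ t u : K, Y q t * Y q u = Y q u * Y q t) :
    ∀ t u : K, Y q (t + u) = Y q t * Y q u := by
  have hS := hP.sem
  obtain ⟨h, hh⟩ := hTl _ (hU_mem_diag hS q hq v2 hv2)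
  exact UnivAbs.add_of_comm ρ (xU hS q) (Y q) (fun t u => (xU_mul hS q t u).symm) (hmap q hq) h (v2 ^ 2 - 1) hv2'
    (fun e t he => hdef q hq h e t hh he) hcomm

end Lifts

end Cfsg.Agent.H46
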