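import Cfsg.Agent.H23.CommAllTab
import Cfsg.Agent.H23.UProdTab
import Cfsg.Agent.H46.UnivChk
import Cfsg.Agent.H46.UnivSplit

set_option autoImplicit false
set_option maxRecDepth 100000

/-!
# The table inputs of the splitting theorem, small types
-/

namespace Cfsg.Agent.H46

open Cfsg.Lie Cfsg.Agent.H23

/-- Pairs of roots of type G2 can be moved to positive roots. -/
theorem posP_G2 (r : ℕ) (hr : r < chevG2.nroots) (s : ℕ) (hs : s < chevG2.nroots) (hne : s ≠ r)
    (hne' : s ≠ chevG2.neg r) : PosP chevG2 r s := by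
  refine posP_all tabT_G2 commTA_G2 tabC_G2 w0G2 tabW_G2 ?_ r s hr hs hne hne'
  intro i hi
  obtain ⟨j, hj, e⟩ := tabW0_G2 i hi
  refine ⟨j, hj, ?_⟩
  rw [reflW_eq tabT_G2 _ (fun a ha => tabW_G2.lt a (List.mem_reverse.mp ha)) _ (tabT_G2.simple_lt i hi)]
  exact e

theorem zSelf_G2 : allFrom (fun e => decide (zR chevG2 ctblG2 e e = 2)) 0 chevG2.nroots = true := by
  decide +kernel

theorem zPair_G2 : allFrom (fun e => zPairRow (zR chevG2 ctblG2) (chevG2.nroots / 2)
    (chevG2.nroots - chevG2.nroots / 2) e) (chevG2.nroots / 2) (chevG2.nroots - chevG2.nroots / 2) = true := by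
  decide +kernel

theorem zUnit_G2 : allFrom (fun q => zUnitAny (zR chevG2 ctblG2) q chevG2.nroots) 0 chevG2.nroots = true := by
  decide +kernel

/-- The table facts on the exponents, type G2. -/
theorem zTab_G2 : ZTab chevG2 (zR chevG2 ctblG2) :=
  zTab_of_chk _ _ tabHalf_G2 zSelf_G2
    (fun e h1 h2 => allFrom_sound _ _ _ zPair_G2 e h1 (by omega))
    (fun q hq => Or.inl (allFrom_sound _ 0 _ zUnit_G2 q (Nat.zero_le _) (by omega)))

/-- Pairs of roots of type B2 can be moved to positive roots. -/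
theorem posP_B2 (r : ℕ) (hr : r < chevB2.nroots) (s : ℕ) (hs : s < chevB2.nroots) (hne : s ≠ r)
    (hne' : s ≠ chevB2.neg r) : PosP chevB2 r s := by
  refine posP_all tabT_B2 commTA_B2 tabC_B2 w0B2 tabW_B2 ?_ r s hr hs hne hne'
  intro i hi
  obtain ⟨j, hj, e⟩ := tabW0_B2 i hi
  refine ⟨j, hj, ?_⟩
  rw [reflW_eq tabT_B2 _ (fun a ha => tabW_B2.lt a (List.mem_reverse.mp ha)) _ (tabT_B2.simple_lt i hi)]
  exact e

theorem zSelf_B2 : allFrom (fun e => decide (zR chevB2 ctblB2 e e = 2)) 0 chevB2.nroots = true := by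
  decide +kernel

theorem zPair_B2 : allFrom (fun e => zPairRow (zR chevB2 ctblB2) (chevB2.nroots / 2)
    (chevB2.nroots - chevB2.nroots / 2) e) (chevB2.nroots / 2) (chevB2.nroots - chevB2.nroots / 2) = true := by
  decide +kernel

theorem zUnit_B2 : ∀ q < chevB2.nroots, zUnitAny (zR chevB2 ctblB2) q chevB2.nroots = true ∨
    PCert chevB2 (zR chevB2 ctblB2) q := by
  intro q hq
  have hq' : q < 8 := hq
  interval_cases q
  · exact Or.inr ⟨3, 2, 1, -1, -1, by decide +kernel⟩
  · exact Or.inl (by decide +kernel)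
  · exact Or.inl (by decide +kernel)
  · exact Or.inr ⟨0, 5, 1, 1, -1, by decide +kernel⟩
  · exact Or.inr ⟨0, 6, 2, -1, 1, by decide +kernel⟩
  · exact Or.inl (by decide +kernel)
  · exact Or.inl (by decide +kernel)
  · exact Or.inr ⟨3, 6, 5, 1, 1, by decide +kernel⟩

/-- The table facts on the exponents, type B2. -/
theorem zTab_B2 : ZTab chevB2 (zR chevB2 ctblB2) :=
  zTab_of_chk _ _ tabHalf_B2 zSelf_B2
    (fun e h1 h2 => allFrom_sound _ _ _ zPair_B2 e h1 (by omega))
    zUnit_B2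

/-- Pairs of roots of type D4 can be moved to positive roots. -/
theorem posP_D4 (r : ℕ) (hr : r < chevD4.nroots) (s : ℕ) (hs : s < chevD4.nroots) (hne : s ≠ r)
    (hne' : s ≠ chevD4.neg r) : PosP chevD4 r s := by
  refine posP_all tabT_D4 commTA_D4 tabC_D4 w0D4 tabW_D4 ?_ r s hr hs hne hne'
  intro i hi
  obtain ⟨j, hj, e⟩ := tabW0_D4 i hi
  refine ⟨j, hj, ?_⟩
  rw [reflW_eq tabT_D4 _ (fun a ha => tabW_D4.lt a (List.mem_reverse.mp ha)) _ (tabT_D4.simple_lt i hi)]
  exact e

theorem zSelf_D4 : allFrom (fun e => decide (zR chevD4 ctblD4 e e = 2)) 0 chevD4.nroots = true := by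
  decide +kernel

theorem zPair_D4 : allFrom (fun e => zPairRow (zR chevD4 ctblD4) (chevD4.nroots / 2)
    (chevD4.nroots - chevD4.nroots / 2) e) (chevD4.nroots / 2) (chevD4.nroots - chevD4.nroots / 2) = true := by
  decide +kernel

theorem zUnit_D4 : allFrom (fun q => zUnitAny (zR chevD4 ctblD4) q chevD4.nroots) 0 chevD4.nroots = true := by
  decide +kernel

/-- The table facts on the exponents, type D4. -/
theorem zTab_D4 : ZTab chevD4 (zR chevD4 ctblD4) :=
  zTab_of_chk _ _ tabHalf_D4 zSelf_D4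
    (fun e h1 h2 => allFrom_sound _ _ _ zPair_D4 e h1 (by omega))
    (fun q hq => Or.inl (allFrom_sound _ 0 _ zUnit_D4 q (Nat.zero_le _) (by omega)))

/-- Pairs of roots of type F4 can be moved to positive roots. -/
theorem posP_F4 (r : ℕ) (hr : r < chevF4.nroots) (s : ℕ) (hs : s < chevF4.nroots) (hne : s ≠ r)
    (hne' : s ≠ chevF4.neg r) : PosP chevF4 r s := by
  refine posP_all tabT_F4 commTA_F4 tabC_F4 w0F4 tabW_F4 ?_ r s hr hs hne hne'
  intro i hi
  obtain ⟨j, hj, e⟩ := tabW0_F4 i hi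
  refine ⟨j, hj, ?_⟩
  rw [reflW_eq tabT_F4 _ (fun a ha => tabW_F4.lt a (List.mem_reverse.mp ha)) _ (tabT_F4.simple_lt i hi)]
  exact e

theorem zSelf_F4 : allFrom (fun e => decide (zR chevF4 ctblF4 e e = 2)) 0 chevF4.nroots = true := by
  decide +kernel

theorem zPair_F4 : allFrom (fun e => zPairRow (zR chevF4 ctblF4) (chevF4.nroots / 2)
    (chevF4.nroots - chevF4.nroots / 2) e) (chevF4.nroots / 2) (chevF4.nroots - chevF4.nroots / 2) = true := by
  decide +kernel

theorem zUnit_F4 : allFrom (fun q => zUnitAny (zR chevF4 ctblF4) q chevF4.nroots) 0 chevF4.nroots = true := by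
  decide +kernel

/-- The table facts on the exponents, type F4. -/
theorem zTab_F4 : ZTab chevF4 (zR chevF4 ctblF4) :=
  zTab_of_chk _ _ tabHalf_F4 zSelf_F4
    (fun e h1 h2 => allFrom_sound _ _ _ zPair_F4 e h1 (by omega))
    (fun q hq => Or.inl (allFrom_sound _ 0 _ zUnit_F4 q (Nat.zero_le _) (by omega)))

/-- Pairs of roots of type E6 can be moved to positive roots. -/
theorem posP_E6 (r : ℕ) (hr : r < chevE6.nroots) (s : ℕ) (hs : s < chevE6.nroots) (hne : s ≠ r)
    (hne' : s ≠ chevE6.neg r) : PosP chevE6 r s := by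
  refine posP_all tabT_E6 commTA_E6 tabC_E6 w0E6 tabW_E6 ?_ r s hr hs hne hne'
  intro i hi
  obtain ⟨j, hj, e⟩ := tabW0_E6 i hi
  refine ⟨j, hj, ?_⟩
  rw [reflW_eq tabT_E6 _ (fun a ha => tabW_E6.lt a (List.mem_reverse.mp ha)) _ (tabT_E6.simple_lt i hi)]
  exact e

theorem zSelf_E6 : allFrom (fun e => decide (zR chevE6 ctblE6 e e = 2)) 0 chevE6.nroots = true := by
  decide +kernel

theorem zPair_E6 : allFrom (fun e => zPairRow (zR chevE6 ctblE6) (chevE6.nroots / 2)
    (chevE6.nroots - chevE6.nroots / 2) e) (chevE6.nroots / 2) (chevE6.nroots - chevE6.nroots / 2) = true := by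
  decide +kernel

theorem zUnit_E6 : allFrom (fun q => zUnitAny (zR chevE6 ctblE6) q chevE6.nroots) 0 chevE6.nroots = true := by
  decide +kernel

/-- The table facts on the exponents, type E6. -/
theorem zTab_E6 : ZTab chevE6 (zR chevE6 ctblE6) :=
  zTab_of_chk _ _ tabHalf_E6 zSelf_E6
    (fun e h1 h2 => allFrom_sound _ _ _ zPair_E6 e h1 (by omega))
    (fun q hq => Or.inl (allFrom_sound _ 0 _ zUnit_E6 q (Nat.zero_le _) (by omega)))

end Cfsg.Agent.H46
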